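import Mathlib
import Cfsg.Agent.Lib.Helper16.BRStmt2
import Cfsg.Agent.Lib.Helper91.BRDEG
import Cfsg.Agent.Lib.CT.Wedderburn
import Cfsg.Agent.Lib.CT.Ops

/-!
Piece [DEGB] of S0996 (Brauer, `n < (p + 3) / 2`): an irreducible character with value `-1` on
`P \ {1}` has degree `p - 1`, and its restriction to `N_G(P)` has no linear constituent.
-/

set_option autoImplicit false

namespace Cfsg.Agent.Lib.Helper91.BGDEGB

open Cfsg Cfsg.Agent.Lib.CT.ThirdMain Cfsg.Agent.Lib.Helper16.BRSpec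
  Cfsg.Agent.Lib.CT.Wedderburn
open scoped ComplexConjugate

universe u

theorem arithG (p u n : ℕ) (hp : 3 ≤ p) (hu : 2 ≤ u) (hun : u ≤ n) (hn : 2 * n ≤ p + 1)
    (hd : (u * p - 1) ∣ (p - 1) * (1 + n * p)) : False := by
  have hup : 1 ≤ u * p := by nlinarith
  have hD : ((u * p - 1 : ℕ) : ℤ) = (u : ℤ) * p - 1 := by
    rw [Nat.cast_sub hup]; push_cast; ring
  have hp1 : ((p - 1 : ℕ) : ℤ) = (p : ℤ) - 1 := by
    rw [Nat.cast_sub (by omega : 1 ≤ p)]; push_cast; ring
  have hdz : ((u : ℤ) * p - 1) ∣ ((p : ℤ) - 1) * (1 + n * p) := by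
    have h := Int.natCast_dvd_natCast.mpr hd
    rw [hD, Nat.cast_mul, hp1] at h
    push_cast at h
    exact h
  have h1 : ((u : ℤ) * p - 1) ∣ (u : ℤ) ^ 2 * (((p : ℤ) - 1) * (1 + n * p)) :=
    Dvd.dvd.mul_left hdz _
  have h2 : (u : ℤ) ^ 2 * (((p : ℤ) - 1) * (1 + n * p)) =
      ((u : ℤ) * p - 1) * (u + 2 * n + n * ((u : ℤ) * p - 1) - u * n)
        - (((u : ℤ) - 1) * (u + n)) := by ring
  rw [h2] at h1
  have h3 : ((u : ℤ) * p - 1) ∣ ((u : ℤ) - 1) * (u + n) := by
    have h4 := (dvd_sub_right (dvd_mul_right ((u : ℤ) * p - 1)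
      (u + 2 * n + n * ((u : ℤ) * p - 1) - u * n))).mp h1
    exact h4
  have hu' : (2 : ℤ) ≤ u := by exact_mod_cast hu
  have hun' : (u : ℤ) ≤ n := by exact_mod_cast hun
  have hn' : (2 : ℤ) * n ≤ p + 1 := by exact_mod_cast hn
  have hp' : (3 : ℤ) ≤ p := by exact_mod_cast hp
  have hpos : (0 : ℤ) < ((u : ℤ) - 1) * (u + n) := by
    apply mul_pos <;> linarith
  have hle := Int.le_of_dvd hpos h3
  have e1 : ((u : ℤ) - 1) * (u + n) ≤ ((u : ℤ) - 1) * (2 * n) :=
    mul_le_mul_of_nonneg_left (by linarith) (by linarith)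
  have e2 : ((u : ℤ) - 1) * (2 * n) ≤ ((u : ℤ) - 1) * (p + 1) :=
    mul_le_mul_of_nonneg_left hn' (by linarith)
  have e3 : ((u : ℤ) - 1) * (p + 1) = u * p - 1 + (u - p) := by ring
  linarith

theorem finsum_P_split {G : Type*} [Group G] [Finite G] (P : Subgroup G) (φ : G → ℂ) :
    ∑ᶠ x ∈ (P : Set G), φ x = φ 1 + ∑ᶠ z ∈ ((P : Set G) \ {1}), φ z := by
  have hfin : (P : Set G).Finite := Set.toFinite _
  have h := finsum_mem_add_sdiff (f := φ) (s := {1}) (t := (P : Set G))
    (by simp) hfin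
  rw [finsum_mem_singleton] at h
  exact h.symm

theorem finsum_P_const {G : Type*} [Group G] [Finite G] (P : Subgroup G) (φ : G → ℂ) (c : ℂ)
    (h : ∀ z ∈ P, z ≠ 1 → φ z = c) :
    ∑ᶠ z ∈ ((P : Set G) \ {1}), φ z = ((Nat.card P - 1 : ℕ) : ℂ) * c := by
  have hfin : ((P : Set G) \ {1}).Finite := Set.toFinite _
  rw [finsum_mem_congr rfl (fun z hz => h z hz.1 hz.2),
    finsum_mem_eq_finite_toFinset_sum _ hfin, Finset.sum_const, nsmul_eq_mul]
  congr 2
  rw [← Set.ncard_eq_toFinset_card _ hfin, Set.ncard_sdiff_singleton_of_mem (P.one_mem),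
    ← Nat.card_coe_set_eq]
  rfl

theorem main : Cfsg.Agent.Lib.Helper16.BRStmt2.DegB.{u} := by
  intro G _ _ p _ P hP hC e n hN hep hidx h2n hp3 y ω mult hR χ hχ
  classical
  have hp : p.Prime := Fact.out
  have : Finite (IrrCharacter G) := finite_irrCharacter G
  let _ : Fintype (IrrCharacter G) := Fintype.ofFinite _
  have hd : ∀ χ : IrrCharacter G, (χ : G → ℂ) 1 = (charDegree (χ : G → ℂ) : ℂ) := fun χ =>
    (char_natCast_charDegree (isCharacter_of_irr χ.2)).symm
  obtain ⟨d, hdd⟩ : ∃ d : ℕ, d = charDegree (χ : G → ℂ) := ⟨_, rfl⟩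
  obtain ⟨s, hs⟩ : ∃ s : ℕ, s = ∑ i ∈ Finset.range e, mult χ i := ⟨_, rfl⟩
  have hr2 : ((p * s : ℕ) : ℂ) = (d : ℂ) + ((p - 1 : ℕ) : ℂ) * (-1) := by
    have h := hR.r2 χ
    rw [finsum_P_split, finsum_P_const (P : Subgroup G) _ (-1) hχ, hP, hd χ, ← hdd] at h
    rw [← h, hs]; push_cast; ring
  have hr2' : p * s + (p - 1) = d := by
    have h : ((p * s + (p - 1) : ℕ) : ℂ) = (d : ℂ) := by
      rw [Nat.cast_add, hr2]; ring
    exact_mod_cast h
  by_cases hs0 : s = 0
  · constructor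
    · rw [hd χ, ← hdd, ← hr2', hs0, Nat.mul_zero, Nat.zero_add]
    · intro i hi
      rw [hs0] at hs
      exact (Finset.sum_eq_zero_iff.mp hs.symm) i (Finset.mem_range.mpr hi)
  · exfalso
    -- some multiplicity is positive
    obtain ⟨i, hi, hmi⟩ : ∃ i, i < e ∧ 1 ≤ mult χ i := by
      by_contra hcon
      push Not at hcon
      apply hs0
      rw [hs]
      apply Finset.sum_eq_zero
      intro i hi
      have := hcon i (Finset.mem_range.mp hi)
      omega
    have hR1 : ∑ χ : IrrCharacter G, mult χ i * charDegree (χ : G → ℂ) = 1 + n * p := by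
      have h := hR.r1 i hi
      rw [finsum_eq_sum_of_fintype, hidx] at h
      have h' : ((∑ χ : IrrCharacter G, mult χ i * charDegree (χ : G → ℂ) : ℕ) : ℂ) =
          ((1 + n * p : ℕ) : ℂ) := by
        rw [← h, Nat.cast_sum]
        apply Finset.sum_congr rfl
        intro χ _
        rw [Nat.cast_mul, hd χ]
      exact Nat.cast_injective h'
    have hle : d ≤ 1 + n * p := by
      have h1 : mult χ i * charDegree (χ : G → ℂ) ≤
          ∑ χ : IrrCharacter G, mult χ i * charDegree (χ : G → ℂ) :=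
        Finset.single_le_sum (f := fun χ : IrrCharacter G => mult χ i * charDegree (χ : G → ℂ))
          (fun _ _ => Nat.zero_le _) (Finset.mem_univ χ)
      rw [hR1, ← hdd] at h1
      have h2 : d ≤ mult χ i * d := Nat.le_mul_of_pos_left d hmi
      omega
    have hdeq : d = (s + 1) * p - 1 := by
      rw [← hr2']
      have : (s + 1) * p = p * s + p := by ring
      have := hp.pos
      omega
    have hun : s + 1 ≤ n := by
      by_contra hcon
      push Not at hcon
      have h1 : (n + 1) * p ≤ (s + 1) * p := Nat.mul_le_mul_right p (by omega)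
      have h2 : (n + 1) * p = n * p + p := by ring
      omega
    -- the degree divides |G : C_G(P)|
    obtain ⟨z, hz, hz1⟩ : ∃ z ∈ (P : Subgroup G), z ≠ 1 := by
      by_contra hcon
      push Not at hcon
      have hbot : (P : Subgroup G) = ⊥ := (Subgroup.eq_bot_iff_forall _).mpr hcon
      rw [hbot, Subgroup.card_bot] at hP
      omega
    have hdvd := Cfsg.Agent.Lib.Helper91.BRDEG.main G p P hP χ (-1) (Or.inr rfl) z hz hz1
      (by rw [hχ z hz hz1]; push_cast; ring)
    rw [hC, ← hdd] at hdvd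
    have hPidx : (P : Subgroup G).index = e * (1 + n * p) := by
      have h1 := Subgroup.card_mul_index (P : Subgroup G)
      have h2 := Subgroup.card_mul_index (Subgroup.normalizer ((P : Subgroup G) : Set G))
      rw [hP] at h1
      rw [hN, hidx] at h2
      have h3 : p * (P : Subgroup G).index = p * (e * (1 + n * p)) := by
        rw [h1, ← h2]; ring
      exact Nat.eq_of_mul_eq_mul_left hp.pos h3
    rw [hPidx] at hdvd
    have hdvd2 : d ∣ (p - 1) * (1 + n * p) := hdvd.trans (Nat.mul_dvd_mul_right hep _)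
    rw [hdeq] at hdvd2
    exact arithG p (s + 1) n hp3 (by omega) hun h2n hdvd2

end Cfsg.Agent.Lib.Helper91.BGDEGB
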