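import Mathlib

set_option autoImplicit false

/-! Pure group theory for the Schur multiplier of `J₃` (piece `coreB` of S2041): a commutator
calculus lemma for a group generated modulo a central subgroup by `X` and `Y = C X C⁻¹`. -/

namespace Cfsg.Agent.Lib.Helper91.J3MultB

open scoped commutatorElement

section general

variable {Γ : Type*} [Group Γ]

theorem conj_eq' (g v : Γ) : g * v * g⁻¹ = ⁅v, g⁆⁻¹ * v := by
  rw [commutatorElement_def]; group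

theorem comm_central_left {z g k : Γ} (hz : z ∈ Subgroup.center Γ) : ⁅z * g, k⁆ = ⁅g, k⁆ := by
  have h := Subgroup.mem_center_iff.mp hz (g * k * g⁻¹)
  rw [commutatorElement_def, commutatorElement_def]
  calc z * g * k * (z * g)⁻¹ * k⁻¹ = z * (g * k * g⁻¹) * z⁻¹ * k⁻¹ := by group
    _ = (g * k * g⁻¹) * z * z⁻¹ * k⁻¹ := by rw [h]
    _ = g * k * g⁻¹ * k⁻¹ := by group

theorem comm_central_right {y g k : Γ} (hy : y ∈ Subgroup.center Γ) : ⁅g, y * k⁆ = ⁅g, k⁆ := by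
  rw [← commutatorElement_inv, comm_central_left hy, commutatorElement_inv]

theorem comm_central {a g h : Γ} (hg : ⁅a, g⁆ ∈ Subgroup.center Γ)
    (hh : ⁅a, h⁆ ∈ Subgroup.center Γ) : a * ⁅g, h⁆ = ⁅g, h⁆ * a := by
  have e : a * ⁅g, h⁆ * a⁻¹ = ⁅⁅a, g⁆ * g, ⁅a, h⁆ * h⁆ := by
    simp only [commutatorElement_def]; group
  rw [comm_central_left hg, comm_central_right hh] at e
  calc a * ⁅g, h⁆ = a * ⁅g, h⁆ * a⁻¹ * a := by group
    _ = ⁅g, h⁆ * a := by rw [e]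

theorem comm_mem_of_gens (K : Subgroup Γ) (S : Set Γ)
    (hn : ∀ s ∈ S, ∀ k ∈ K, s * k * s⁻¹ ∈ K ∧ s⁻¹ * k * s ∈ K)
    (hc : ∀ s ∈ S, ∀ t ∈ S, ⁅s, t⁆ ∈ K) :
    ∀ g ∈ Subgroup.closure S, ∀ h ∈ Subgroup.closure S, ⁅g, h⁆ ∈ K := by
  have hN : ∀ g ∈ Subgroup.closure S, ∀ k ∈ K, g * k * g⁻¹ ∈ K ∧ g⁻¹ * k * g ∈ K := by
    intro g hg
    induction hg using Subgroup.closure_induction with
    | mem x hx => exact hn x hx
    | one => intro k hk; simpa using hk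
    | mul x y _ _ ihx ihy =>
      intro k hk
      refine ⟨?_, ?_⟩
      · have : x * y * k * (x * y)⁻¹ = x * (y * k * y⁻¹) * x⁻¹ := by group
        rw [this]; exact (ihx _ (ihy k hk).1).1
      · have : (x * y)⁻¹ * k * (x * y) = y⁻¹ * (x⁻¹ * k * x) * y := by group
        rw [this]; exact (ihy _ (ihx k hk).2).2
    | inv x _ ih =>
      intro k hk
      refine ⟨?_, ?_⟩
      · have : x⁻¹ * k * x⁻¹⁻¹ = x⁻¹ * k * x := by group
        rw [this]; exact (ih k hk).2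
      · have : x⁻¹⁻¹ * k * x⁻¹ = x * k * x⁻¹ := by group
        rw [this]; exact (ih k hk).1
  have step1 : ∀ t ∈ S, ∀ g ∈ Subgroup.closure S, ⁅g, t⁆ ∈ K := by
    intro t ht g hg
    induction hg using Subgroup.closure_induction with
    | mem x hx => exact hc x hx t ht
    | one => rw [commutatorElement_one_left]; exact K.one_mem
    | mul x y hx hy ihx ihy =>
      have : ⁅x * y, t⁆ = x * ⁅y, t⁆ * x⁻¹ * ⁅x, t⁆ := by
        simp only [commutatorElement_def]; group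
      rw [this]; exact K.mul_mem (hN x hx _ ihy).1 ihx
    | inv x hx ih =>
      have : ⁅x⁻¹, t⁆ = x⁻¹ * ⁅x, t⁆⁻¹ * x := by
        simp only [commutatorElement_def]; group
      rw [this]; exact (hN x hx _ (K.inv_mem ih)).2
  intro g hg h hh
  induction hh using Subgroup.closure_induction with
  | mem x hx => exact step1 x hx g hg
  | one => rw [commutatorElement_one_right]; exact K.one_mem
  | mul x y hx hy ihx ihy =>
    have : ⁅g, x * y⁆ = ⁅g, x⁆ * (x * ⁅g, y⁆ * x⁻¹) := by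
      simp only [commutatorElement_def]; group
    rw [this]; exact K.mul_mem ihx (hN x hx _ ihy).1
  | inv x hx ih =>
    have : ⁅g, x⁻¹⁆ = x⁻¹ * ⁅g, x⁆⁻¹ * x := by
      simp only [commutatorElement_def]; group
    rw [this]; exact (hN x hx _ (K.inv_mem ih)).2

end general

section abstract

/-- The abstract computation, in additive notation. -/
theorem al_add {A : Type*} [AddCommGroup A] (isZ : A → Prop) (fx fy : A →+ A)
    (hfxZ : ∀ z, isZ z → fx z = z) (hfyZ : ∀ z, isZ z → fy z = z)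
    (u v1 v2 a w b c : A) (ha : isZ a) (hw : isZ w) (hb : isZ b) (hc : isZ c)
    (hxu : fx u = -v1 + u) (hyu : fy u = -v2 + u)
    (hxv1 : fx v1 = -a + v1) (hyv1 : fy v1 = -w + v1)
    (hxv2 : fx v2 = -b + v2) (hyv2 : fy v2 = -c + v2)
    (hgen : ∀ P : A → Prop, P 0 → (∀ x y, P x → P y → P (x + y)) → (∀ x, P x → P (-x)) →
      P u → P v1 → P v2 → (∀ z, isZ z → P z) → ∀ p, P p)
    (hx3 : ∀ p, fx (fx (fx p)) = p) (hy3 : ∀ p, fy (fy (fy p)) = p)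
    (hxy : fx (fy u) = fy (fx u))
    (n κu : A) (hκ : κu = fy n + -u + -n)
    (hk1 : (3 : ℕ) • κu = (3 : ℕ) • u)
    (hk2 : a = (κu + -fy κu) + -fy (κu + -fy κu))
    (hk3 : w = (κu + -fy κu) + -fx (fy (κu + -fy κu)))
    (k : ℕ) (hodd : Odd k) (huk : k • u = 0) :
    (3 : ℕ) • u = 0 ∧ (3 : ℕ) • v1 = 0 ∧ (3 : ℕ) • v2 = 0 ∧ (3 : ℕ) • w = 0 ∧
      a = -w ∧ b = w ∧ c = w := by
  have a3 : (3 : ℕ) • a = 0 := by
    have h := hx3 v1
    simp only [hxv1, map_add, map_neg, hfxZ a ha] at h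
    linear_combination (norm := module) (-1 : ℤ) • h
  have w3 : (3 : ℕ) • w = 0 := by
    have h := hy3 v1
    simp only [hyv1, map_add, map_neg, hfyZ w hw] at h
    linear_combination (norm := module) (-1 : ℤ) • h
  have c3 : (3 : ℕ) • c = 0 := by
    have h := hy3 v2
    simp only [hyv2, map_add, map_neg, hfyZ c hc] at h
    linear_combination (norm := module) (-1 : ℤ) • h
  have v13 : (3 : ℕ) • v1 = 0 := by
    have h := hx3 u
    simp only [hxu, hxv1, map_add, map_neg, hfxZ a ha] at h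
    linear_combination (norm := module) (-1 : ℤ) • h + (1 : ℤ) • a3
  have v23 : (3 : ℕ) • v2 = 0 := by
    have h := hy3 u
    simp only [hyu, hyv2, map_add, map_neg, hfyZ c hc] at h
    linear_combination (norm := module) (-1 : ℤ) • h + (1 : ℤ) • c3
  obtain ⟨D, hD⟩ : ∃ D : A →+ A, ∀ p, D p = p - fy p :=
    ⟨AddMonoidHom.id A - fy, fun p => rfl⟩
  obtain ⟨Dxy, hDxy⟩ : ∃ D : A →+ A, ∀ p, D p = p - fx (fy p) :=
    ⟨AddMonoidHom.id A - fx.comp fy, fun p => rfl⟩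
  have triv : ∀ f : A →+ A, f u = 0 → f v1 = 0 → f v2 = 0 → (∀ z, isZ z → f z = 0) →
      ∀ p, f p = 0 := fun f h1 h2 h3 h4 =>
    hgen (fun p => f p = 0) (map_zero f) (fun x y hx hy => by rw [map_add, hx, hy, add_zero])
      (fun x hx => by rw [map_neg, hx, neg_zero]) h1 h2 h3 h4
  have Du : D u = v2 := by rw [hD, hyu]; abel
  have Dv1 : D v1 = w := by rw [hD, hyv1]; abel
  have Dv2 : D v2 = c := by rw [hD, hyv2]; abel
  have DZ : ∀ z, isZ z → D z = 0 := fun z hz => by rw [hD, hfyZ z hz, sub_self]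
  have DxyZ : ∀ z, isZ z → Dxy z = 0 := fun z hz => by
    rw [hDxy, hfyZ z hz, hfxZ z hz, sub_self]
  have Dxyv2 : Dxy v2 = c + b := by
    rw [hDxy, hyv2, map_add, map_neg, hfxZ c hc, hxv2]; abel
  have T1 : ∀ p, (3 : ℕ) • D p = 0 :=
    hgen (fun p => (3 : ℕ) • D p = 0) (by rw [map_zero, smul_zero])
      (fun x y hx hy => by rw [map_add, smul_add, hx, hy, add_zero])
      (fun x hx => by rw [map_neg, smul_neg, hx, neg_zero])
      (by rw [Du]; exact v23) (by rw [Dv1]; exact w3) (by rw [Dv2]; exact c3)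
      (fun z hz => by rw [DZ z hz, smul_zero])
  have T2 : ∀ p, D (D (D p)) = 0 :=
    triv (D.comp (D.comp D))
      (by show D (D (D u)) = 0; rw [Du, Dv2, DZ c hc])
      (by show D (D (D v1)) = 0; rw [Dv1, DZ w hw, map_zero])
      (by show D (D (D v2)) = 0; rw [Dv2, DZ c hc, map_zero])
      (fun z hz => by show D (D (D z)) = 0; rw [DZ z hz, map_zero, map_zero])
  have T3 : ∀ p, Dxy (D (D p)) = 0 :=
    triv (Dxy.comp (D.comp D))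
      (by show Dxy (D (D u)) = 0; rw [Du, Dv2, DxyZ c hc])
      (by show Dxy (D (D v1)) = 0; rw [Dv1, DZ w hw, map_zero])
      (by show Dxy (D (D v2)) = 0; rw [Dv2, DZ c hc, map_zero])
      (fun z hz => by show Dxy (D (D z)) = 0; rw [DZ z hz, map_zero, map_zero])
  have hκ' : κu = -(D n) + -u := by rw [hκ, hD]; abel
  have h6 : (6 : ℕ) • u = 0 := by
    have t := T1 n
    rw [hκ'] at hk1
    linear_combination (norm := module) (-1 : ℤ) • hk1 - (1 : ℤ) • t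
  have u3 : (3 : ℕ) • u = 0 := by
    obtain ⟨j, rfl⟩ := hodd
    linear_combination (norm := module) (3 : ℤ) • huk - (j : ℤ) • h6
  have bw : b = w := by
    have h := hxy
    simp only [hyu, hxu, map_add, map_neg, hxv2, hyv1] at h
    linear_combination (norm := module) (1 : ℤ) • h
  have e1 : ∀ p, p + -fy p = D p := fun p => by rw [hD]; abel
  have e3 : ∀ p, p + -fx (fy p) = Dxy p := fun p => by rw [hDxy]; abel
  have e2 : D κu = -(D (D n)) + -v2 := by rw [hκ', map_add, map_neg, map_neg, Du]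
  rw [e1 κu, e1 (D κu), e2, map_add, map_neg, map_neg, T2 n, Dv2] at hk2
  rw [e1 κu, e3 (D κu), e2, map_add, map_neg, map_neg, T3 n, Dxyv2] at hk3
  have cw : c = w := by
    linear_combination (norm := module) (1 : ℤ) • hk3 - (1 : ℤ) • bw - (1 : ℤ) • w3
  have aw : a = -w := by
    linear_combination (norm := module) (1 : ℤ) • hk2 - (1 : ℤ) • cw
  exact ⟨u3, v13, v23, w3, aw, bw, cw⟩

/-- The abstract computation, in multiplicative notation. -/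
theorem al_mul {A : Type*} [CommGroup A] (isZ : A → Prop) (fx fy : A →* A)
    (hfxZ : ∀ z, isZ z → fx z = z) (hfyZ : ∀ z, isZ z → fy z = z)
    (u v1 v2 a w b c : A) (ha : isZ a) (hw : isZ w) (hb : isZ b) (hc : isZ c)
    (hxu : fx u = v1⁻¹ * u) (hyu : fy u = v2⁻¹ * u)
    (hxv1 : fx v1 = a⁻¹ * v1) (hyv1 : fy v1 = w⁻¹ * v1)
    (hxv2 : fx v2 = b⁻¹ * v2) (hyv2 : fy v2 = c⁻¹ * v2)
    (hgen : ∀ P : A → Prop, P 1 → (∀ x y, P x → P y → P (x * y)) → (∀ x, P x → P x⁻¹) →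
      P u → P v1 → P v2 → (∀ z, isZ z → P z) → ∀ p, P p)
    (hx3 : ∀ p, fx (fx (fx p)) = p) (hy3 : ∀ p, fy (fy (fy p)) = p)
    (hxy : fx (fy u) = fy (fx u))
    (n κu : A) (hκ : κu = fy n * u⁻¹ * n⁻¹)
    (hk1 : κu ^ 3 = u ^ 3)
    (hk2 : a = (κu * (fy κu)⁻¹) * (fy (κu * (fy κu)⁻¹))⁻¹)
    (hk3 : w = (κu * (fy κu)⁻¹) * (fx (fy (κu * (fy κu)⁻¹)))⁻¹)
    (k : ℕ) (hodd : Odd k) (huk : u ^ k = 1) :
    u ^ 3 = 1 ∧ v1 ^ 3 = 1 ∧ v2 ^ 3 = 1 ∧ w ^ 3 = 1 ∧ a = w⁻¹ ∧ b = w ∧ c = w :=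
  al_add (A := Additive A) isZ (MonoidHom.toAdditive fx) (MonoidHom.toAdditive fy) hfxZ hfyZ
    u v1 v2 a w b c ha hw hb hc hxu hyu hxv1 hyv1 hxv2 hyv2 hgen hx3 hy3 hxy n κu hκ hk1 hk2 hk3
    k hodd huk

end abstract

section main

variable {Γ : Type*} [Group Γ]

theorem prod4 {A : Type*} [CommGroup A] (u v1 v2 w : A) (a b c e a' b' c' e' : ℤ) :
    (u ^ a * v1 ^ b * v2 ^ c * w ^ e) * (u ^ a' * v1 ^ b' * v2 ^ c' * w ^ e') =
      u ^ (a + a') * v1 ^ (b + b') * v2 ^ (c + c') * w ^ (e + e') := by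
  simp only [zpow_add]; ac_rfl

theorem inv4 {A : Type*} [CommGroup A] (u v1 v2 w : A) (a b c e : ℤ) :
    (u ^ a * v1 ^ b * v2 ^ c * w ^ e)⁻¹ = u ^ (-a) * v1 ^ (-b) * v2 ^ (-c) * w ^ (-e) := by
  simp only [zpow_neg, mul_inv]

theorem coreB_main (Z : Subgroup Γ) (hZ : Z ≤ Subgroup.center Γ)
    (X C Y U V₁ V₂ W : Γ) (hY : Y = C * X * C⁻¹) (hU : U = ⁅X, Y⁆)
    (hV₁ : V₁ = ⁅U, X⁆) (hV₂ : V₂ = ⁅U, Y⁆) (hW : W = ⁅V₁, Y⁆)
    (h11 : ⁅V₁, X⁆ ∈ Z) (h12 : ⁅V₁, Y⁆ ∈ Z) (h21 : ⁅V₂, X⁆ ∈ Z) (h22 : ⁅V₂, Y⁆ ∈ Z)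
    (A : Subgroup Γ) (hAcomm : ∀ x ∈ A, ∀ y ∈ A, x * y = y * x)
    (hUA : U ∈ A) (hV1A : V₁ ∈ A) (hV2A : V₂ ∈ A) (hZA : ∀ z ∈ Z, z ∈ A)
    (hind : ∀ P : Γ → Prop, P 1 → (∀ x y, P x → P y → P (x * y)) → (∀ x, P x → P x⁻¹) →
      P U → P V₁ → P V₂ → (∀ z ∈ Z, P z) → ∀ p ∈ A, P p)
    (hX3 : X ^ 3 ∈ A) (hY3 : Y ^ 3 ∈ A) (hC : C * Y * C⁻¹ * (X * Y)⁻¹ ∈ A)
    (hU3 : U ^ 3 ∈ Z) (n : ℕ) (hn : Odd n) (hUn : U ^ n = 1) :
    U ^ 3 = 1 ∧ V₁ ^ 3 = 1 ∧ V₂ ^ 3 = 1 ∧ W ^ 3 = 1 ∧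
      ⁅V₁, X⁆ = W⁻¹ ∧ ⁅V₂, X⁆ = W ∧ ⁅V₂, Y⁆ = W := by
  have cen : ∀ z ∈ Z, ∀ g : Γ, g * z = z * g := fun z hz g =>
    Subgroup.mem_center_iff.mp (hZ hz) g
  have cconj : ∀ z ∈ Z, ∀ g : Γ, g * z * g⁻¹ = z := fun z hz g => by
    rw [cen z hz g, mul_inv_cancel_right]
  have conjA : ∀ g : Γ, g * U * g⁻¹ ∈ A → g * V₁ * g⁻¹ ∈ A → g * V₂ * g⁻¹ ∈ A →
      ∀ p ∈ A, g * p * g⁻¹ ∈ A := by
    intro g h1 h2 h3
    refine hind (fun p => g * p * g⁻¹ ∈ A) ?_ ?_ ?_ h1 h2 h3 ?_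
    · show g * 1 * g⁻¹ ∈ A
      rw [mul_one, mul_inv_cancel]; exact A.one_mem
    · intro x y hx hy
      have : g * (x * y) * g⁻¹ = (g * x * g⁻¹) * (g * y * g⁻¹) := by group
      show g * (x * y) * g⁻¹ ∈ A
      rw [this]; exact A.mul_mem hx hy
    · intro x hx
      have : g * x⁻¹ * g⁻¹ = (g * x * g⁻¹)⁻¹ := by group
      show g * x⁻¹ * g⁻¹ ∈ A
      rw [this]; exact A.inv_mem hx
    · intro z hz
      show g * z * g⁻¹ ∈ A
      rw [cconj z hz g]; exact hZA z hz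
  have eXU : X * U * X⁻¹ = V₁⁻¹ * U := by rw [conj_eq' X U, ← hV₁]
  have eYU : Y * U * Y⁻¹ = V₂⁻¹ * U := by rw [conj_eq' Y U, ← hV₂]
  have hXA : ∀ p ∈ A, X * p * X⁻¹ ∈ A := conjA X
    (by rw [eXU]; exact A.mul_mem (A.inv_mem hV1A) hUA)
    (by rw [conj_eq' X V₁]; exact A.mul_mem (A.inv_mem (hZA _ h11)) hV1A)
    (by rw [conj_eq' X V₂]; exact A.mul_mem (A.inv_mem (hZA _ h21)) hV2A)
  have hYA : ∀ p ∈ A, Y * p * Y⁻¹ ∈ A := conjA Y
    (by rw [eYU]; exact A.mul_mem (A.inv_mem hV2A) hUA)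
    (by rw [conj_eq' Y V₁]; exact A.mul_mem (A.inv_mem (hZA _ h12)) hV1A)
    (by rw [conj_eq' Y V₂]; exact A.mul_mem (A.inv_mem (hZA _ h22)) hV2A)
  obtain ⟨fx, hfx⟩ : ∃ fx : A →* A, ∀ p : A, (fx p : Γ) = X * p * X⁻¹ :=
    ⟨{ toFun := fun p => ⟨X * p * X⁻¹, hXA p p.2⟩
       map_one' := Subtype.ext (by
         show X * ((1 : A) : Γ) * X⁻¹ = ((1 : A) : Γ)
         rw [Subgroup.coe_one, mul_one, mul_inv_cancel])
       map_mul' := fun p q => Subtype.ext (by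
         show X * ((p * q : A) : Γ) * X⁻¹ = X * (p : Γ) * X⁻¹ * (X * (q : Γ) * X⁻¹)
         rw [Subgroup.coe_mul]; group) }, fun p => rfl⟩
  obtain ⟨fy, hfy⟩ : ∃ fy : A →* A, ∀ p : A, (fy p : Γ) = Y * p * Y⁻¹ :=
    ⟨{ toFun := fun p => ⟨Y * p * Y⁻¹, hYA p p.2⟩
       map_one' := Subtype.ext (by
         show Y * ((1 : A) : Γ) * Y⁻¹ = ((1 : A) : Γ)
         rw [Subgroup.coe_one, mul_one, mul_inv_cancel])
       map_mul' := fun p q => Subtype.ext (by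
         show Y * ((p * q : A) : Γ) * Y⁻¹ = Y * (p : Γ) * Y⁻¹ * (Y * (q : Γ) * Y⁻¹)
         rw [Subgroup.coe_mul]; group) }, fun p => rfl⟩
  obtain ⟨u, hu⟩ : ∃ u : A, (u : Γ) = U := ⟨⟨U, hUA⟩, rfl⟩
  obtain ⟨v1, hv1⟩ : ∃ v : A, (v : Γ) = V₁ := ⟨⟨V₁, hV1A⟩, rfl⟩
  obtain ⟨v2, hv2⟩ : ∃ v : A, (v : Γ) = V₂ := ⟨⟨V₂, hV2A⟩, rfl⟩
  obtain ⟨a, ha⟩ : ∃ v : A, (v : Γ) = ⁅V₁, X⁆ := ⟨⟨_, hZA _ h11⟩, rfl⟩
  obtain ⟨w, hw⟩ : ∃ v : A, (v : Γ) = ⁅V₁, Y⁆ := ⟨⟨_, hZA _ h12⟩, rfl⟩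
  obtain ⟨b, hb⟩ : ∃ v : A, (v : Γ) = ⁅V₂, X⁆ := ⟨⟨_, hZA _ h21⟩, rfl⟩
  obtain ⟨c, hc⟩ : ∃ v : A, (v : Γ) = ⁅V₂, Y⁆ := ⟨⟨_, hZA _ h22⟩, rfl⟩
  obtain ⟨nA, hnA⟩ : ∃ v : A, (v : Γ) = C * Y * C⁻¹ * (X * Y)⁻¹ := ⟨⟨_, hC⟩, rfl⟩
  obtain ⟨κu, hκ⟩ : ∃ v : A, v = fy nA * u⁻¹ * nA⁻¹ := ⟨_, rfl⟩
  have hκc : (κu : Γ) = C * U * C⁻¹ := by
    rw [hκ]
    simp only [Subgroup.coe_mul, Subgroup.coe_inv, hfy, hu, hnA]
    have k1 : C * ⁅X, Y⁆ * C⁻¹ = ⁅C * X * C⁻¹, C * Y * C⁻¹⁆ := by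
      simp only [commutatorElement_def]; group
    rw [← hU, ← hY] at k1
    rw [k1, hU]
    simp only [commutatorElement_def]; group
  have hfxZ : ∀ z : A, (z : Γ) ∈ Z → fx z = z := fun z hz =>
    Subtype.ext (by rw [hfx, cconj _ hz X])
  have hfyZ : ∀ z : A, (z : Γ) ∈ Z → fy z = z := fun z hz =>
    Subtype.ext (by rw [hfy, cconj _ hz Y])
  have hxu : fx u = v1⁻¹ * u := Subtype.ext (by
    rw [hfx, Subgroup.coe_mul, Subgroup.coe_inv, hu, hv1]; exact eXU)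
  have hyu : fy u = v2⁻¹ * u := Subtype.ext (by
    rw [hfy, Subgroup.coe_mul, Subgroup.coe_inv, hu, hv2]; exact eYU)
  have hxv1 : fx v1 = a⁻¹ * v1 := Subtype.ext (by
    rw [hfx, Subgroup.coe_mul, Subgroup.coe_inv, hv1, ha]; exact conj_eq' X V₁)
  have hyv1 : fy v1 = w⁻¹ * v1 := Subtype.ext (by
    rw [hfy, Subgroup.coe_mul, Subgroup.coe_inv, hv1, hw]; exact conj_eq' Y V₁)
  have hxv2 : fx v2 = b⁻¹ * v2 := Subtype.ext (by
    rw [hfx, Subgroup.coe_mul, Subgroup.coe_inv, hv2, hb]; exact conj_eq' X V₂)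
  have hyv2 : fy v2 = c⁻¹ * v2 := Subtype.ext (by
    rw [hfy, Subgroup.coe_mul, Subgroup.coe_inv, hv2, hc]; exact conj_eq' Y V₂)
  have hgen : ∀ P : A → Prop, P 1 → (∀ x y, P x → P y → P (x * y)) → (∀ x, P x → P x⁻¹) →
      P u → P v1 → P v2 → (∀ z : A, (z : Γ) ∈ Z → P z) → ∀ p, P p := by
    intro P h1 hmul hinv hPu hPv1 hPv2 hPz p
    have := hind (fun x => ∃ hx : x ∈ A, P ⟨x, hx⟩) ⟨A.one_mem, h1⟩
      (fun x y ⟨hx, px⟩ ⟨hy, py⟩ => ⟨A.mul_mem hx hy, hmul _ _ px py⟩)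
      (fun x ⟨hx, px⟩ => ⟨A.inv_mem hx, hinv _ px⟩)
      ⟨hUA, by have : (⟨U, hUA⟩ : A) = u := Subtype.ext hu.symm
               rw [this]; exact hPu⟩
      ⟨hV1A, by have : (⟨V₁, hV1A⟩ : A) = v1 := Subtype.ext hv1.symm
                rw [this]; exact hPv1⟩
      ⟨hV2A, by have : (⟨V₂, hV2A⟩ : A) = v2 := Subtype.ext hv2.symm
                rw [this]; exact hPv2⟩
      (fun z hz => ⟨hZA z hz, hPz ⟨z, hZA z hz⟩ hz⟩) p p.2
    obtain ⟨_, h⟩ := this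
    exact h
  have hx3 : ∀ p : A, fx (fx (fx p)) = p := fun p => Subtype.ext (by
    rw [hfx, hfx, hfx]
    have h3 := hAcomm (X ^ 3) hX3 p p.2
    calc X * (X * (X * (p : Γ) * X⁻¹) * X⁻¹) * X⁻¹ = X ^ 3 * p * (X ^ 3)⁻¹ := by
          have e3 : X ^ 3 = X * X * X := by rw [pow_succ, pow_two]
          rw [e3]; simp only [mul_inv_rev, mul_assoc]
      _ = p * X ^ 3 * (X ^ 3)⁻¹ := by rw [h3]
      _ = p := by group)
  have hy3 : ∀ p : A, fy (fy (fy p)) = p := fun p => Subtype.ext (by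
    rw [hfy, hfy, hfy]
    have h3 := hAcomm (Y ^ 3) hY3 p p.2
    calc Y * (Y * (Y * (p : Γ) * Y⁻¹) * Y⁻¹) * Y⁻¹ = Y ^ 3 * p * (Y ^ 3)⁻¹ := by
          have e3 : Y ^ 3 = Y * Y * Y := by rw [pow_succ, pow_two]
          rw [e3]; simp only [mul_inv_rev, mul_assoc]
      _ = p * Y ^ 3 * (Y ^ 3)⁻¹ := by rw [h3]
      _ = p := by group)
  have hxy : fx (fy u) = fy (fx u) := Subtype.ext (by
    rw [hfx, hfy, hfy, hfx, hu]
    have hq : Y * (X * U * X⁻¹) * Y⁻¹ ∈ A := hYA _ (hXA _ hUA)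
    have e1 : X * (Y * U * Y⁻¹) * X⁻¹ = ⁅X, Y⁆ * (Y * (X * U * X⁻¹) * Y⁻¹) * ⁅X, Y⁆⁻¹ := by
      rw [commutatorElement_def]; group
    rw [e1, ← hU, hAcomm U hUA _ hq, mul_inv_cancel_right])
  have hk1 : κu ^ 3 = u ^ 3 := Subtype.ext (by
    rw [Subgroup.coe_pow, Subgroup.coe_pow, hκc, hu, conj_pow, cconj _ hU3 C])
  have hk2 : a = (κu * (fy κu)⁻¹) * (fy (κu * (fy κu)⁻¹))⁻¹ := Subtype.ext (by
    simp only [Subgroup.coe_mul, Subgroup.coe_inv, hfy, hκc, ha]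
    have e : C * ⁅⁅U, X⁆, X⁆ * C⁻¹ =
        C * U * C⁻¹ * (C * X * C⁻¹ * (C * U * C⁻¹) * (C * X * C⁻¹)⁻¹)⁻¹ *
          (C * X * C⁻¹ * (C * U * C⁻¹ * (C * X * C⁻¹ * (C * U * C⁻¹) * (C * X * C⁻¹)⁻¹)⁻¹) *
            (C * X * C⁻¹)⁻¹)⁻¹ := by
      simp only [commutatorElement_def]; group
    rw [← hV₁, ← hY, cconj _ h11 C] at e
    exact e)
  have hk3 : w = (κu * (fy κu)⁻¹) * (fx (fy (κu * (fy κu)⁻¹)))⁻¹ := by
    obtain ⟨r, hr⟩ : ∃ r : A, r = κu * (fy κu)⁻¹ := ⟨_, rfl⟩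
    rw [← hr]
    have hrc : (r : Γ) = ⁅C * U * C⁻¹, Y⁆ := by
      rw [hr]
      simp only [Subgroup.coe_mul, Subgroup.coe_inv, hfy, hκc, commutatorElement_def]
      group
    have hN : C * Y * C⁻¹ = nA * X * Y := by rw [hnA]; group
    have hq : ((fx (fy r) : A) : Γ) = X * (Y * r * Y⁻¹) * X⁻¹ := by rw [hfx, hfy]
    have hcomm := hAcomm (nA : Γ) nA.2 ((fx (fy r) : A) : Γ)⁻¹ (A.inv_mem (fx (fy r)).2)
    have e : ⁅(r : Γ), C * Y * C⁻¹⁆ =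
        r * ((nA : Γ) * ((fx (fy r) : A) : Γ)⁻¹ * (nA : Γ)⁻¹) := by
      rw [hN, hq, commutatorElement_def]; group
    rw [hcomm, mul_inv_cancel_right] at e
    have e2 : C * ⁅⁅U, X⁆, Y⁆ * C⁻¹ = ⁅⁅C * U * C⁻¹, C * X * C⁻¹⁆, C * Y * C⁻¹⁆ := by
      simp only [commutatorElement_def]; group
    rw [← hV₁, ← hY, cconj _ h12 C, ← hrc, e] at e2
    exact Subtype.ext (by rw [hw, Subgroup.coe_mul, Subgroup.coe_inv]; exact e2)
  have key := @al_mul A { (inferInstance : Group A) with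
      mul_comm := fun x y => Subtype.ext (hAcomm x x.2 y y.2) }
    (fun p : A => (p : Γ) ∈ Z) fx fy hfxZ hfyZ u v1 v2 a w b c
    (by show (a : Γ) ∈ Z; rw [ha]; exact h11) (by show (w : Γ) ∈ Z; rw [hw]; exact h12)
    (by show (b : Γ) ∈ Z; rw [hb]; exact h21) (by show (c : Γ) ∈ Z; rw [hc]; exact h22)
    hxu hyu hxv1 hyv1 hxv2 hyv2 hgen hx3 hy3 hxy nA κu hκ hk1 hk2 hk3 n hn
    (Subtype.ext (by rw [Subgroup.coe_pow, hu, hUn, Subgroup.coe_one]))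
  obtain ⟨k1, k2, k3, k4, k5, k6, k7⟩ := key
  refine ⟨?_, ?_, ?_, ?_, ?_, ?_, ?_⟩
  · rw [← hu]; exact congrArg Subtype.val k1
  · rw [← hv1]; exact congrArg Subtype.val k2
  · rw [← hv2]; exact congrArg Subtype.val k3
  · rw [hW, ← hw]; exact congrArg Subtype.val k4
  · rw [hW, ← ha, ← hw]; exact congrArg Subtype.val k5
  · rw [hW, ← hb, ← hw]; exact congrArg Subtype.val k6
  · rw [hW, ← hc, ← hw]; exact congrArg Subtype.val k7

theorem coreB_final (Z : Subgroup Γ) (hZ : Z ≤ Subgroup.center Γ)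
    (X Y U V₁ V₂ W : Γ) (hU : U = ⁅X, Y⁆) (hV₁ : V₁ = ⁅U, X⁆) (hV₂ : V₂ = ⁅U, Y⁆)
    (hW : W = ⁅V₁, Y⁆) (hWZ : W ∈ Z)
    (h11 : ⁅V₁, X⁆ = W⁻¹) (h21 : ⁅V₂, X⁆ = W) (h22 : ⁅V₂, Y⁆ = W)
    (A : Subgroup Γ) (hAcomm : ∀ x ∈ A, ∀ y ∈ A, x * y = y * x)
    (hUA : U ∈ A) (hV1A : V₁ ∈ A) (hV2A : V₂ ∈ A) (hWA : W ∈ A)
    (hX3 : X ^ 3 ∈ A) (hY3 : Y ^ 3 ∈ A) :
    ∀ d ∈ ⁅Subgroup.closure {X, Y} ⊔ Z, Subgroup.closure {X, Y} ⊔ Z⁆,
      ∃ a b c e : ℤ, d = U ^ a * V₁ ^ b * V₂ ^ c * W ^ e := by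
  have cen : ∀ z ∈ Z, ∀ g : Γ, g * z = z * g := fun z hz g =>
    Subgroup.mem_center_iff.mp (hZ hz) g
  have cconj : ∀ z ∈ Z, ∀ g : Γ, g * z * g⁻¹ = z := fun z hz g => by
    rw [cen z hz g, mul_inv_cancel_right]
  have eXU : X * U * X⁻¹ = V₁⁻¹ * U := by rw [conj_eq' X U, ← hV₁]
  have eXV1 : X * V₁ * X⁻¹ = W * V₁ := by rw [conj_eq' X V₁, h11, inv_inv]
  have eXV2 : X * V₂ * X⁻¹ = W⁻¹ * V₂ := by rw [conj_eq' X V₂, h21]
  have eYU : Y * U * Y⁻¹ = V₂⁻¹ * U := by rw [conj_eq' Y U, ← hV₂]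
  have eYV1 : Y * V₁ * Y⁻¹ = W⁻¹ * V₁ := by rw [conj_eq' Y V₁, ← hW]
  have eYV2 : Y * V₂ * Y⁻¹ = W⁻¹ * V₂ := by rw [conj_eq' Y V₂, h22]
  obtain ⟨K, hK⟩ : ∃ K : Subgroup Γ, K = Subgroup.closure ({U, V₁, V₂, W} : Set Γ) :=
    ⟨_, rfl⟩
  have hUK : U ∈ K := by rw [hK]; exact Subgroup.subset_closure (by simp)
  have hV1K : V₁ ∈ K := by rw [hK]; exact Subgroup.subset_closure (by simp)
  have hV2K : V₂ ∈ K := by rw [hK]; exact Subgroup.subset_closure (by simp)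
  have hWK : W ∈ K := by rw [hK]; exact Subgroup.subset_closure (by simp)
  have hKA : K ≤ A := by
    rw [hK, Subgroup.closure_le]
    intro x hx
    simp only [Set.mem_insert_iff, Set.mem_singleton_iff] at hx
    rcases hx with hx | hx | hx | hx <;> rw [hx] <;>
      first | exact hUA | exact hV1A | exact hV2A | exact hWA
  have form : ∀ d ∈ K, ∃ a b c e : ℤ, d = U ^ a * V₁ ^ b * V₂ ^ c * W ^ e := by
    intro d hd
    rw [hK] at hd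
    induction hd using Subgroup.closure_induction with
    | mem x hx =>
      simp only [Set.mem_insert_iff, Set.mem_singleton_iff] at hx
      rcases hx with hx | hx | hx | hx
      · exact ⟨1, 0, 0, 0, by simp [hx]⟩
      · exact ⟨0, 1, 0, 0, by simp [hx]⟩
      · exact ⟨0, 0, 1, 0, by simp [hx]⟩
      · exact ⟨0, 0, 0, 1, by simp [hx]⟩
    | one => exact ⟨0, 0, 0, 0, by simp⟩
    | mul x y _ _ ihx ihy =>
      obtain ⟨a, b, c, e, rfl⟩ := ihx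
      obtain ⟨a', b', c', e', rfl⟩ := ihy
      exact ⟨a + a', b + b', c + c', e + e', congrArg Subtype.val
        (@prod4 A { (inferInstance : Group A) with
          mul_comm := fun x y => Subtype.ext (hAcomm x x.2 y y.2) }
          ⟨U, hUA⟩ ⟨V₁, hV1A⟩ ⟨V₂, hV2A⟩ ⟨W, hWA⟩ a b c e a' b' c' e')⟩
    | inv x _ ih =>
      obtain ⟨a, b, c, e, rfl⟩ := ih
      exact ⟨-a, -b, -c, -e, congrArg Subtype.val
        (@inv4 A { (inferInstance : Group A) with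
          mul_comm := fun x y => Subtype.ext (hAcomm x x.2 y y.2) }
          ⟨U, hUA⟩ ⟨V₁, hV1A⟩ ⟨V₂, hV2A⟩ ⟨W, hWA⟩ a b c e)⟩
  have conjK : ∀ g : Γ, g * U * g⁻¹ ∈ K → g * V₁ * g⁻¹ ∈ K → g * V₂ * g⁻¹ ∈ K →
      g * W * g⁻¹ ∈ K → ∀ p ∈ K, g * p * g⁻¹ ∈ K := by
    intro g h1 h2 h3 h4 p hp
    rw [hK] at hp
    induction hp using Subgroup.closure_induction with
    | mem x hx =>
      simp only [Set.mem_insert_iff, Set.mem_singleton_iff] at hx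
      rcases hx with hx | hx | hx | hx <;> rw [hx] <;> assumption
    | one => rw [mul_one, mul_inv_cancel]; exact K.one_mem
    | mul x y _ _ ihx ihy =>
      have : g * (x * y) * g⁻¹ = (g * x * g⁻¹) * (g * y * g⁻¹) := by group
      rw [this]; exact K.mul_mem ihx ihy
    | inv x _ ih =>
      have : g * x⁻¹ * g⁻¹ = (g * x * g⁻¹)⁻¹ := by group
      rw [this]; exact K.inv_mem ih
  have hXK : ∀ k ∈ K, X * k * X⁻¹ ∈ K := conjK X
    (by rw [eXU]; exact K.mul_mem (K.inv_mem hV1K) hUK)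
    (by rw [eXV1]; exact K.mul_mem hWK hV1K)
    (by rw [eXV2]; exact K.mul_mem (K.inv_mem hWK) hV2K)
    (by rw [cconj W hWZ X]; exact hWK)
  have hYK : ∀ k ∈ K, Y * k * Y⁻¹ ∈ K := conjK Y
    (by rw [eYU]; exact K.mul_mem (K.inv_mem hV2K) hUK)
    (by rw [eYV1]; exact K.mul_mem (K.inv_mem hWK) hV1K)
    (by rw [eYV2]; exact K.mul_mem (K.inv_mem hWK) hV2K)
    (by rw [cconj W hWZ Y]; exact hWK)
  have inv3 : ∀ g : Γ, g ^ 3 ∈ A → (∀ k ∈ K, g * k * g⁻¹ ∈ K) →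
      ∀ k ∈ K, g⁻¹ * k * g ∈ K := by
    intro g hg3 hg k hk
    have h3 := hAcomm (g ^ 3) hg3 k (hKA hk)
    have e : g⁻¹ * k * g = g * (g * k * g⁻¹) * g⁻¹ := by
      calc g⁻¹ * k * g = g * g * ((g ^ 3)⁻¹ * (k * g ^ 3)) * g⁻¹ * g⁻¹ := by group
        _ = g * g * ((g ^ 3)⁻¹ * (g ^ 3 * k)) * g⁻¹ * g⁻¹ := by rw [h3]
        _ = g * (g * k * g⁻¹) * g⁻¹ := by group
    rw [e]; exact hg _ (hg _ hk)
  have hT : Subgroup.closure {X, Y} ⊔ Z =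
      Subgroup.closure (({X, Y} : Set Γ) ∪ (Z : Set Γ)) := by
    rw [Subgroup.closure_union, Subgroup.closure_eq]
  have key := comm_mem_of_gens K (({X, Y} : Set Γ) ∪ (Z : Set Γ))
    (by
      rintro s (hs | hs) k hk
      · simp only [Set.mem_insert_iff, Set.mem_singleton_iff] at hs
        rcases hs with hs | hs
        · rw [hs]; exact ⟨hXK k hk, inv3 X hX3 hXK k hk⟩
        · rw [hs]; exact ⟨hYK k hk, inv3 Y hY3 hYK k hk⟩
      · have h1 : s * k * s⁻¹ = k := by rw [← cen s hs k, mul_inv_cancel_right]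
        have h2 : s⁻¹ * k * s = k := by rw [mul_assoc, cen s hs k, inv_mul_cancel_left]
        rw [h1, h2]; exact ⟨hk, hk⟩)
    (by
      rintro s (hs | hs) t (ht | ht)
      · simp only [Set.mem_insert_iff, Set.mem_singleton_iff] at hs ht
        rcases hs with hs | hs <;> rcases ht with ht | ht <;> rw [hs, ht]
        · rw [commutatorElement_self]; exact K.one_mem
        · rw [← hU]; exact hUK
        · rw [← commutatorElement_inv, ← hU]; exact K.inv_mem hUK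
        · rw [commutatorElement_self]; exact K.one_mem
      · rw [commutatorElement_eq_one_iff_mul_comm.mpr (cen t ht s)]; exact K.one_mem
      · rw [commutatorElement_eq_one_iff_mul_comm.mpr (cen s hs t).symm]; exact K.one_mem
      · rw [commutatorElement_eq_one_iff_mul_comm.mpr (cen t ht s)]; exact K.one_mem)
  intro d hd
  rw [hT] at hd
  exact form d ((Subgroup.commutator_le.mpr fun g hg h hh => key g hg h hh) hd)

/-- [coreB] the `3`-part of the commutator calculus (piece of S2041). -/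
theorem coreB {Γ : Type*} [Group Γ] (Z : Subgroup Γ) (hZ : Z ≤ Subgroup.center Γ)
    (X C Y U V₁ V₂ W : Γ) (hY : Y = C * X * C⁻¹) (hU : U = ⁅X, Y⁆)
    (hV₁ : V₁ = ⁅U, X⁆) (hV₂ : V₂ = ⁅U, Y⁆) (hW : W = ⁅V₁, Y⁆)
    (h11 : ⁅V₁, X⁆ ∈ Z) (h12 : ⁅V₁, Y⁆ ∈ Z) (h21 : ⁅V₂, X⁆ ∈ Z) (h22 : ⁅V₂, Y⁆ ∈ Z)
    (hX3 : X ^ 3 ∈ Subgroup.closure {U, V₁, V₂} ⊔ Z)
    (hY3 : Y ^ 3 ∈ Subgroup.closure {U, V₁, V₂} ⊔ Z)
    (hC : C * Y * C⁻¹ * (X * Y)⁻¹ ∈ Subgroup.closure {U, V₁, V₂} ⊔ Z)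
    (hU3 : U ^ 3 ∈ Z) (n : ℕ) (hn : Odd n) (hUn : U ^ n = 1) :
    U ^ 3 = 1 ∧ V₁ ^ 3 = 1 ∧ V₂ ^ 3 = 1 ∧ W ^ 3 = 1 ∧
    ∀ d ∈ ⁅Subgroup.closure {X, Y} ⊔ Z, Subgroup.closure {X, Y} ⊔ Z⁆,
      ∃ a b c e : ℤ, d = U ^ a * V₁ ^ b * V₂ ^ c * W ^ e := by
  have cen : ∀ z ∈ Z, ∀ g : Γ, g * z = z * g := fun z hz g =>
    Subgroup.mem_center_iff.mp (hZ hz) g
  have cV1U : V₁ * U = U * V₁ := by rw [hU]; exact comm_central (hZ h11) (hZ h12)
  have cV2U : V₂ * U = U * V₂ := by rw [hU]; exact comm_central (hZ h21) (hZ h22)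
  have cV1V2 : V₁ * V₂ = V₂ * V₁ := by
    rw [hV₂]
    refine comm_central ?_ (hZ h12)
    rw [commutatorElement_eq_one_iff_mul_comm.mpr cV1U]; exact Subgroup.one_mem _
  obtain ⟨A, hA⟩ : ∃ A : Subgroup Γ, A = Subgroup.closure {U, V₁, V₂} ⊔ Z := ⟨_, rfl⟩
  have hA' : A = Subgroup.closure (({U, V₁, V₂} : Set Γ) ∪ (Z : Set Γ)) := by
    rw [hA, Subgroup.closure_union, Subgroup.closure_eq]
  have hUA : U ∈ A := by
    rw [hA]; exact Subgroup.mem_sup_left (Subgroup.subset_closure (by simp))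
  have hV1A : V₁ ∈ A := by
    rw [hA]; exact Subgroup.mem_sup_left (Subgroup.subset_closure (by simp))
  have hV2A : V₂ ∈ A := by
    rw [hA]; exact Subgroup.mem_sup_left (Subgroup.subset_closure (by simp))
  have hZA : ∀ z ∈ Z, z ∈ A := fun z hz => by rw [hA]; exact Subgroup.mem_sup_right hz
  have hind : ∀ P : Γ → Prop, P 1 → (∀ x y, P x → P y → P (x * y)) → (∀ x, P x → P x⁻¹) →
      P U → P V₁ → P V₂ → (∀ z ∈ Z, P z) → ∀ p ∈ A, P p := by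
    intro P h1 hmul hinv hPU hPV1 hPV2 hPz p hp
    rw [hA'] at hp
    induction hp using Subgroup.closure_induction with
    | mem x hx =>
      rcases hx with hx | hx
      · simp only [Set.mem_insert_iff, Set.mem_singleton_iff] at hx
        rcases hx with hx | hx | hx <;> rw [hx] <;> assumption
      · exact hPz x hx
    | one => exact h1
    | mul x y _ _ ihx ihy => exact hmul x y ihx ihy
    | inv x _ ih => exact hinv x ih
  have comm_gen : ∀ s : Γ, Commute s U → Commute s V₁ → Commute s V₂ →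
      ∀ p ∈ A, Commute s p :=
    fun s h1 h2 h3 => hind (fun p => Commute s p) (Commute.one_right s)
      (fun x y hx hy => hx.mul_right hy) (fun x hx => hx.inv_right) h1 h2 h3
      (fun z hz => cen z hz s)
  have hAcomm : ∀ x ∈ A, ∀ y ∈ A, x * y = y * x := by
    intro x hx
    refine hind (fun x => ∀ y ∈ A, x * y = y * x) ?_ ?_ ?_ ?_ ?_ ?_ ?_ x hx
    · intro y _; rw [one_mul, mul_one]
    · intro a b ha hb y hy
      have h1 : Commute a y := ha y hy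
      have h2 : Commute b y := hb y hy
      exact h1.mul_left h2
    · intro a ha y hy
      have h1 : Commute a y := ha y hy
      exact h1.inv_left
    · exact comm_gen U (Commute.refl U) cV1U.symm cV2U.symm
    · exact comm_gen V₁ cV1U (Commute.refl V₁) cV1V2
    · exact comm_gen V₂ cV2U cV1V2.symm (Commute.refl V₂)
    · intro z hz y _; exact (cen z hz y).symm
  have hWZ : W ∈ Z := by rw [hW]; exact h12
  obtain ⟨r1, r2, r3, r4, r5, r6, r7⟩ := coreB_main Z hZ X C Y U V₁ V₂ W hY hU hV₁ hV₂ hW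
    h11 h12 h21 h22 A hAcomm hUA hV1A hV2A hZA hind (by rw [hA]; exact hX3)
    (by rw [hA]; exact hY3) (by rw [hA]; exact hC) hU3 n hn hUn
  exact ⟨r1, r2, r3, r4, coreB_final Z hZ X Y U V₁ V₂ W hU hV₁ hV₂ hW hWZ r5 r6 r7 A hAcomm
    hUA hV1A hV2A (hZA W hWZ) (by rw [hA]; exact hX3) (by rw [hA]; exact hY3)⟩

end main

end Cfsg.Agent.Lib.Helper91.J3MultB
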