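import Mathlib
import Cfsg.Agent.Lib.Helper46.PsuStmt
import Cfsg.Agent.Lib.Helper52.PslP7c

set_option autoImplicit false
set_option linter.unusedSectionVars false

/-!
# S5172 piece TH (`TorH`) : the torus elements of the Levi factor are products of six
coupled root elements.  Also exports the torus elements `tor` (used by piece TG).
-/

namespace Cfsg.Agent.Lib.Helper91.PsuTH

open Matrix Cfsg.Agent.Lib.Helper43.SUBase Cfsg.Agent.H84.PslDefs
  Cfsg.Agent.Lib.Helper46.PsuDefs Cfsg.Agent.Lib.Helper46.PsuStmt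
open Cfsg.Agent.Lib.Helper52.PslP7c (G G_diag G_one x_mul y_mul)

universe u

section Mat
variable {n : ℕ} {K : Type u} [Field K]

theorem G_apply_row (i j : Fin n) (α β γ δ : K) (r s : Fin n) (hri : r ≠ i) (hrj : r ≠ j) :
    G i j α β γ δ r s = if r = s then 1 else 0 := by
  unfold G
  simp only [if_neg hri, if_neg hrj]

theorem G_apply_col (i j : Fin n) (α β γ δ : K) (r s : Fin n) (hsi : s ≠ i) (hsj : s ≠ j) :
    G i j α β γ δ r s = if r = s then 1 else 0 := by
  unfold G
  by_cases hri : r = i
  · subst hri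
    simp only [if_true, if_neg hsi, if_neg hsj, if_neg (Ne.symm hsi)]
  · by_cases hrj : r = j
    · subst hrj
      simp only [if_neg hri, if_true, if_neg hsi, if_neg hsj, if_neg (Ne.symm hsj)]
    · simp only [if_neg hri, if_neg hrj]

/-- a transvection with indices disjoint from the block commutes with `G` -/
theorem tv_comm_G (i j c d : Fin n) (hci : c ≠ i) (hcj : c ≠ j) (hdi : d ≠ i) (hdj : d ≠ j)
    (y α β γ δ : K) :
    Matrix.transvection c d y * G i j α β γ δ = G i j α β γ δ * Matrix.transvection c d y := by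
  ext r s
  by_cases hr : r = c
  · subst hr
    rw [Matrix.transvection_mul_apply_same]
    by_cases hs : s = d
    · subst hs
      rw [Matrix.mul_transvection_apply_same, G_apply_row i j α β γ δ s s hdi hdj,
        G_apply_col i j α β γ δ r r hci hcj, if_pos rfl, if_pos rfl]
    · rw [Matrix.mul_transvection_apply_of_ne _ _ _ _ hs, G_apply_row i j α β γ δ d s hdi hdj,
        if_neg (Ne.symm hs), mul_zero, add_zero]
  · rw [Matrix.transvection_mul_apply_of_ne _ _ _ _ hr]
    by_cases hs : s = d
    · subst hs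
      rw [Matrix.mul_transvection_apply_same, G_apply_col i j α β γ δ r c hci hcj,
        if_neg hr, mul_zero, add_zero]
    · rw [Matrix.mul_transvection_apply_of_ne _ _ _ _ hs]

/-- coupled "x"-step on a product of two disjoint blocks -/
theorem XG (i j i' j' : Fin n) (hij : i ≠ j) (hji' : j' ≠ i')
    (h1 : j' ≠ i) (h2 : j' ≠ j) (h3 : i' ≠ i) (h4 : i' ≠ j)
    (a a' α β γ δ α' β' γ' δ' : K) :
    (Matrix.transvection i j a * Matrix.transvection j' i' a') *
        (G i j α β γ δ * G j' i' α' β' γ' δ')
      = G i j (α + a * γ) (β + a * δ) γ δ * G j' i' (α' + a' * γ') (β' + a' * δ') γ' δ' := by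
  calc (Matrix.transvection i j a * Matrix.transvection j' i' a') *
        (G i j α β γ δ * G j' i' α' β' γ' δ')
      = Matrix.transvection i j a * ((Matrix.transvection j' i' a' * G i j α β γ δ) *
          G j' i' α' β' γ' δ') := by simp only [Matrix.mul_assoc]
    _ = Matrix.transvection i j a * ((G i j α β γ δ * Matrix.transvection j' i' a') *
          G j' i' α' β' γ' δ') := by rw [tv_comm_G i j j' i' h1 h2 h3 h4]
    _ = (Matrix.transvection i j a * G i j α β γ δ) *
          (Matrix.transvection j' i' a' * G j' i' α' β' γ' δ') := by simp only [Matrix.mul_assoc]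
    _ = _ := by rw [x_mul i j hij, x_mul j' i' hji']

/-- coupled "y"-step on a product of two disjoint blocks -/
theorem YG (i j i' j' : Fin n) (hij : i ≠ j) (hji' : j' ≠ i')
    (h1 : j' ≠ i) (h2 : j' ≠ j) (h3 : i' ≠ i) (h4 : i' ≠ j)
    (a a' α β γ δ α' β' γ' δ' : K) :
    (Matrix.transvection j i a * Matrix.transvection i' j' a') *
        (G i j α β γ δ * G j' i' α' β' γ' δ')
      = G i j α β (γ + a * α) (δ + a * β) * G j' i' α' β' (γ' + a' * α') (δ' + a' * β') := by
  calc (Matrix.transvection j i a * Matrix.transvection i' j' a') *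
        (G i j α β γ δ * G j' i' α' β' γ' δ')
      = Matrix.transvection j i a * ((Matrix.transvection i' j' a' * G i j α β γ δ) *
          G j' i' α' β' γ' δ') := by simp only [Matrix.mul_assoc]
    _ = Matrix.transvection j i a * ((G i j α β γ δ * Matrix.transvection i' j' a') *
          G j' i' α' β' γ' δ') := by rw [tv_comm_G i j i' j' h3 h4 h1 h2]
    _ = (Matrix.transvection j i a * G i j α β γ δ) *
          (Matrix.transvection i' j' a' * G j' i' α' β' γ' δ') := by simp only [Matrix.mul_assoc]
    _ = _ := by rw [y_mul i j hij, y_mul j' i' hji']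

theorem G_congr (i j : Fin n) {a b c d a' b' c' d' : K} (ha : a = a') (hb : b = b')
    (hc : c = c') (hd : d = d') : G i j a b c d = G i j a' b' c' d' := by
  subst ha; subst hb; subst hc; subst hd; rfl

/-- the `SL_2` identity in both blocks simultaneously (with a trailing identity block) -/
theorem six' (i j i' j' : Fin n) (hij : i ≠ j) (hji' : j' ≠ i')
    (h1 : j' ≠ i) (h2 : j' ≠ j) (h3 : i' ≠ i) (h4 : i' ≠ j)
    (β b : K) (hβ : β ≠ 0) (hb : b ≠ 0) :
    (Matrix.transvection i j β * Matrix.transvection j' i' (-b)) *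
      ((Matrix.transvection j i (-β⁻¹) * Matrix.transvection i' j' b⁻¹) *
      ((Matrix.transvection i j β * Matrix.transvection j' i' (-b)) *
      ((Matrix.transvection i j (-1) * Matrix.transvection j' i' 1) *
      ((Matrix.transvection j i 1 * Matrix.transvection i' j' (-1)) *
      ((Matrix.transvection i j (-1) * Matrix.transvection j' i' 1) *
        (G i j (1 : K) 0 0 1 * G j' i' (1 : K) 0 0 1))))))
      = G i j β 0 0 β⁻¹ * G j' i' b 0 0 b⁻¹ := by
  rw [XG i j i' j' hij hji' h1 h2 h3 h4, YG i j i' j' hij hji' h1 h2 h3 h4,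
    XG i j i' j' hij hji' h1 h2 h3 h4, XG i j i' j' hij hji' h1 h2 h3 h4,
    YG i j i' j' hij hji' h1 h2 h3 h4, XG i j i' j' hij hji' h1 h2 h3 h4]
  refine congrArg₂ (· * ·) (G_congr i j ?_ ?_ ?_ ?_) (G_congr j' i' ?_ ?_ ?_ ?_) <;>
    field_simp <;> ring

/-- the `SL_2` identity in both blocks simultaneously -/
theorem six (i j i' j' : Fin n) (hij : i ≠ j) (hji' : j' ≠ i')
    (h1 : j' ≠ i) (h2 : j' ≠ j) (h3 : i' ≠ i) (h4 : i' ≠ j)
    (β b : K) (hβ : β ≠ 0) (hb : b ≠ 0) :
    (Matrix.transvection i j β * Matrix.transvection j' i' (-b)) *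
      ((Matrix.transvection j i (-β⁻¹) * Matrix.transvection i' j' b⁻¹) *
      ((Matrix.transvection i j β * Matrix.transvection j' i' (-b)) *
      ((Matrix.transvection i j (-1) * Matrix.transvection j' i' 1) *
      ((Matrix.transvection j i 1 * Matrix.transvection i' j' (-1)) *
      (Matrix.transvection i j (-1) * Matrix.transvection j' i' 1)))))
      = G i j β 0 0 β⁻¹ * G j' i' b 0 0 b⁻¹ := by
  have e := six' i j i' j' hij hji' h1 h2 h3 h4 β b hβ hb
  rw [G_one i j hij, G_one j' i' hji', Matrix.mul_one, Matrix.mul_one] at e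
  exact e

theorem tv_comm (a b c d : Fin n) (h1 : b ≠ c) (h2 : d ≠ a) (x y : K) :
    Matrix.transvection a b x * Matrix.transvection c d y
      = Matrix.transvection c d y * Matrix.transvection a b x := by
  simp only [Matrix.transvection, Matrix.add_mul, Matrix.mul_add, Matrix.one_mul, Matrix.mul_one,
    Matrix.single_mul_single_of_ne _ a b c h1, Matrix.single_mul_single_of_ne _ c d a h2]
  abel

theorem tv_pow (a b : Fin n) (hab : a ≠ b) (c : K) (k : ℕ) :
    (Matrix.transvection a b c) ^ k = Matrix.transvection a b (k * c) := by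
  induction k with
  | zero => simp
  | succ k ih =>
    rw [pow_succ, ih, Matrix.transvection_mul_transvection_same a b hab]
    congr 1
    push_cast
    ring

end Mat

section Unitary
variable {n : ℕ} {K : Type u} [Field K] {q : ℕ} (D : QD K q)

theorem rev_val (i : Fin n) : (Fin.rev i).val = n - (i.val + 1) := Fin.val_rev i

/-- the coupled root element `1 + c E_{a b} - φ c E_{rev b, rev a}` -/
def rt (a b : Fin n) (hab : a ≠ b) (c : K) : SpecialLinearGroup (Fin n) K :=
  SpecialLinearGroup.transvection hab c *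
    SpecialLinearGroup.transvection (i := Fin.rev b) (j := Fin.rev a)
      (fun h => hab (Fin.rev_inj.1 h).symm) (-D.φ c)

theorem rt_coe (a b : Fin n) (hab : a ≠ b) (c : K) :
    (rt D a b hab c : Matrix (Fin n) (Fin n) K)
      = Matrix.transvection a b c * Matrix.transvection (Fin.rev b) (Fin.rev a) (-D.φ c) := rfl

theorem adjJ_tv (a b : Fin n) (c : K) :
    adjJ D n (Matrix.transvection a b c) = Matrix.transvection (Fin.rev b) (Fin.rev a) (D.φ c) := by
  rw [Matrix.transvection, adjJ_add, adjJ_one, adjJ_single, Matrix.transvection]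

theorem rt_mem (a b : Fin n) (hab : a ≠ b) (ha : a ≠ Fin.rev a) (hb : b ≠ Fin.rev b) (c : K) :
    rt D a b hab c ∈ GJ D n := by
  rw [mem_GJ, rt_coe, adjJ_mul, adjJ_tv, adjJ_tv, Fin.rev_rev, Fin.rev_rev, map_neg, D.inv]
  have hab' : Fin.rev b ≠ Fin.rev a := fun h => hab (Fin.rev_inj.1 h).symm
  calc Matrix.transvection a b (-c) * Matrix.transvection (Fin.rev b) (Fin.rev a) (D.φ c) *
        (Matrix.transvection a b c * Matrix.transvection (Fin.rev b) (Fin.rev a) (-D.φ c))
      = Matrix.transvection a b (-c) * ((Matrix.transvection (Fin.rev b) (Fin.rev a) (D.φ c) *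
          Matrix.transvection a b c) * Matrix.transvection (Fin.rev b) (Fin.rev a) (-D.φ c)) := by
        simp only [Matrix.mul_assoc]
    _ = Matrix.transvection a b (-c) * ((Matrix.transvection a b c *
          Matrix.transvection (Fin.rev b) (Fin.rev a) (D.φ c)) *
          Matrix.transvection (Fin.rev b) (Fin.rev a) (-D.φ c)) := by
        rw [tv_comm (Fin.rev b) (Fin.rev a) a b (fun h => ha h.symm) hb]
    _ = (Matrix.transvection a b (-c) * Matrix.transvection a b c) *
          (Matrix.transvection (Fin.rev b) (Fin.rev a) (D.φ c) *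
          Matrix.transvection (Fin.rev b) (Fin.rev a) (-D.φ c)) := by
        simp only [Matrix.mul_assoc]
    _ = 1 := by
        rw [Matrix.transvection_mul_transvection_same a b hab,
          Matrix.transvection_mul_transvection_same _ _ hab', neg_add_cancel, add_neg_cancel,
          Matrix.transvection_zero, Matrix.transvection_zero, Matrix.mul_one]

theorem rt_apply_ne_zero (a b : Fin n) (hab : a ≠ b) (hb : b ≠ Fin.rev b) (c : K) (r s : Fin n)
    (h : rt D a b hab c r s ≠ 0) :
    r = s ∨ (r = a ∧ s = b) ∨ (r = Fin.rev b ∧ s = Fin.rev a) := by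
  by_contra hcon
  push Not at hcon
  obtain ⟨h0, h1, h2⟩ := hcon
  apply h
  have e : (rt D a b hab c : Matrix (Fin n) (Fin n) K)
      = 1 + Matrix.single a b c + Matrix.single (Fin.rev b) (Fin.rev a) (-D.φ c) := by
    rw [rt_coe]
    simp only [Matrix.transvection, Matrix.add_mul, Matrix.mul_add, Matrix.one_mul,
      Matrix.mul_one, Matrix.single_mul_single_of_ne _ a b (Fin.rev b) hb]
    abel
  show (rt D a b hab c : Matrix (Fin n) (Fin n) K) r s = 0
  rw [e, Matrix.add_apply, Matrix.add_apply, Matrix.one_apply_ne h0,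
    Matrix.single_apply, Matrix.single_apply, if_neg, if_neg, add_zero, add_zero]
  · rintro ⟨rfl, rfl⟩; exact h2 rfl rfl
  · rintro ⟨rfl, rfl⟩; exact h1 rfl rfl

theorem lamW_top (a : Fin n) (ha : a.val < n / 2) : lamW n a = 2 := by
  simp only [lamW, if_pos ha]

theorem lamW_bot (a : Fin n) (ha : a.val < n / 2) : lamW n (Fin.rev a) = 0 := by
  have h1 := rev_val a
  have h2 := a.isLt
  simp only [lamW]
  rw [if_neg (by omega), if_neg (by omega)]

theorem rt_block (a b : Fin n) (hab : a ≠ b) (ha : a.val < n / 2) (hb : b.val < n / 2) (c : K)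
    (r s : Fin n) (hrs : lamW n r < lamW n s) : rt D a b hab c r s = 0 := by
  by_contra hne
  have hbr : b ≠ Fin.rev b := by
    intro h
    have h1 := congrArg Fin.val h
    rw [rev_val] at h1
    have := b.isLt
    omega
  rcases rt_apply_ne_zero D a b hab hbr c r s hne with h | ⟨h1, h2⟩ | ⟨h1, h2⟩
  · subst h; exact lt_irrefl _ hrs
  · subst h1; subst h2
    rw [lamW_top r ha, lamW_top s hb] at hrs
    exact lt_irrefl _ hrs
  · subst h1; subst h2
    rw [lamW_bot b hb, lamW_bot a ha] at hrs
    exact lt_irrefl _ hrs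

theorem rt_pow (p : ℕ) [CharP K p] (a b : Fin n) (hab : a ≠ b) (ha : a ≠ Fin.rev a)
    (hb : b ≠ Fin.rev b) (c : K) : rt D a b hab c ^ p = 1 := by
  have hab' : Fin.rev b ≠ Fin.rev a := fun h => hab (Fin.rev_inj.1 h).symm
  apply Subtype.ext
  show ((rt D a b hab c ^ p : SpecialLinearGroup (Fin n) K) : Matrix (Fin n) (Fin n) K) = 1
  rw [Matrix.SpecialLinearGroup.coe_pow, rt_coe]
  have hc : Commute (Matrix.transvection a b c)
      (Matrix.transvection (Fin.rev b) (Fin.rev a) (-D.φ c)) :=
    tv_comm a b (Fin.rev b) (Fin.rev a) hb (fun h => ha h.symm) c (-D.φ c)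
  rw [hc.mul_pow, tv_pow a b hab, tv_pow _ _ hab', CharP.cast_eq_zero, zero_mul, zero_mul,
    Matrix.transvection_zero, Matrix.transvection_zero, Matrix.mul_one]

/-- the torus element `diag(β at i, β⁻¹ at j, φ β at rev j, (φ β)⁻¹ at rev i)` as a product of
six coupled root elements -/
def tor (i j : Fin n) (hij : i ≠ j) (β : K) : SpecialLinearGroup (Fin n) K :=
  rt D i j hij β * rt D j i hij.symm (-β⁻¹) * rt D i j hij β * rt D i j hij (-1) *
    rt D j i hij.symm 1 * rt D i j hij (-1)

/-- diagonal entries of `tor` -/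
def dtor (i j : Fin n) (β : K) : Fin n → K := fun l =>
  (if l = i then β else if l = j then β⁻¹ else 1) *
    (if l = Fin.rev j then D.φ β else if l = Fin.rev i then (D.φ β)⁻¹ else 1)

theorem tor_coe (i j : Fin n) (hij : i < j) (hj : j.val < n / 2) (β : K) (hβ : β ≠ 0) :
    (tor D i j (ne_of_lt hij) β : Matrix (Fin n) (Fin n) K) = Matrix.diagonal (dtor D i j β) := by
  have hv : i.val < j.val := hij
  have hi := i.isLt
  have hjl := j.isLt
  have hri := rev_val i
  have hrj := rev_val j
  have hne : i ≠ j := ne_of_lt hij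
  have hji' : Fin.rev j ≠ Fin.rev i := fun h => hne (Fin.rev_inj.1 h).symm
  have h1 : Fin.rev j ≠ i := fun h => by have := congrArg Fin.val h; omega
  have h2 : Fin.rev j ≠ j := fun h => by have := congrArg Fin.val h; omega
  have h3 : Fin.rev i ≠ i := fun h => by have := congrArg Fin.val h; omega
  have h4 : Fin.rev i ≠ j := fun h => by have := congrArg Fin.val h; omega
  have hb : D.φ β ≠ 0 := by
    intro h0
    apply hβ
    have := D.inv β
    rw [h0, map_zero] at this
    exact this.symm
  have e := six i j (Fin.rev i) (Fin.rev j) hne hji' h1 h2 h3 h4 β (D.φ β) hβ hb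
  have e2 : (tor D i j hne β : Matrix (Fin n) (Fin n) K)
      = G i j β 0 0 β⁻¹ * G (Fin.rev j) (Fin.rev i) (D.φ β) 0 0 (D.φ β)⁻¹ := by
    rw [← e]
    simp only [tor, Matrix.SpecialLinearGroup.coe_mul, rt_coe, Matrix.mul_assoc, map_neg, map_one,
      map_inv₀, neg_neg]
  rw [e2, G_diag i j hne, G_diag (Fin.rev j) (Fin.rev i) hji', Matrix.diagonal_mul_diagonal]
  rfl

theorem tor_mem (i j : Fin n) (hij : i < j) (hj : j.val < n / 2) (β : K) :
    tor D i j (ne_of_lt hij) β ∈ GJ D n := by
  have hv : i.val < j.val := hij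
  have hjl := j.isLt
  have hri := rev_val i
  have hrj := rev_val j
  have h2 : j ≠ Fin.rev j := fun h => by have := congrArg Fin.val h; omega
  have h3 : i ≠ Fin.rev i := fun h => by have := congrArg Fin.val h; omega
  unfold tor
  exact mul_mem (mul_mem (mul_mem (mul_mem (mul_mem (rt_mem D i j _ h3 h2 _)
    (rt_mem D j i _ h2 h3 _)) (rt_mem D i j _ h3 h2 _)) (rt_mem D i j _ h3 h2 _))
    (rt_mem D j i _ h2 h3 _)) (rt_mem D i j _ h3 h2 _)

end Unitary

/-- **S5172 piece TH** -/
theorem main : TorH.{u} := by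
  intro n K _ _ p _ _ q D hn h hh hdiag htor
  obtain ⟨i, j, hij, hjm, hprod, hrest⟩ := htor
  have hv : i.val < j.val := hij
  have hjl := j.isLt
  have hri := rev_val i
  have hrj := rev_val j
  have hne : i ≠ j := ne_of_lt hij
  have h2 : j ≠ Fin.rev j := fun h => by have := congrArg Fin.val h; omega
  have h3 : i ≠ Fin.rev i := fun h => by have := congrArg Fin.val h; omega
  have h1 : Fin.rev j ≠ i := fun h => by have := congrArg Fin.val h; omega
  have h4 : Fin.rev i ≠ j := fun h => by have := congrArg Fin.val h; omega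
  have hji' : Fin.rev j ≠ Fin.rev i := fun h => hne (Fin.rev_inj.1 h).symm
  set β := h i i with hβdef
  have hβ : β ≠ 0 := left_ne_zero_of_mul_eq_one hprod
  have hjj : h j j = β⁻¹ := eq_inv_of_mul_eq_one_right hprod
  -- the unitary relation on the diagonal
  have hrel : ∀ x : Fin n, D.φ (h (Fin.rev x) (Fin.rev x)) * h x x = 1 := by
    intro x
    have e := (mem_GJ_iff_entries D n h).1 hh x x
    rw [if_pos rfl, Finset.sum_eq_single x] at e
    · exact e
    · intro k _ hk
      rw [hdiag k x hk, mul_zero]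
    · intro hx; exact absurd (Finset.mem_univ x) hx
  have hi' : h (Fin.rev i) (Fin.rev i) = (D.φ β)⁻¹ := by
    have e := hrel (Fin.rev i)
    rw [Fin.rev_rev] at e
    exact eq_inv_of_mul_eq_one_right e
  have hj' : h (Fin.rev j) (Fin.rev j) = D.φ β := by
    have e := hrel (Fin.rev j)
    rw [Fin.rev_rev, hjj, map_inv₀] at e
    have := eq_inv_of_mul_eq_one_right e
    rw [this, inv_inv]
  -- `h` is the torus element
  have hEq : h = tor D i j hne β := by
    apply Subtype.ext
    rw [tor_coe D i j hij hjm β hβ]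
    ext r s
    by_cases hrs : r = s
    · subst hrs
      rw [Matrix.diagonal_apply_eq]
      show h r r = dtor D i j β r
      unfold dtor
      by_cases c1 : r = i
      · subst c1
        rw [if_pos rfl, if_neg (fun hh' => h1 hh'.symm), if_neg h3, mul_one]
      · by_cases c2 : r = j
        · subst c2
          rw [if_neg c1, if_pos rfl, if_neg h2, if_neg (fun hh' => h4 hh'.symm), mul_one, hjj]
        · by_cases c3 : r = Fin.rev j
          · subst c3
            rw [if_neg c1, if_neg c2, if_pos rfl, one_mul, hj']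
          · by_cases c4 : r = Fin.rev i
            · subst c4
              rw [if_neg c1, if_neg c2, if_neg c3, if_pos rfl, one_mul, hi']
            · rw [if_neg c1, if_neg c2, if_neg c3, if_neg c4, mul_one]
              exact hrest r c1 c2 c4 c3
    · rw [Matrix.diagonal_apply_ne _ hrs]
      exact hdiag r s hrs
  rw [hEq]
  have hgen : ∀ (a b : Fin n) (hab : a ≠ b), a.val < n / 2 → b.val < n / 2 → ∀ c : K,
      rt D a b hab c ∈ Subgroup.closure {k : SpecialLinearGroup (Fin n) K | k ∈ GJ D n ∧
        (∀ i j : Fin n, lamW n i < lamW n j → k i j = 0) ∧ ∃ e : ℕ, k ^ (p ^ e) = 1} := by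
    intro a b hab ha hb c
    have har : a ≠ Fin.rev a := fun h => by
      have h1 := congrArg Fin.val h; rw [rev_val] at h1; have := a.isLt; omega
    have hbr : b ≠ Fin.rev b := fun h => by
      have h1 := congrArg Fin.val h; rw [rev_val] at h1; have := b.isLt; omega
    refine Subgroup.subset_closure ⟨rt_mem D a b hab har hbr c, rt_block D a b hab ha hb c,
      1, ?_⟩
    rw [pow_one]
    exact rt_pow D p a b hab har hbr c
  have hi2 : i.val < n / 2 := by omega
  unfold tor
  exact mul_mem (mul_mem (mul_mem (mul_mem (mul_mem (hgen i j _ hi2 hjm _)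
    (hgen j i _ hjm hi2 _)) (hgen i j _ hi2 hjm _)) (hgen i j _ hi2 hjm _))
    (hgen j i _ hjm hi2 _)) (hgen i j _ hi2 hjm _)

end Cfsg.Agent.Lib.Helper91.PsuTH
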