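import Mathlib
import Cfsg.Agent.Lib.Helper44.OFldStmt

/-!
Piece [Ma] of S2736 (Hilbert 90: a twisted cocycle in the similarity group of the plus form
gives a `σ`-invariant form).
-/

set_option autoImplicit false

namespace Cfsg.Agent.Lib.Helper91.OFldMa

open Matrix
open Cfsg.Agent.Lib.Helper43.OPlAut Cfsg.Agent.Lib.Helper43.H90Fin Cfsg.Agent.Lib.Helper43.H90GL
open Cfsg.Agent.Lib.Helper44.OFld0

universe u

variable {F : Type u} [Field F]

theorem Q_smul {m : ℕ} (μ : F) (w : Fin m ⊕ Fin m → F) :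
    Cfsg.quadFormPlus m F (μ • w) = μ * μ * Cfsg.quadFormPlus m F w := by
  unfold Cfsg.quadFormPlus
  rw [Finset.mul_sum]
  apply Finset.sum_congr rfl
  intro i _
  simp only [Pi.smul_apply, smul_eq_mul]
  ring

theorem exists_Q_ne_zero {m : ℕ} (hm : 1 ≤ m) :
    ∃ v : Fin m ⊕ Fin m → F, Cfsg.quadFormPlus m F v ≠ 0 := by
  classical
  refine ⟨fun s => Sum.elim (fun i : Fin m => if i = ⟨0, hm⟩ then (1 : F) else 0)
    (fun i : Fin m => if i = ⟨0, hm⟩ then (1 : F) else 0) s, ?_⟩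
  unfold Cfsg.quadFormPlus
  simp

theorem eq_smul_one_of_mulVec {ι : Type*} [Fintype ι] [DecidableEq ι] (M : Matrix ι ι F) (c : F)
    (h : ∀ x : ι → F, M *ᵥ x = c • x) : M = c • (1 : Matrix ι ι F) := by
  have : Matrix.toLin' M = Matrix.toLin' (c • (1 : Matrix ι ι F)) := by
    apply LinearMap.ext
    intro x
    rw [Matrix.toLin'_apply, Matrix.toLin'_apply, h, Matrix.smul_mulVec, Matrix.one_mulVec]
  exact Matrix.toLin'.injective this

theorem map_smul' {ι : Type*} (σ : RingAut F) (x : F) (M : Matrix ι ι F) :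
    (x • M).map σ = σ x • M.map σ := by
  ext i j
  simp [Matrix.map_apply, Matrix.smul_apply]

theorem map_mul' {ι : Type*} [Fintype ι] (σ : RingAut F) (L M : Matrix ι ι F) :
    (L * M).map σ = L.map σ * M.map σ :=
  Matrix.map_mul (f := (σ : F →+* F))

theorem mapσ_mulVec {ι : Type*} [Fintype ι] (σ : RingAut F) (M : Matrix ι ι F) (w : ι → F) :
    M.map σ *ᵥ (fun i => σ (w i)) = fun i => σ ((M *ᵥ w) i) := by
  funext i
  exact (RingHom.map_mulVec (σ : F →+* F) M w i).symm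

/-- the two recursions for twisted powers agree -/
theorem seq_succ' {ι : Type*} [Fintype ι] [DecidableEq ι] (σ : RingAut F) (A : Matrix ι ι F)
    (T : ℕ → Matrix ι ι F) (h0 : T 0 = 1) (hs : ∀ k, T (k + 1) = A * (T k).map σ) (k : ℕ) :
    T (k + 1) = T k * A.map (σ ^ k) := by
  induction k with
  | zero =>
    rw [hs, h0, one_mul, Matrix.map_one _ (map_zero σ) (map_one σ), mul_one]
    ext i j
    rfl
  | succ k ih =>
    rw [hs (k + 1), ih, map_mul', ← mul_assoc, ← hs]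
    congr 1
    ext i j
    simp only [Matrix.map_apply, pow_succ_apply]

theorem main : Cfsg.Agent.Lib.Helper44.OFldStmt.ExistsForm.{u} := by
  intro F _ _ m hm σ a hsc
  classical
  have hpos : 0 < orderOf σ := orderOf_pos_ringAut σ
  obtain ⟨A, hA⟩ : ∃ A : Matrix (Fin m ⊕ Fin m) (Fin m ⊕ Fin m) F,
      A = ((a : GL (Fin m ⊕ Fin m) F) : Matrix (Fin m ⊕ Fin m) (Fin m ⊕ Fin m) F) := ⟨_, rfl⟩
  obtain ⟨T, hT⟩ : ∃ T : ℕ → Matrix (Fin m ⊕ Fin m) (Fin m ⊕ Fin m) F, ∀ k, T k =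
      (((tw σ a k : GO m F) : GL (Fin m ⊕ Fin m) F) :
        Matrix (Fin m ⊕ Fin m) (Fin m ⊕ Fin m) F) := ⟨_, fun _ => rfl⟩
  have hT0 : T 0 = 1 := by rw [hT]; rfl
  have hTs : ∀ k, T (k + 1) = A * (T k).map σ := by
    intro k; rw [hT, hT, hA]; rfl
  have hTs' := seq_succ' σ A T hT0 hTs
  obtain ⟨v0, hv0⟩ := exists_Q_ne_zero (F := F) hm
  -- the scalar
  obtain ⟨c, hc⟩ := hsc
  rw [← hT] at hc
  have hTn : T (orderOf σ) = c • (1 : Matrix (Fin m ⊕ Fin m) (Fin m ⊕ Fin m) F) :=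
    eq_smul_one_of_mulVec _ c hc
  have hc0 : c ≠ 0 := by
    obtain ⟨cn, hcn⟩ := (tw σ a (orderOf σ)).2
    intro h0
    have h1 := hcn v0
    rw [← hT, hc, h0, zero_smul] at h1
    have h2 : Cfsg.quadFormPlus m F (0 : Fin m ⊕ Fin m → F) = 0 := by
      have := Q_smul (0 : F) v0
      rwa [zero_smul, zero_mul, zero_mul] at this
    rw [h2] at h1
    exact (mul_ne_zero cn.ne_zero hv0) h1.symm
  obtain ⟨ca, hca⟩ := a.2
  rw [← hA] at hca
  have hA0 : ∀ x : F, x • A = 0 → x = 0 := by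
    intro x hx
    by_contra hx0
    have h1 := hca v0
    have h2 : A *ᵥ v0 = 0 := by
      have : (x • A) *ᵥ v0 = 0 := by rw [hx, Matrix.zero_mulVec]
      rw [Matrix.smul_mulVec] at this
      exact (smul_eq_zero.mp this).resolve_left hx0
    rw [h2] at h1
    have h3 : Cfsg.quadFormPlus m F (0 : Fin m ⊕ Fin m → F) = 0 := by
      have := Q_smul (0 : F) v0
      rwa [zero_smul, zero_mul, zero_mul] at this
    rw [h3] at h1
    exact (mul_ne_zero ca.ne_zero hv0) h1.symm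
  have hσc : σ c = c := by
    have h1 := hTs (orderOf σ)
    rw [hTs', hTn, map_smul', Matrix.map_one _ (map_zero σ) (map_one σ), Matrix.mul_smul,
      Matrix.smul_mul, mul_one, one_mul] at h1
    have h2 : A.map (σ ^ orderOf σ) = A := by
      ext i j
      rw [Matrix.map_apply, pow_orderOf_apply]
    rw [h2] at h1
    have h3 : (σ c - c) • A = 0 := by rw [sub_smul, ← h1, sub_self]
    exact sub_eq_zero.mp (hA0 _ h3)
  obtain ⟨μ, hμ0, hμ⟩ := norm_surj σ c⁻¹ (inv_ne_zero hc0) (by rw [map_inv₀, hσc])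
  obtain ⟨S, hS⟩ : ∃ S : ℕ → Matrix (Fin m ⊕ Fin m) (Fin m ⊕ Fin m) F,
      ∀ k, S k = nm σ μ k • T k := ⟨_, fun _ => rfl⟩
  have hS0 : S 0 = 1 := by rw [hS, nm_zero, one_smul, hT0]
  have hSs : ∀ k, S (k + 1) = (μ • A) * (S k).map σ := by
    intro k
    rw [hS, hS, nm_succ', hTs, map_smul', Matrix.smul_mul, Matrix.mul_smul, smul_smul]
  have hSn : S (orderOf σ) = 1 := by
    rw [hS, hμ, hTn, smul_smul, inv_mul_cancel₀ hc0, one_smul]
  obtain ⟨B, hBu, hB⟩ := h90_matrix σ hpos (μ • A) S hS0 hSs hSn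
  -- multipliers
  obtain ⟨c', hc'def⟩ : ∃ c' : F, c' = μ * μ * (ca : F) := ⟨_, rfl⟩
  have hc' : ∀ w : Fin m ⊕ Fin m → F,
      Cfsg.quadFormPlus m F ((μ • A) *ᵥ w) = c' * Cfsg.quadFormPlus m F w := by
    intro w
    rw [Matrix.smul_mulVec, Q_smul, hca, hc'def]
    ring
  have hSm : ∀ k, ∀ v : Fin m ⊕ Fin m → F,
      Cfsg.quadFormPlus m F (S k *ᵥ v) = nm σ c' k * Cfsg.quadFormPlus m F v := by
    intro k
    induction k with
    | zero =>
      intro v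
      rw [hS0, Matrix.one_mulVec, nm_zero, one_mul]
    | succ k ih =>
      intro v
      obtain ⟨w, hw⟩ : ∃ w : Fin m ⊕ Fin m → F, v = fun i => σ (w i) :=
        ⟨fun i => σ.symm (v i), by funext i; simp⟩
      rw [hSs, ← Matrix.mulVec_mulVec, hc', hw, mapσ_mulVec, Q_map, ih, map_mul, Q_map,
        nm_succ', mul_assoc]
  have hc'n : nm σ c' (orderOf σ) = 1 := by
    have h1 := hSm (orderOf σ) v0
    rw [hSn, Matrix.one_mulVec] at h1
    have h2 : (nm σ c' (orderOf σ) - 1) * Cfsg.quadFormPlus m F v0 = 0 := by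
      rw [sub_mul, one_mul, ← h1, sub_self]
    exact sub_eq_zero.mp ((mul_eq_zero.mp h2).resolve_right hv0)
  obtain ⟨μ0, hμ00, hμ0eq⟩ := h90 σ hpos c' hc'n
  refine ⟨Units.mk0 μ hμ0, Units.mk0 μ0⁻¹ (inv_ne_zero hμ00), hBu.unit, ?_, ?_⟩
  · rw [Units.val_mk0, IsUnit.unit_spec, ← hA]
    exact hB
  · intro v
    rw [Units.val_mk0, IsUnit.unit_spec]
    have e1 : B *ᵥ (fun i => σ (v i)) = (μ • A) *ᵥ (fun i => σ ((B *ᵥ v) i)) := by
      nth_rewrite 1 [← hB]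
      rw [← Matrix.mulVec_mulVec, mapσ_mulVec]
    rw [e1, hc', Q_map, map_mul, map_inv₀]
    have hσμ0 : σ μ0 ≠ 0 := (map_ne_zero_iff σ σ.injective).2 hμ00
    have e2 : μ0⁻¹ * c' = (σ μ0)⁻¹ := by
      calc μ0⁻¹ * c' = μ0⁻¹ * (c' * σ μ0) * (σ μ0)⁻¹ := by
            rw [mul_assoc, mul_assoc, mul_inv_cancel₀ hσμ0, mul_one]
        _ = (σ μ0)⁻¹ := by rw [hμ0eq, inv_mul_cancel₀ hμ00, one_mul]
    rw [← mul_assoc, e2]

end Cfsg.Agent.Lib.Helper91.OFldMa
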