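import Mathlib
import Cfsg.Agent.Lib.Helper19.BTGen

/-!
# S2369 piece CELLCOUNT (helper91, second seat): counting the fixed cosets of `B` cell by cell
-/

set_option autoImplicit false

namespace Cfsg.Agent.Lib.Helper91.BTCELLCOUNT

open Cfsg.Agent.Lib.Helper19.BTGen

universe u

theorem main : CellCount.{u} := by
  intro G _ _ B ι _ _ n U₁ U₂ e w₀ a hCov hDis he hU he1 he2 hw1 hw2 ha hw₀
  classical
  -- every coset lies in a cell
  have hcell : ∀ x : G ⧸ B, ∃ w, InCell B n w x := by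
    intro x
    induction x using QuotientGroup.induction_on with
    | H g =>
      obtain ⟨w, b, hb, b', hb', rfl⟩ := hCov g
      refine ⟨w, b, hb, ?_⟩
      rw [QuotientGroup.eq]
      have h1 : (b * n w)⁻¹ * (b * n w * b') = b' := by group
      rw [h1]
      exact hb'
  -- the cells are disjoint
  have huniq : ∀ (x : G ⧸ B) (w w' : ι), InCell B n w x → InCell B n w' x → w = w' := by
    rintro x w w' ⟨b, hb, h1⟩ ⟨b', hb', h2⟩
    have h3 : (QuotientGroup.mk (b * n w) : G ⧸ B) = QuotientGroup.mk (b' * n w') :=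
      h1.trans h2.symm
    rw [QuotientGroup.eq] at h3
    apply hDis w w' (b'⁻¹ * b) (B.mul_mem (B.inv_mem hb') hb) _ h3
    group
  -- the cell of `e`
  have hcell_e : ∀ x : G ⧸ B, InCell B n e x ↔ x = QuotientGroup.mk 1 := by
    intro x
    constructor
    · rintro ⟨b, hb, rfl⟩
      rw [QuotientGroup.eq]
      have h1 : (b * n e)⁻¹ * 1 = (b * n e)⁻¹ := mul_one _
      rw [h1]
      exact B.inv_mem (B.mul_mem hb he)
    · rintro rfl
      refine ⟨(n e)⁻¹, B.inv_mem he, ?_⟩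
      rw [inv_mul_cancel]
  have hfix1 : a • (QuotientGroup.mk 1 : G ⧸ B) = QuotientGroup.mk 1 := by
    rw [MulAction.Quotient.smul_mk, smul_eq_mul, QuotientGroup.eq]
    have h1 : (a * 1)⁻¹ * 1 = a⁻¹ := by group
    rw [h1]
    exact B.inv_mem ha
  -- no fixed point in the cell of `w₀`
  have hno : ∀ x : G ⧸ B, a • x = x → ¬ InCell B n w₀ x := by
    rintro x hx ⟨b, hb, rfl⟩
    rw [MulAction.Quotient.smul_mk, smul_eq_mul, QuotientGroup.eq] at hx
    apply hw₀ b hb
    have h1 : (n w₀)⁻¹ * (b⁻¹ * a * b) * n w₀ = ((a * (b * n w₀))⁻¹ * (b * n w₀))⁻¹ := by group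
    rw [h1]
    exact B.inv_mem hx
  have c1 : Nat.card {x : G ⧸ B // a • x = x ∧ ∃ w ∈ U₁, InCell B n w x} =
      Set.ncard {x : G ⧸ B | a • x = x ∧ ∃ w ∈ U₁, InCell B n w x} := Nat.card_coe_set_eq _
  have c2 : Nat.card {x : G ⧸ B // a • x = x ∧ ∃ w ∈ U₂, InCell B n w x} =
      Set.ncard {x : G ⧸ B | a • x = x ∧ ∃ w ∈ U₂, InCell B n w x} := Nat.card_coe_set_eq _
  have c3 : Nat.card {x : G ⧸ B // a • x = x} = Set.ncard {x : G ⧸ B | a • x = x} :=
    Nat.card_coe_set_eq _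
  rw [c1, c2, c3]
  have hunion : {x : G ⧸ B | a • x = x ∧ ∃ w ∈ U₁, InCell B n w x} ∪
      {x : G ⧸ B | a • x = x ∧ ∃ w ∈ U₂, InCell B n w x} = {x : G ⧸ B | a • x = x} := by
    ext x
    constructor
    · rintro (h | h) <;> exact h.1
    · intro hx
      obtain ⟨w, hw⟩ := hcell x
      by_cases hwe : w = e
      · left
        exact ⟨hx, w, hwe ▸ he1, hw⟩
      · have hww : w ≠ w₀ := fun h => hno x hx (h ▸ hw)
        by_cases h1 : w ∈ U₁
        · left
          exact ⟨hx, w, h1, hw⟩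
        · right
          refine ⟨hx, w, ?_, hw⟩
          by_contra h2
          exact h1 ((hU w hwe hww).mpr h2)
  have hinter : {x : G ⧸ B | a • x = x ∧ ∃ w ∈ U₁, InCell B n w x} ∩
      {x : G ⧸ B | a • x = x ∧ ∃ w ∈ U₂, InCell B n w x} = {QuotientGroup.mk 1} := by
    ext x
    constructor
    · rintro ⟨⟨hx, w, hw1', hc1⟩, ⟨-, w', hw2', hc2⟩⟩
      have hww' := huniq x w w' hc1 hc2
      rw [← hww'] at hw2'
      have hwe : w = e := by
        by_contra hne
        have hne0 : w ≠ w₀ := fun h => hw1 (h ▸ hw1')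
        exact ((hU w hne hne0).mp hw1') hw2'
      rw [hwe] at hc1
      exact (hcell_e x).mp hc1
    · intro hx
      have hx' : x = QuotientGroup.mk 1 := hx
      rw [hx']
      exact ⟨⟨hfix1, e, he1, (hcell_e _).mpr rfl⟩, ⟨hfix1, e, he2, (hcell_e _).mpr rfl⟩⟩
  have h := Set.ncard_union_add_ncard_inter
    {x : G ⧸ B | a • x = x ∧ ∃ w ∈ U₁, InCell B n w x}
    {x : G ⧸ B | a • x = x ∧ ∃ w ∈ U₂, InCell B n w x}
  rw [hunion, hinter, Set.ncard_singleton] at h
  exact h.symm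

end Cfsg.Agent.Lib.Helper91.BTCELLCOUNT
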