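import Mathlib
import Cfsg.Agent.Lib.Helper45.EPStmt
import Cfsg.Agent.Lib.Helper77.OPPFIXA
import Cfsg.Agent.Lib.Helper44.NegPairs

set_option autoImplicit false
set_option maxHeartbeats 400000

/-!
# S5988 piece NEGSQFIXA (helper91, second seat): `q ≡ 1 (mod 4)`, `x * x = -1`: every invariant
nondegenerate `W` is of plus type (sum of its intersections with the two eigenspaces, both
totally singular).
-/

namespace Cfsg.Agent.Lib.Helper91.EPNEGSQFIXA

open Module QuadraticMap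
open Cfsg.Agent.Lib.Helper44.QSpace Cfsg.Agent.Lib.Helper44.NegPairs
open Cfsg.Agent.Lib.Helper44.WittND
open Cfsg.Agent.Lib.Helper45.EPStmt
open Cfsg.Agent.Lib.Helper94.OPStmt (P NP FxP NDegP StabP)

universe u

theorem main : NegSqFixA.{u} := by
  intro F _ _ hq d x hx hxx W hND hStab
  have h2 : (2 : F) ≠ 0 := by
    apply Ring.two_ne_zero
    intro hc
    have := FiniteField.even_card_iff_char_two.mp hc
    omega
  obtain ⟨ι, hι⟩ : ∃ ι : F, ι * ι = -1 := by
    have h := (FiniteField.isSquare_neg_one_iff (F := F)).mpr (by omega)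
    obtain ⟨c, hc⟩ := h
    exact ⟨c, hc.symm⟩
  have hι0 : ι ≠ 0 := by
    rintro rfl
    rw [mul_zero] at hι
    have h1 : (1 : F) = 0 := by linear_combination hι
    exact one_ne_zero h1
  obtain ⟨A, hA⟩ : ∃ A : (P d → F) →ₗ[F] (P d → F),
      A = Matrix.toLin' (x : Matrix (P d) (P d) F) := ⟨_, rfl⟩
  have hAA : ∀ v, A (A v) = -v := by
    intro v
    rw [hA, Matrix.toLin'_apply, Matrix.toLin'_apply, Matrix.mulVec_mulVec, hxx,
      Matrix.neg_mulVec, Matrix.one_mulVec]
  have hAQ : ∀ v, plusQ d F (A v) = plusQ d F v := by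
    intro v
    rw [hA, Matrix.toLin'_apply]
    exact hx v v
  have hAW : ∀ w ∈ W, A w ∈ W := by
    intro w hw
    rw [hA]
    exact hStab (Submodule.mem_map_of_mem hw)
  have hWnd : NDsub (plusQ d F) W := by
    intro y hy hyz
    by_contra hy0
    obtain ⟨-, z, hz, hz0⟩ := hND y hy hy0
    exact hz0 (hyz z hz)
  obtain ⟨Wp, hWp⟩ : ∃ Wp : Submodule F (P d → F),
      Wp = W ⊓ LinearMap.ker (A - ι • LinearMap.id) := ⟨_, rfl⟩
  obtain ⟨Wm, hWm⟩ : ∃ Wm : Submodule F (P d → F),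
      Wm = W ⊓ LinearMap.ker (A + ι • LinearMap.id) := ⟨_, rfl⟩
  have hmemp : ∀ v, v ∈ Wp ↔ v ∈ W ∧ A v = ι • v := by
    intro v
    rw [hWp, Submodule.mem_inf, LinearMap.mem_ker, LinearMap.sub_apply, LinearMap.smul_apply,
      LinearMap.id_apply, sub_eq_zero]
  have hmemm : ∀ v, v ∈ Wm ↔ v ∈ W ∧ A v = -(ι • v) := by
    intro v
    rw [hWm, Submodule.mem_inf, LinearMap.mem_ker, LinearMap.add_apply, LinearMap.smul_apply,
      LinearMap.id_apply, add_eq_zero_iff_eq_neg]
  have hWpW : Wp ≤ W := by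
    rw [hWp]
    exact inf_le_left
  have hWmW : Wm ≤ W := by
    rw [hWm]
    exact inf_le_left
  have hsingp : ∀ v ∈ Wp, plusQ d F v = 0 := by
    intro v hv
    obtain ⟨-, hv2⟩ := (hmemp v).mp hv
    have h1 := hAQ v
    rw [hv2, q_smul, hι] at h1
    have h3 : (2 : F) * plusQ d F v = 0 := by linear_combination -h1
    exact (mul_eq_zero.mp h3).resolve_left h2
  have hsingm : ∀ v ∈ Wm, plusQ d F v = 0 := by
    intro v hv
    obtain ⟨-, hv2⟩ := (hmemm v).mp hv
    have h1 := hAQ v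
    rw [hv2, QuadraticMap.map_neg, q_smul, hι] at h1
    have h3 : (2 : F) * plusQ d F v = 0 := by linear_combination -h1
    exact (mul_eq_zero.mp h3).resolve_left h2
  have hsup : Wp ⊔ Wm = W := by
    apply le_antisymm (sup_le hWpW hWmW)
    intro v hv
    have e : v = (2 : F)⁻¹ • (v - ι • A v) + (2 : F)⁻¹ • (v + ι • A v) := by
      rw [← smul_add]
      have h4 : v - ι • A v + (v + ι • A v) = (2 : F) • v := by
        rw [two_smul]
        abel
      rw [h4, smul_smul, inv_mul_cancel₀ h2, one_smul]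
    rw [e]
    apply Submodule.add_mem_sup
    · rw [hmemp]
      refine ⟨W.smul_mem _ (W.sub_mem hv (W.smul_mem _ (hAW v hv))), ?_⟩
      rw [map_smul, map_sub, map_smul, hAA, smul_comm ι ((2 : F)⁻¹), smul_sub ι, smul_smul ι ι,
        hι]
      congr 1
      rw [neg_smul, one_smul, smul_neg]
      abel
    · rw [hmemm]
      refine ⟨W.smul_mem _ (W.add_mem hv (W.smul_mem _ (hAW v hv))), ?_⟩
      rw [map_smul, map_add, map_smul, hAA, smul_comm ι ((2 : F)⁻¹), smul_add ι, smul_smul ι ι,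
        hι, ← smul_neg]
      congr 1
      rw [neg_smul, one_smul, smul_neg]
      abel
  have hinf : Wp ⊓ Wm = ⊥ := by
    rw [eq_bot_iff]
    rintro v ⟨h1, h2'⟩
    obtain ⟨-, e1⟩ := (hmemp v).mp h1
    obtain ⟨-, e2⟩ := (hmemm v).mp h2'
    rw [Submodule.mem_bot]
    have h3 : ι • v = -(ι • v) := e1.symm.trans e2
    have h4 : (2 * ι) • v = 0 := by
      rw [mul_smul, two_smul]
      exact eq_neg_iff_add_eq_zero.mp h3
    rcases smul_eq_zero.mp h4 with h | h
    · exact absurd h (mul_ne_zero h2 hι0)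
    · exact h
  have hdim : finrank F ↥W = finrank F ↥Wp + finrank F ↥Wm := by
    have h := Submodule.finrank_sup_add_finrank_inf_eq Wp Wm
    rw [hsup, hinf, finrank_bot, add_zero] at h
    exact h
  have hp2 : 2 * finrank F ↥Wp ≤ finrank F ↥W :=
    Cfsg.Agent.Lib.Helper77.OPPFIXA.ts_half (plusQ d F) hWnd hWpW hsingp
  have hm2 : 2 * finrank F ↥Wm ≤ finrank F ↥W :=
    Cfsg.Agent.Lib.Helper77.OPPFIXA.ts_half (plusQ d F) hWnd hWmW hsingm
  have hfin : 2 * finrank F ↥Wp = finrank F ↥W := by omega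
  exact ⟨Wp, hWpW, hsingp, hfin⟩

end Cfsg.Agent.Lib.Helper91.EPNEGSQFIXA
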