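import Mathlib
import Cfsg.Agent.Lib.Helper37.HypStmt

/-!
# S5992 / HYPFIB (helper91, call by helper37)

The number of hyperbolic `2h`-spaces divides the number of ordered hyperbolic systems of `h`
pairs: the map `(e, f) ↦ span (e, f)` is onto the hyperbolic `2h`-spaces and all its fibres
have the same size.
-/

set_option autoImplicit false

universe u

open scoped Matrix

namespace Cfsg.Agent.Lib.Helper91.HypHYPFIB

open Cfsg.Agent.Lib.Helper37.HypStmt

section gen

variable {F : Type*} [Field F] {V : Type*} [AddCommGroup V] [Module F V]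
variable (B : LinearMap.BilinForm F V)

/-- hyperbolic system relations for a bilinear form -/
structure Sys {h : ℕ} (e f : Fin h → V) : Prop where
  ee : ∀ a b, B (e a) (e b) = 0
  ff : ∀ a b, B (f a) (f b) = 0
  ef : ∀ a b, B (e a) (f b) = if a = b then 1 else 0
  fe : ∀ a b, B (f a) (e b) = if a = b then 1 else 0

/-- the transport map from the system `(e, f)` to the system `(e', f')` -/
def T {h : ℕ} (e f e' f' : Fin h → V) : V →ₗ[F] V :=
  ∑ b, ((B.flip (f b)).smulRight (e' b) + (B.flip (e b)).smulRight (f' b))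

variable {B} {h : ℕ} {e f e' f' : Fin h → V}

theorem T_apply (e f e' f' : Fin h → V) (v : V) :
    T B e f e' f' v = ∑ b, (B v (f b) • e' b + B v (e b) • f' b) := by
  simp [T, LinearMap.sum_apply]

theorem B_T_f (S' : Sys B e' f') (v : V) (a : Fin h) :
    B (T B e f e' f' v) (f' a) = B v (f a) := by
  rw [T_apply, map_sum, LinearMap.sum_apply]
  simp [S'.ef, S'.ff]

theorem B_T_e (S' : Sys B e' f') (v : V) (a : Fin h) :
    B (T B e f e' f' v) (e' a) = B v (e a) := by
  rw [T_apply, map_sum, LinearMap.sum_apply]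
  simp [S'.ee, S'.fe]

theorem B_f_T (S' : Sys B e' f') (v : V) (a : Fin h) :
    B (f' a) (T B e f e' f' v) = B v (f a) := by
  rw [T_apply, map_sum]
  simp [S'.fe, S'.ff]

theorem B_e_T (S' : Sys B e' f') (v : V) (a : Fin h) :
    B (e' a) (T B e f e' f' v) = B v (e a) := by
  rw [T_apply, map_sum]
  simp [S'.ee, S'.ef]

theorem B_T_T (S' : Sys B e' f') (u v : V) :
    B (T B e f e' f' u) (T B e f e' f' v) =
      ∑ b, (B u (f b) * B v (e b) + B u (e b) * B v (f b)) := by
  rw [T_apply e f e' f' u, map_sum, LinearMap.sum_apply]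
  refine Finset.sum_congr rfl fun b _ => ?_
  rw [map_add, LinearMap.add_apply, map_smul, map_smul, LinearMap.smul_apply,
    LinearMap.smul_apply, B_e_T S', B_f_T S', smul_eq_mul, smul_eq_mul]

theorem T_e (S : Sys B e f) (a : Fin h) : T B e f e' f' (e a) = e' a := by
  rw [T_apply]
  simp [S.ef, S.ee]

theorem T_f (S : Sys B e f) (a : Fin h) : T B e f e' f' (f a) = f' a := by
  rw [T_apply]
  simp [S.ff, S.fe]

theorem T_self (S : Sys B e f) {u : V}
    (hu : u ∈ Submodule.span F (Set.range (Sum.elim e f))) : T B e f e f u = u := by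
  have : Set.EqOn (T B e f e f) (LinearMap.id : V →ₗ[F] V) (Set.range (Sum.elim e f)) := by
    rintro _ ⟨a | a, rfl⟩
    · simpa using T_e S a
    · simpa using T_f S a
  simpa using LinearMap.eqOn_span this hu

theorem T_T (S' : Sys B e' f') (u : V) :
    T B e' f' e f (T B e f e' f' u) = T B e f e f u := by
  rw [T_apply e' f' e f, T_apply e f e f]
  refine Finset.sum_congr rfl fun b _ => ?_
  rw [B_T_f S', B_T_e S']

theorem B_pres (S : Sys B e f) (S' : Sys B e' f') {u v : V}
    (hu : u ∈ Submodule.span F (Set.range (Sum.elim e f)))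
    (hv : v ∈ Submodule.span F (Set.range (Sum.elim e f))) :
    B (T B e f e' f' u) (T B e f e' f' v) = B u v := by
  rw [B_T_T S']
  have := B_T_T (e := e) (f := f) S u v
  rw [T_self S hu, T_self S hv] at this
  exact this.symm

theorem map_span (S : Sys B e f) :
    (Submodule.span F (Set.range (Sum.elim e f))).map (T B e f e' f') =
      Submodule.span F (Set.range (Sum.elim e' f')) := by
  rw [Submodule.map_span, ← Set.range_comp]
  congr 2
  funext c
  rcases c with a | a
  · simpa using T_e S a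
  · simpa using T_f S a

theorem linInd (S : Sys B e f) : LinearIndependent F (Sum.elim e f) := by
  rw [Fintype.linearIndependent_iff]
  intro g hg
  rw [Fintype.sum_sum_type] at hg
  simp only [Sum.elim_inl, Sum.elim_inr] at hg
  have h1 : ∀ a, B (∑ x, g (Sum.inl x) • e x + ∑ x, g (Sum.inr x) • f x) (f a) = g (Sum.inl a) := by
    intro a
    rw [map_add, LinearMap.add_apply, map_sum, map_sum, LinearMap.sum_apply, LinearMap.sum_apply]
    simp [S.ef, S.ff]
  have h2 : ∀ a, B (∑ x, g (Sum.inl x) • e x + ∑ x, g (Sum.inr x) • f x) (e a) = g (Sum.inr a) := by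
    intro a
    rw [map_add, LinearMap.add_apply, map_sum, map_sum, LinearMap.sum_apply, LinearMap.sum_apply]
    simp [S.ee, S.fe]
  rintro (a | a)
  · rw [← h1 a, hg]; simp
  · rw [← h2 a, hg]; simp

theorem finrank_span (S : Sys B e f) :
    Module.finrank F (Submodule.span F (Set.range (Sum.elim e f))) = 2 * h := by
  rw [finrank_span_eq_card (linInd S)]
  simp [two_mul]

theorem finrank_span_e (S : Sys B e f) :
    Module.finrank F (Submodule.span F (Set.range e)) = h := by
  have := (linInd S).comp Sum.inl Sum.inl_injective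
  have h2 : Sum.elim e f ∘ Sum.inl = e := by funext a; simp
  rw [h2] at this
  rw [finrank_span_eq_card this]
  simp

theorem nondeg (S : Sys B e f) {w : V}
    (hw : w ∈ Submodule.span F (Set.range (Sum.elim e f))) (hw0 : w ≠ 0) :
    ∃ x ∈ Submodule.span F (Set.range (Sum.elim e f)), B w x ≠ 0 := by
  by_contra hcon
  push Not at hcon
  apply hw0
  rw [← T_self S hw, T_apply]
  refine Finset.sum_eq_zero fun b _ => ?_
  rw [hcon (f b) (Submodule.subset_span ⟨Sum.inr b, rfl⟩),
    hcon (e b) (Submodule.subset_span ⟨Sum.inl b, rfl⟩)]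
  simp

theorem isotropic_e (S : Sys B e f) {w : V} (hw : w ∈ Submodule.span F (Set.range e)) :
    B w w = 0 := by
  have h1 : ∀ b, B w (e b) = 0 := by
    intro b
    have : Set.EqOn (B.flip (e b)) (0 : V →ₗ[F] F) (Set.range e) := by
      rintro _ ⟨a, rfl⟩
      simpa using S.ee a b
    simpa using LinearMap.eqOn_span this hw
  have hw' : w ∈ Submodule.span F (Set.range (Sum.elim e f)) := by
    refine Submodule.span_mono ?_ hw
    rintro _ ⟨a, rfl⟩
    exact ⟨Sum.inl a, rfl⟩
  have := B_T_T (e := e) (f := f) S w w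
  rw [T_self S hw'] at this
  rw [this]
  refine Finset.sum_eq_zero fun b _ => ?_
  rw [h1 b]; simp

theorem transport (S : Sys B e f) (S' : Sys B e' f') {e1 f1 : Fin h → V} (S1 : Sys B e1 f1)
    (h1 : Submodule.span F (Set.range (Sum.elim e1 f1)) =
      Submodule.span F (Set.range (Sum.elim e f))) :
    Sys B (T B e f e' f' ∘ e1) (T B e f e' f' ∘ f1) ∧
      Submodule.span F (Set.range (Sum.elim (T B e f e' f' ∘ e1) (T B e f e' f' ∘ f1))) =
        Submodule.span F (Set.range (Sum.elim e' f')) := by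
  have he : ∀ a, e1 a ∈ Submodule.span F (Set.range (Sum.elim e f)) := fun a => by
    rw [← h1]; exact Submodule.subset_span ⟨Sum.inl a, rfl⟩
  have hf : ∀ a, f1 a ∈ Submodule.span F (Set.range (Sum.elim e f)) := fun a => by
    rw [← h1]; exact Submodule.subset_span ⟨Sum.inr a, rfl⟩
  refine ⟨⟨fun a b => ?_, fun a b => ?_, fun a b => ?_, fun a b => ?_⟩, ?_⟩
  · simp only [Function.comp_apply]; rw [B_pres S S' (he a) (he b)]; exact S1.ee a b
  · simp only [Function.comp_apply]; rw [B_pres S S' (hf a) (hf b)]; exact S1.ff a b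
  · simp only [Function.comp_apply]; rw [B_pres S S' (he a) (hf b)]; exact S1.ef a b
  · simp only [Function.comp_apply]; rw [B_pres S S' (hf a) (he b)]; exact S1.fe a b
  · rw [← Sum.comp_elim, Set.range_comp, ← Submodule.map_span, h1, map_span S]

theorem exists_sys [FiniteDimensional F V] (h2 : (2 : F) ≠ 0) (hsymm : ∀ u v, B u v = B v u)
    {W U : Submodule F V} (hW : Module.finrank F W = 2 * h)
    (hnd : ∀ w ∈ W, w ≠ 0 → ∃ x ∈ W, B w x ≠ 0) (hUW : U ≤ W)
    (hU : ∀ u ∈ U, ∀ u' ∈ U, B u u' = 0) (hUr : Module.finrank F U = h) :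
    ∃ e f : Fin h → V, Sys B e f ∧ Submodule.span F (Set.range (Sum.elim e f)) = W := by
  classical
  let bU : Module.Basis (Fin h) F U := Module.finBasisOfFinrankEq F U hUr
  set e : Fin h → V := fun a => (bU a : V) with he
  have heU : ∀ a, e a ∈ U := fun a => (bU a).2
  let φ : W →ₗ[F] (Fin h → F) := LinearMap.pi (fun a => (B (e a)).comp W.subtype)
  have hφ : ∀ w a, φ w a = B (e a) (w : V) := fun w a => rfl
  have hsurj : Function.Surjective φ := by
    rw [← LinearMap.range_eq_top]
    by_contra hne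
    obtain ⟨ψ, hψ0, hψ⟩ := Submodule.exists_le_ker_of_lt_top (LinearMap.range φ)
      (lt_top_iff_ne_top.mpr hne)
    set c : Fin h → F := fun a => ψ (fun j => if a = j then 1 else 0) with hc
    have hψx : ∀ x : Fin h → F, ψ x = ∑ a, x a * c a := by
      intro x
      rw [LinearMap.pi_apply_eq_sum_univ ψ x]
      simp [hc]
    set u0 : V := ∑ a, c a • e a with hu0
    have hu0U : u0 ∈ U := Submodule.sum_mem _ (fun a _ => Submodule.smul_mem _ _ (heU a))
    have hB0 : ∀ w ∈ W, B u0 w = 0 := by
      intro w hw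
      have h1 : ψ (φ ⟨w, hw⟩) = 0 := LinearMap.mem_ker.mp (hψ ⟨⟨w, hw⟩, rfl⟩)
      rw [hψx] at h1
      rw [hu0, map_sum, LinearMap.sum_apply]
      simp only [map_smul, LinearMap.smul_apply, smul_eq_mul]
      rw [← h1]
      refine Finset.sum_congr rfl fun a _ => ?_
      rw [hφ]; ring
    have hu00 : u0 ≠ 0 := by
      intro h0
      apply hψ0
      have hc0 : ∀ a, c a = 0 := by
        have hli := bU.linearIndependent
        rw [Fintype.linearIndependent_iff] at hli
        apply hli c
        apply Subtype.ext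
        simpa [hu0, he] using h0
      apply LinearMap.ext
      intro x
      rw [hψx]; simp [hc0]
    obtain ⟨x, hx, hxne⟩ := hnd u0 (hUW hu0U) hu00
    exact hxne (hB0 x hx)
  choose g hg using fun b => hsurj (Pi.single b 1)
  have hg' : ∀ a b, B (e a) (g b : V) = if a = b then 1 else 0 := by
    intro a b
    have := congrFun (hg b) a
    rw [hφ] at this
    rw [this, Pi.single_apply]
  set E : Fin h → V := fun a => ∑ c, (B (g a : V) (g c : V) / 2) • e c with hE
  have hEU : ∀ a, E a ∈ U := fun a =>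
    Submodule.sum_mem _ (fun c _ => Submodule.smul_mem _ _ (heU c))
  have hgE : ∀ a b, B (g a : V) (E b) = B (g b : V) (g a : V) / 2 := by
    intro a b
    have h1 : ∀ c, B (g a : V) (e c) = if c = a then 1 else 0 := fun c => by rw [hsymm, hg']
    simp only [hE, map_sum, map_smul, smul_eq_mul, h1]
    simp
  have hEg : ∀ a b, B (E a) (g b : V) = B (g a : V) (g b : V) / 2 := by
    intro a b
    rw [hsymm, hgE]
  set f : Fin h → V := fun a => (g a : V) - E a with hf
  have hS : Sys B e f := by
    refine ⟨fun a b => hU _ (heU a) _ (heU b), ?_, ?_, ?_⟩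
    · intro a b
      simp only [hf, map_sub, LinearMap.sub_apply]
      rw [hgE, hEg, hU _ (hEU a) _ (hEU b), hsymm (g b : V) (g a : V)]
      field_simp
      ring
    · intro a b
      simp only [hf, map_sub]
      rw [hg', hU _ (heU a) _ (hEU b), sub_zero]
    · intro a b
      rw [hsymm]
      simp only [hf, map_sub]
      rw [hg', hU _ (heU b) _ (hEU a), sub_zero]
      simp [eq_comm]
  refine ⟨e, f, hS, ?_⟩
  apply Submodule.eq_of_le_of_finrank_eq
  · rw [Submodule.span_le]
    rintro _ ⟨a | a, rfl⟩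
    · exact hUW (heU a)
    · exact Submodule.sub_mem _ (g a).2 (hUW (hEU a))
  · rw [finrank_span hS, hW]

end gen

section conc

variable (F : Type u) [Field F] (d : ℕ)

/-- `Cfsg.quadFormOdd` as a quadratic form (same construction as `Helper44.NegPairs.oddQ`) -/
def oddQ : QuadraticForm F (I d → F) :=
  (QuadraticMap.proj (R := F) (Sum.inl ()) (Sum.inl ())
    + ∑ i : Fin d, QuadraticMap.proj (R := F) (Sum.inr (Sum.inl i)) (Sum.inr (Sum.inr i))).copy
    (Cfsg.quadFormOdd d F)
    (by funext v; simp [Cfsg.quadFormOdd, pow_two])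

/-- the polar form as a bilinear form -/
def BB : LinearMap.BilinForm F (I d → F) := QuadraticMap.polarBilin (oddQ F d)

theorem BB_apply (u v : I d → F) :
    BB F d u v = QuadraticMap.polar (Cfsg.quadFormOdd d F) u v := rfl

theorem BB_symm (u v : I d → F) : BB F d u v = BB F d v u := by
  rw [BB_apply, BB_apply, QuadraticMap.polar_comm]

theorem BB_self (v : I d → F) : BB F d v v = 2 * Cfsg.quadFormOdd d F v := by
  have h1 : QuadraticMap.polar (Cfsg.quadFormOdd d F) v v = 2 • Cfsg.quadFormOdd d F v :=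
    QuadraticMap.polar_self (oddQ F d) v
  rw [BB_apply, h1, two_smul, two_mul]

variable {F d} {h : ℕ}

theorem sys_of (t : HSys d F h) : Sys (BB F d) t.1.1 t.1.2 :=
  ⟨fun a b => t.2.2.2.1 a b, fun a b => t.2.2.2.2.1 a b, fun a b => t.2.2.2.2.2 a b,
    fun a b => by
      rw [BB_symm, BB_apply, t.2.2.2.2.2 b a]
      simp [eq_comm]⟩

theorem q0 (h2 : (2 : F) ≠ 0) {v : I d → F} (hv : BB F d v v = 0) :
    Cfsg.quadFormOdd d F v = 0 := by
  rw [BB_self] at hv
  exact (mul_eq_zero.mp hv).resolve_left h2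

/-- build an element of `HSys` -/
def mk (h2 : (2 : F) ≠ 0) (e f : Fin h → I d → F) (S : Sys (BB F d) e f) : HSys d F h :=
  ⟨(e, f), ⟨fun a => q0 h2 (S.ee a a), fun a => q0 h2 (S.ff a a), fun a b => S.ee a b,
    fun a b => S.ff a b, fun a b => S.ef a b⟩⟩

/-- the span of a system -/
def sp (t : HSys d F h) : Submodule F (I d → F) :=
  Submodule.span F (Set.range (Sum.elim t.1.1 t.1.2))

theorem hyp_sp (h2 : (2 : F) ≠ 0) (t : HSys d F h) : Hyp d F (2 * h) (sp t) := by
  have S := sys_of t
  refine ⟨finrank_span S, ?_, ?_⟩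
  · intro w hw hw0
    obtain ⟨x, hx, hne⟩ := nondeg S hw hw0
    exact ⟨⟨x, hx, by rw [← BB_apply, BB_symm]; exact hne⟩, ⟨x, hx, hne⟩⟩
  · refine ⟨Submodule.span F (Set.range t.1.1), ?_, ?_, ?_⟩
    · apply Submodule.span_mono
      rintro _ ⟨a, rfl⟩
      exact ⟨Sum.inl a, rfl⟩
    · intro w hw
      exact q0 h2 (isotropic_e S hw)
    · rw [finrank_span_e S]
      exact (finrank_span S).symm

theorem exists_sp (h2 : (2 : F) ≠ 0) {W : Submodule F (I d → F)} (hW : Hyp d F (2 * h) W) :
    ∃ t : HSys d F h, sp t = W := by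
  obtain ⟨hr, hnd, U, hUW, hUs, hUr⟩ := hW
  have hU : ∀ u ∈ U, ∀ u' ∈ U, BB F d u u' = 0 := by
    intro u hu u' hu'
    rw [BB_apply]
    unfold QuadraticMap.polar
    rw [hUs _ (U.add_mem hu hu'), hUs _ hu, hUs _ hu']
    simp
  obtain ⟨e, f, S, hsp⟩ := exists_sys h2 (BB_symm F d) hr
    (fun w hw hw0 => (hnd w hw hw0).2) hUW hU
    (by rw [hr] at hUr; exact Nat.eq_of_mul_eq_mul_left two_pos hUr)
  exact ⟨mk h2 e f S, hsp⟩

theorem fib_le [Finite F] (h2 : (2 : F) ≠ 0) (t t' : HSys d F h) :
    Nat.card {s : HSys d F h // sp s = sp t} ≤ Nat.card {s : HSys d F h // sp s = sp t'} := by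
  haveI : Finite (HSys d F h) := by unfold HSys; infer_instance
  have S := sys_of t
  have S' := sys_of t'
  let φ : {s : HSys d F h // sp s = sp t} → {s : HSys d F h // sp s = sp t'} := fun s =>
    ⟨mk h2 (T (BB F d) t.1.1 t.1.2 t'.1.1 t'.1.2 ∘ s.1.1.1)
        (T (BB F d) t.1.1 t.1.2 t'.1.1 t'.1.2 ∘ s.1.1.2) (transport S S' (sys_of s.1) s.2).1,
      (transport S S' (sys_of s.1) s.2).2⟩
  apply Nat.card_le_card_of_injective φ
  intro s1 s2 h12
  have h12' : (T (BB F d) t.1.1 t.1.2 t'.1.1 t'.1.2 ∘ s1.1.1.1,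
      T (BB F d) t.1.1 t.1.2 t'.1.1 t'.1.2 ∘ s1.1.1.2) =
      (T (BB F d) t.1.1 t.1.2 t'.1.1 t'.1.2 ∘ s2.1.1.1,
      T (BB F d) t.1.1 t.1.2 t'.1.1 t'.1.2 ∘ s2.1.1.2) :=
    congrArg (fun x => x.1.1) h12
  have key1 : ∀ (s : {s : HSys d F h // sp s = sp t}) (a : Fin h),
      T (BB F d) t'.1.1 t'.1.2 t.1.1 t.1.2 (T (BB F d) t.1.1 t.1.2 t'.1.1 t'.1.2 (s.1.1.1 a)) =
        s.1.1.1 a := by
    intro s a
    rw [T_T S', T_self S]
    have := s.2
    unfold sp at this
    rw [← this]
    exact Submodule.subset_span ⟨Sum.inl a, rfl⟩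
  have key2 : ∀ (s : {s : HSys d F h // sp s = sp t}) (a : Fin h),
      T (BB F d) t'.1.1 t'.1.2 t.1.1 t.1.2 (T (BB F d) t.1.1 t.1.2 t'.1.1 t'.1.2 (s.1.1.2 a)) =
        s.1.1.2 a := by
    intro s a
    rw [T_T S', T_self S]
    have := s.2
    unfold sp at this
    rw [← this]
    exact Submodule.subset_span ⟨Sum.inr a, rfl⟩
  apply Subtype.ext
  apply Subtype.ext
  apply Prod.ext
  · funext a
    rw [← key1 s1 a, ← key1 s2 a]
    exact congrArg _ (congrFun (congrArg Prod.fst h12') a)
  · funext a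
    rw [← key2 s1 a, ← key2 s2 a]
    exact congrArg _ (congrFun (congrArg Prod.snd h12') a)

end conc

theorem main : HypFib.{u} := by
  intro F _ _ hodd d h _ _
  classical
  have h2 : (2 : F) ≠ 0 := by
    apply Ring.two_ne_zero
    intro hc
    have := FiniteField.even_card_of_char_two hc
    rcases hodd with ⟨k, hk⟩
    omega
  haveI : Finite (HSys d F h) := by unfold HSys; infer_instance
  haveI : Finite (Submodule F (I d → F)) :=
    Finite.of_injective (fun W : Submodule F (I d → F) => (W : Set (I d → F)))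
      SetLike.coe_injective
  by_cases hemp : IsEmpty (HSys d F h)
  · have : Nat.card (HSys d F h) = 0 := Nat.card_of_isEmpty
    rw [this]
    exact dvd_zero _
  · rw [not_isEmpty_iff] at hemp
    obtain ⟨t0⟩ := hemp
    let σ' : HSys d F h → {W : Submodule F (I d → F) // Hyp d F (2 * h) W} :=
      fun t => ⟨sp t, hyp_sp h2 t⟩
    have hconst : ∀ W : {W : Submodule F (I d → F) // Hyp d F (2 * h) W},
        Nat.card {s : HSys d F h // σ' s = W} =
          Nat.card {s : HSys d F h // sp s = sp t0} := by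
      intro W
      obtain ⟨t, ht⟩ := exists_sp h2 W.2
      have e1 : {s : HSys d F h // σ' s = W} ≃ {s : HSys d F h // sp s = sp t} :=
        Equiv.subtypeEquivRight (fun s => by rw [ht]; exact Subtype.ext_iff)
      rw [Nat.card_congr e1]
      exact le_antisymm (fib_le h2 t t0) (fib_le h2 t0 t)
    have e2 : Nat.card (HSys d F h) =
        Nat.card (Σ W : {W : Submodule F (I d → F) // Hyp d F (2 * h) W},
          {s : HSys d F h // σ' s = W}) :=
      Nat.card_congr (Equiv.sigmaFiberEquiv σ').symm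
    haveI : Fintype {W : Submodule F (I d → F) // Hyp d F (2 * h) W} := Fintype.ofFinite _
    have hcard : Nat.card (HSys d F h) =
        Nat.card {W : Submodule F (I d → F) // Hyp d F (2 * h) W} *
          Nat.card {s : HSys d F h // sp s = sp t0} := by
      rw [e2, Nat.card_sigma, Finset.sum_congr rfl (fun W _ => hconst W), Finset.sum_const,
        Finset.card_univ, smul_eq_mul, Fintype.card_eq_nat_card]
    rw [hcard]
    exact dvd_mul_right _ _

end Cfsg.Agent.Lib.Helper91.HypHYPFIB
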