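import Mathlib
import Cfsg.Agent.Lib.Helper94.EllStmt
import Cfsg.Agent.Lib.Helper78.HypTOPND
import Cfsg.Agent.Lib.Helper91.HypHYPFIB

/-!
# S5993 / PFIX (helper91, call by helper94)

An isometry `x` with `dim ((x - 1) V ∩ Fix x) ≥ d` stabilises no elliptic `m`-space.
-/

set_option autoImplicit false

universe u

open scoped Matrix

namespace Cfsg.Agent.Lib.Helper91.EllPFIX

open Cfsg.Agent.Lib.Helper37.HypStmt Cfsg.Agent.Lib.Helper94.EllStmt
open Cfsg.Agent.Lib.Helper91.HypHYPFIB

section gen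

variable {F : Type*} [Field F] {V : Type*} [AddCommGroup V] [Module F V] [FiniteDimensional F V]

/-- a totally isotropic subspace of a nondegenerate subspace has at most half its dimension -/
theorem iso_bound (B : LinearMap.BilinForm F V) {W U : Submodule F V}
    (hnd : ∀ w ∈ W, w ≠ 0 → ∃ x ∈ W, B w x ≠ 0) (hUW : U ≤ W)
    (hU : ∀ u ∈ U, ∀ u' ∈ U, B u u' = 0) :
    2 * Module.finrank F U ≤ Module.finrank F W := by
  classical
  obtain ⟨h, hh⟩ : ∃ h, Module.finrank F U = h := ⟨_, rfl⟩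
  let bU : Module.Basis (Fin h) F U := Module.finBasisOfFinrankEq F U hh
  set e : Fin h → V := fun a => (bU a : V) with he
  have heU : ∀ a, e a ∈ U := fun a => (bU a).2
  let φ : W →ₗ[F] (Fin h → F) := LinearMap.pi (fun a => (B (e a)).comp W.subtype)
  have hφ : ∀ w a, φ w a = B (e a) (w : V) := fun w a => rfl
  have hsurj : Function.Surjective φ := by
    rw [← LinearMap.range_eq_top]
    by_contra hne
    obtain ⟨ψ, hψ0, hψ⟩ := Submodule.exists_le_ker_of_lt_top (LinearMap.range φ)
      (lt_top_iff_ne_top.mpr hne)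
    set c : Fin h → F := fun a => ψ (fun j => if a = j then 1 else 0) with hc
    have hψx : ∀ x : Fin h → F, ψ x = ∑ a, x a * c a := by
      intro x
      rw [LinearMap.pi_apply_eq_sum_univ ψ x]
      simp [hc]
    set u0 : V := ∑ a, c a • e a with hu0
    have hu0U : u0 ∈ U := Submodule.sum_mem _ (fun a _ => Submodule.smul_mem _ _ (heU a))
    have hB0 : ∀ w ∈ W, B u0 w = 0 := by
      intro w hw
      have h1 : ψ (φ ⟨w, hw⟩) = 0 := LinearMap.mem_ker.mp (hψ ⟨⟨w, hw⟩, rfl⟩)
      rw [hψx] at h1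
      rw [hu0, map_sum, LinearMap.sum_apply]
      simp only [map_smul, LinearMap.smul_apply, smul_eq_mul]
      rw [← h1]
      refine Finset.sum_congr rfl fun a _ => ?_
      rw [hφ]; ring
    have hu00 : u0 ≠ 0 := by
      intro h0
      apply hψ0
      have hc0 : ∀ a, c a = 0 := by
        have hli := bU.linearIndependent
        rw [Fintype.linearIndependent_iff] at hli
        apply hli c
        apply Subtype.ext
        simpa [hu0, he] using h0
      apply LinearMap.ext
      intro x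
      rw [hψx]; simp [hc0]
    obtain ⟨x, hx, hxne⟩ := hnd u0 (hUW hu0U) hu00
    exact hxne (hB0 x hx)
  have hrk := LinearMap.finrank_range_add_finrank_ker φ
  have hr : Module.finrank F (LinearMap.range φ) = h := by
    rw [LinearMap.range_eq_top.mpr hsurj, finrank_top]
    simp
  have hk : h ≤ Module.finrank F (LinearMap.ker φ) := by
    let ι : U →ₗ[F] LinearMap.ker φ := LinearMap.codRestrict _ (Submodule.inclusion hUW)
      (fun u => by
        rw [LinearMap.mem_ker]
        funext a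
        rw [hφ]
        exact hU _ (heU a) _ u.2)
    have hinj : Function.Injective ι := by
      intro u1 u2 h12
      have h3 := congrArg (fun z : LinearMap.ker φ => ((z : W) : V)) h12
      exact Subtype.ext h3
    have := LinearMap.finrank_le_finrank_of_injective hinj
    rw [hh] at this
    exact this
  omega

end gen

theorem main : PFix.{u} := by
  intro F _ _ hodd d m hm x hx hT W hW hStab
  classical
  have h2 : (2 : F) ≠ 0 := by
    apply Ring.two_ne_zero
    intro hc
    have := FiniteField.even_card_of_char_two hc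
    rcases hodd with ⟨k, hk⟩
    omega
  obtain ⟨hWr, hWnd, hWnp⟩ := hW
  have hsymm : ∀ u v, BB F d u v = BB F d v u := BB_symm F d
  have hgv : ∀ v, Matrix.toLin' (x : Matrix (I d) (I d) F) v =
      (x : Matrix (I d) (I d) F) *ᵥ v := fun v => Matrix.toLin'_apply _ v
  set g : (I d → F) →ₗ[F] (I d → F) := Matrix.toLin' (x : Matrix (I d) (I d) F) with hg
  have hQ : ∀ v, Cfsg.quadFormOdd d F (g v) = Cfsg.quadFormOdd d F v := fun v => by
    rw [hgv]; exact hx v v
  have hiso : ∀ u v, BB F d (g u) (g v) = BB F d u v := by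
    intro u v
    rw [BB_apply, BB_apply]
    unfold QuadraticMap.polar
    rw [← map_add, hQ, hQ, hQ]
  have hginj : Function.Injective g := by
    intro u v huv
    have hleft : ∀ w, ((x⁻¹ : Matrix.GeneralLinearGroup (I d) F) : Matrix (I d) (I d) F) *ᵥ
        (g w) = w := by
      intro w
      rw [hgv, Matrix.mulVec_mulVec, ← Units.val_mul, inv_mul_cancel, Units.val_one,
        Matrix.one_mulVec]
    rw [← hleft u, ← hleft v, huv]
  have hWmap : W.map g = W := by
    apply Submodule.eq_of_le_of_finrank_eq hStab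
    exact (Submodule.equivMapOfInjective g hginj W).finrank_eq.symm
  have hgW : ∀ w ∈ W, g w ∈ W := fun w hw => hStab (Submodule.mem_map_of_mem hw)
  have hgW' : ∀ w ∈ W, ∃ w₀ ∈ W, g w₀ = w := by
    intro w hw
    rw [← hWmap] at hw
    exact Submodule.mem_map.mp hw
  set Wp : Submodule F (I d → F) := (BB F d).orthogonal W with hWp
  have hWp_mem : ∀ u, u ∈ Wp ↔ ∀ w ∈ W, BB F d w u = 0 :=
    fun u => LinearMap.BilinForm.mem_orthogonal_iff
  have hcompl : IsCompl W Wp := by
    apply LinearMap.BilinForm.isCompl_orthogonal_of_restrict_nondegenerate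
    · exact fun u v huv => by rw [hsymm]; exact huv
    · refine ⟨fun w hw => ?_, fun w hw => ?_⟩
      · by_contra hne
        obtain ⟨_, ⟨y, hy, hyne⟩⟩ := hWnd w w.2 (fun h0 => hne (Subtype.ext h0))
        exact hyne (hw ⟨y, hy⟩)
      · by_contra hne
        obtain ⟨⟨y, hy, hyne⟩, _⟩ := hWnd w w.2 (fun h0 => hne (Subtype.ext h0))
        exact hyne (hw ⟨y, hy⟩)
  have hgWp : ∀ u ∈ Wp, g u ∈ Wp := by
    intro u hu
    rw [hWp_mem] at hu ⊢
    intro w hw
    obtain ⟨w₀, hw₀, rfl⟩ := hgW' w hw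
    rw [hiso]
    exact hu w₀ hw₀
  have hWpnd : ∀ u ∈ Wp, u ≠ 0 → ∃ y ∈ Wp, BB F d u y ≠ 0 := by
    intro u hu hu0
    obtain ⟨_, ⟨v, -, hv⟩⟩ :=
      Cfsg.Agent.Lib.Helper78.HypTOPND.main F hodd d u Submodule.mem_top hu0
    have hvmem : v ∈ W ⊔ Wp := by
      rw [hcompl.sup_eq_top]
      exact Submodule.mem_top
    obtain ⟨w, hw, u', hu', rfl⟩ := Submodule.mem_sup.mp hvmem
    refine ⟨u', hu', ?_⟩
    intro h0
    apply hv
    show BB F d u (w + u') = 0
    rw [map_add, h0, add_zero, hsymm]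
    exact (hWp_mem u).mp hu w hw
  have hFx : ∀ t, t ∈ Fx (x : Matrix (I d) (I d) F) ↔ g t = t := fun t => by
    rw [mem_Fx, hgv]
  set T : Submodule F (I d → F) :=
    LinearMap.range (g - LinearMap.id) ⊓ Fx (x : Matrix (I d) (I d) F) with hTdef
  have hTmem : ∀ t, t ∈ T ↔ (∃ v, g v - v = t) ∧ g t = t := by
    intro t
    rw [hTdef, Submodule.mem_inf, hFx, LinearMap.mem_range]
    simp only [LinearMap.sub_apply, LinearMap.id_apply]
  have hTiso : ∀ t ∈ T, ∀ t' ∈ T, BB F d t t' = 0 := by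
    intro t ht t' ht'
    obtain ⟨⟨v, rfl⟩, -⟩ := (hTmem t).mp ht
    have ht2 := ((hTmem t').mp ht').2
    have e : BB F d (g v) t' = BB F d v t' := by
      have h1 := hiso v t'
      rw [ht2] at h1
      exact h1
    rw [map_sub, LinearMap.sub_apply, e, sub_self]
  have hTle : T ≤ (T ⊓ W) ⊔ (T ⊓ Wp) := by
    intro t ht
    obtain ⟨⟨v, rfl⟩, ht'⟩ := (hTmem t).mp ht
    have hvmem : v ∈ W ⊔ Wp := by
      rw [hcompl.sup_eq_top]
      exact Submodule.mem_top
    obtain ⟨w, hw, u, hu, rfl⟩ := Submodule.mem_sup.mp hvmem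
    have hNw : g w - w ∈ W := W.sub_mem (hgW w hw) hw
    have hNu : g u - u ∈ Wp := Wp.sub_mem (hgWp u hu) hu
    have hfix : g (g w - w) - (g w - w) = -(g (g u - u) - (g u - u)) := by
      simp only [map_add, map_sub] at ht'
      have h0 := sub_eq_zero.mpr ht'
      simp only [map_sub]
      refine sub_eq_zero.mp (Eq.trans (by abel) h0)
    have hδW : g (g w - w) - (g w - w) ∈ W := W.sub_mem (hgW _ hNw) hNw
    have hδWp : g (g w - w) - (g w - w) ∈ Wp := by
      rw [hfix]
      exact Wp.neg_mem (Wp.sub_mem (hgWp _ hNu) hNu)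
    have hδ0 : g (g w - w) - (g w - w) = 0 := by
      have h1 : g (g w - w) - (g w - w) ∈ W ⊓ Wp := ⟨hδW, hδWp⟩
      rw [hcompl.inf_eq_bot] at h1
      exact (Submodule.mem_bot F).mp h1
    have hδ0' : g (g u - u) - (g u - u) = 0 := by
      have h1 := hfix
      rw [hδ0] at h1
      exact neg_eq_zero.mp h1.symm
    have h1 : g w - w ∈ T ⊓ W := ⟨(hTmem _).mpr ⟨⟨w, rfl⟩, sub_eq_zero.mp hδ0⟩, hNw⟩
    have h2' : g u - u ∈ T ⊓ Wp := ⟨(hTmem _).mpr ⟨⟨u, rfl⟩, sub_eq_zero.mp hδ0'⟩, hNu⟩
    have e : g (w + u) - (w + u) = (g w - w) + (g u - u) := by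
      rw [map_add]
      abel
    rw [e]
    exact Submodule.add_mem_sup h1 h2'
  have hb1 : 2 * Module.finrank F ↥(T ⊓ W) ≤ Module.finrank F W :=
    iso_bound (BB F d) (fun w hw hw0 => (hWnd w hw hw0).2) inf_le_right
      (fun t ht t' ht' => hTiso t ht.1 t' ht'.1)
  have hb2 : 2 * Module.finrank F ↥(T ⊓ Wp) ≤ Module.finrank F Wp :=
    iso_bound (BB F d) hWpnd inf_le_right (fun t ht t' ht' => hTiso t ht.1 t' ht'.1)
  have hne : 2 * Module.finrank F ↥(T ⊓ W) ≠ Module.finrank F W := by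
    intro heq
    apply hWnp
    refine ⟨T ⊓ W, inf_le_right, ?_, heq⟩
    intro t ht
    exact q0 h2 (hTiso t ht.1 t ht.1)
  have hdim : Module.finrank F W + Module.finrank F Wp = 2 * d + 1 := by
    rw [Submodule.finrank_add_eq_of_isCompl hcompl, Module.finrank_fintype_fun_eq_card]
    simp [Fintype.card_sum]
    omega
  have hle : Module.finrank F T ≤
      Module.finrank F ↥(T ⊓ W) + Module.finrank F ↥(T ⊓ Wp) :=
    (Submodule.finrank_mono hTle).trans (Submodule.finrank_add_le_finrank_add_finrank _ _)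
  obtain ⟨k, hk⟩ := hm
  omega

end Cfsg.Agent.Lib.Helper91.EllPFIX
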