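import Mathlib
import Cfsg.Agent.Lib.Helper80.FTStmt
import Cfsg.Agent.S0034
import Cfsg.Agent.S0035

set_option autoImplicit false

/-!
# S3999 piece NSC (helper91): from the complement to the Frobenius group
-/

namespace Cfsg.Agent.Lib.Helper91.FTNSC

open Cfsg.Agent.Lib.Helper80.FTStmt
open scoped Pointwise

universe u

theorem main : NSC.{u} := by
  intro X _ _ C hC h3 h5 h15
  obtain ⟨hker, hmod⟩ := Cfsg.Agent.S0034.result C hC
  obtain ⟨N, hNset, hNn, hNC⟩ := Cfsg.Agent.S0035.result C hC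
  have hcardX : Nat.card ↥C * C.index = Nat.card X := Subgroup.card_mul_index C
  have hcpos : Nat.card ↥C ≠ 0 := Nat.card_pos.ne'
  have hkpos : C.index ≠ 0 := by
    intro h0
    rw [h0, mul_zero] at hcardX
    exact (Nat.card_pos (α := X)).ne' hcardX.symm
  have hcop : Nat.Coprime C.index (Nat.card ↥C) := by
    have h1 : Nat.gcd C.index (Nat.card ↥C) = Nat.gcd 1 (Nat.card ↥C) :=
      Nat.ModEq.gcd_eq hmod
    rw [Nat.gcd_one_left] at h1
    exact h1
  have h3c : 3 ∣ Nat.card ↥C := Nat.dvd_of_factorization_pos (by rw [h3]; norm_num)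
  have h5c : 5 ∣ Nat.card ↥C := Nat.dvd_of_factorization_pos (by rw [h5]; norm_num)
  have h3k : ¬ 3 ∣ C.index := by
    intro h
    have := Nat.eq_one_of_dvd_coprimes hcop h h3c
    norm_num at this
  have h5k : ¬ 5 ∣ C.index := by
    intro h
    have := Nat.eq_one_of_dvd_coprimes hcop h h5c
    norm_num at this
  have hNcard : Nat.card ↥N = C.index := by
    rw [← hker, ← hNset]
    rfl
  refine ⟨?_, ?_, ?_⟩
  · rw [← hcardX, Nat.factorization_mul hcpos hkpos, Finsupp.add_apply, h3,
      Nat.factorization_eq_zero_of_not_dvd h3k]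
  · rw [← hcardX, Nat.factorization_mul hcpos hkpos, Finsupp.add_apply, h5,
      Nat.factorization_eq_zero_of_not_dvd h5k]
  · intro x hx
    by_cases hxN : x ∈ N
    · have h1 : orderOf (⟨x, hxN⟩ : N) ∣ Nat.card ↥N := orderOf_dvd_natCard _
      rw [Subgroup.orderOf_mk, hx, hNcard] at h1
      exact h3k ((by norm_num : 3 ∣ 15).trans h1)
    · have hxK : x ∉ Cfsg.frobeniusKernel C := by
        rw [← hNset]
        exact hxN
      have hxK' : ¬ (x = 1 ∨ ∀ g : X, x ∉ MulAut.conj g • C) := hxK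
      push Not at hxK'
      obtain ⟨-, g, hg⟩ := hxK'
      obtain ⟨y, hy, hyx⟩ := (Subgroup.mem_smul_pointwise_iff_exists x (MulAut.conj g) C).mp hg
      have h2 : orderOf x = orderOf y := by
        rw [← hyx]
        exact (MulAut.conj g).orderOf_eq y
      apply h15 ⟨y, hy⟩
      rw [Subgroup.orderOf_mk, ← h2, hx]

end Cfsg.Agent.Lib.Helper91.FTNSC
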