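import Mathlib
import Cfsg.Agent.Lib.Helper80.FTStmt

set_option autoImplicit false

/-!
# S3999 piece SHRINK (helper91): a Frobenius group has a copy in `Type`
-/

namespace Cfsg.Agent.Lib.Helper91.FTSHRINK

open Cfsg.Agent.Lib.Helper80.FTStmt
open scoped Pointwise

universe u v

/-- `IsFrobeniusComplement` transfers along a `MulEquiv`. -/
theorem frob_map {X : Type u} {L : Type v} [Group X] [Group L] (e : X ≃* L) (C : Subgroup X)
    (hC : Cfsg.IsFrobeniusComplement C) : Cfsg.IsFrobeniusComplement (C.map (e : X →* L)) := by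
  obtain ⟨h1, h2, h3⟩ := hC
  have hmem : ∀ x : X, e x ∈ C.map (e : X →* L) ↔ x ∈ C := by
    intro x
    constructor
    · intro h
      obtain ⟨c, hc, hcx⟩ := Subgroup.mem_map.mp h
      have hcx' : e c = e x := hcx
      rw [← e.injective hcx']
      exact hc
    · intro h
      exact Subgroup.mem_map.mpr ⟨x, h, rfl⟩
  refine ⟨?_, ?_, ?_⟩
  · intro h
    apply h1
    rw [eq_bot_iff]
    intro c hc
    have h4 : e c ∈ C.map (e : X →* L) := (hmem c).mpr hc
    rw [h, Subgroup.mem_bot] at h4
    rw [Subgroup.mem_bot]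
    exact e.injective (h4.trans (map_one e).symm)
  · intro h
    apply h2
    rw [eq_top_iff]
    intro x _
    apply (hmem x).mp
    rw [h]
    exact Subgroup.mem_top _
  · intro g hg
    rw [eq_bot_iff]
    rintro l ⟨hl1, hl2⟩
    rw [Subgroup.mem_bot]
    obtain ⟨c, hc, hcl⟩ := Subgroup.mem_map.mp hl1
    have hcl' : e c = l := hcl
    obtain ⟨s, hs, hsl⟩ := (Subgroup.mem_smul_pointwise_iff_exists l (MulAut.conj g)
      (C.map (e : X →* L))).mp hl2
    obtain ⟨c', hc', hcs⟩ := Subgroup.mem_map.mp hs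
    have hcs' : e c' = s := hcs
    have hg' : e.symm g ∉ C := by
      intro h
      apply hg
      have h5 := (hmem (e.symm g)).mpr h
      rwa [e.apply_symm_apply] at h5
    have key : c ∈ C ⊓ (MulAut.conj (e.symm g) • C) := by
      refine ⟨hc, ?_⟩
      apply (Subgroup.mem_smul_pointwise_iff_exists c (MulAut.conj (e.symm g)) C).mpr
      refine ⟨c', hc', ?_⟩
      apply e.injective
      rw [MulAut.smul_def, MulAut.conj_apply, map_mul, map_mul, map_inv, e.apply_symm_apply,
        hcs', hcl']
      rw [MulAut.smul_def, MulAut.conj_apply] at hsl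
      exact hsl
    rw [h3 _ hg', Subgroup.mem_bot] at key
    rw [← hcl', key, map_one]

theorem main : Shrink.{u} := by
  intro X _ _ C hC
  haveI : Small.{0} X := Countable.toSmall X
  refine ⟨_root_.Shrink.{0} X, inferInstance, Finite.of_equiv X (equivShrink X),
    C.map (((_root_.Shrink.mulEquiv (α := X)).symm : X ≃* _root_.Shrink.{0} X) :
      X →* _root_.Shrink.{0} X),
    frob_map _ C hC, ⟨MulEquiv.subgroupMap _ C⟩⟩

end Cfsg.Agent.Lib.Helper91.FTSHRINK
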