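import Mathlib

/-!
Piece Ea of S3798 (Gaschütz–Yen): a complement `B` of the normal `p`-subgroup `P` in `K`
whose centralizer in `V` is trivial.
-/

set_option autoImplicit false

namespace Cfsg.Agent.Lib.Helper91.GYEa

theorem exists_compl {G : Type*} [Group G] [Finite G] {p : ℕ} [Fact p.Prime]
    (P V K : Subgroup G) (hPn : P.Normal) (hPp : IsPGroup p P) (hKn : K.Normal)
    (hPK : P ≤ K) (hcop : (P.relIndex K).Coprime p) (hKP : ¬ K ≤ P)
    (hVP : V ≤ P) (hVc : ∀ v ∈ V, ∀ y ∈ P, v * y = y * v)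
    (hfaith : ∀ (g : G) (m : ℕ), m.Coprime p → g ^ m = 1 → (∀ v ∈ V, g * v = v * g) → g = 1)
    (htr : ∀ x ∈ V, ∀ y ∈ V, x ≠ 1 → y ≠ 1 →
      ∃ a : MulAut G, (∀ g ∈ K, a g ∈ K) ∧ y ∈ Subgroup.zpowers (a x)) :
    ∃ B : Subgroup G, B ≤ K ∧ P ⊓ B = ⊥ ∧ Nat.card B = P.relIndex K ∧
      (∀ v ∈ V, (∀ b ∈ B, b * v = v * b) → v = 1) := by
  classical
  haveI := hPn
  haveI := hKn
  obtain ⟨n, hn⟩ := hPp.exists_card_eq
  have hNcard : Nat.card (P.subgroupOf K) = Nat.card P :=
    Nat.card_congr (Subgroup.subgroupOfEquivOfLe hPK).toEquiv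
  have hNidx : (P.subgroupOf K).index = P.relIndex K := rfl
  have hcop' : (p ^ n).Coprime (P.relIndex K) := Nat.Coprime.pow_left n hcop.symm
  have hcopN : (Nat.card (P.subgroupOf K)).Coprime (P.subgroupOf K).index := by
    rw [hNcard, hn, hNidx]
    exact hcop'
  obtain ⟨B', hB'⟩ := Subgroup.exists_right_complement'_of_coprime hcopN
  have hB'card : Nat.card B' = P.relIndex K := by
    rw [← hNidx]; exact (hB'.symm.index_eq_card).symm
  obtain ⟨B, hBdef⟩ : ∃ B : Subgroup G, B = B'.map K.subtype := ⟨_, rfl⟩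
  have hBK : B ≤ K := by rw [hBdef]; exact Subgroup.map_subtype_le B'
  have hBcard : Nat.card B = P.relIndex K := by
    rw [hBdef, Subgroup.card_map_of_injective K.subtype_injective, hB'card]
  have hPB : P ⊓ B = ⊥ :=
    Subgroup.inf_eq_bot_of_coprime (by rw [hn, hBcard]; exact hcop')
  have hKcard : Nat.card K = Nat.card P * Nat.card B := by
    rw [hBcard, ← hNcard, ← hNidx]; exact (Subgroup.card_mul_index (P.subgroupOf K)).symm
  refine ⟨B, hBK, hPB, hBcard, ?_⟩
  intro v hv hvB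
  by_contra hv1
  have claim : ∀ y ∈ V, ∀ k ∈ K, k * y = y * k := by
    intro y hy k hk
    by_cases hy1 : y = 1
    · rw [hy1, mul_one, one_mul]
    obtain ⟨a, haK, hya⟩ := htr v hv y hy hv1 hy1
    obtain ⟨C, hC⟩ : ∃ C : Subgroup G, C = Subgroup.centralizer {y} ⊓ K := ⟨_, rfl⟩
    have hPC : P ≤ C := by
      intro x hx
      rw [hC]
      refine Subgroup.mem_inf.mpr ⟨?_, hPK hx⟩
      rw [Subgroup.mem_centralizer_iff]
      intro h hh
      rw [Set.mem_singleton_iff] at hh
      rw [hh]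
      exact hVc y hy x hx
    have hBC : B.map a.toMonoidHom ≤ C := by
      rintro _ ⟨b, hb, rfl⟩
      rw [hC]
      refine Subgroup.mem_inf.mpr ⟨?_, haK b (hBK hb)⟩
      rw [Subgroup.mem_centralizer_iff]
      intro h hh
      rw [Set.mem_singleton_iff] at hh
      rw [hh]
      obtain ⟨j, hj⟩ := Subgroup.mem_zpowers_iff.mp hya
      rw [← hj]
      have hcomm : Commute (a v) (a b) := by
        show a v * a b = a b * a v
        rw [← map_mul, ← map_mul, hvB b hb]
      exact (hcomm.zpow_left j).eq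
    have h1 : Nat.card P ∣ Nat.card C := Subgroup.card_dvd_of_le hPC
    have h2 : Nat.card B ∣ Nat.card C := by
      have := Subgroup.card_dvd_of_le hBC
      rwa [Subgroup.card_map_of_injective a.injective] at this
    have h3 : Nat.card K ∣ Nat.card C := by
      rw [hKcard]
      exact Nat.Coprime.mul_dvd_of_dvd_of_dvd (by rw [hn, hBcard]; exact hcop') h1 h2
    have hCK : C ≤ K := by rw [hC]; exact inf_le_right
    have hCeq : C = K := Subgroup.eq_of_le_of_card_ge hCK (Nat.le_of_dvd Nat.card_pos h3)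
    have hkC : k ∈ C := by rw [hCeq]; exact hk
    rw [hC] at hkC
    have := (Subgroup.mem_centralizer_iff.mp hkC.1) y (Set.mem_singleton y)
    exact this.symm
  have hB1 : ∀ b ∈ B, b = 1 := by
    intro b hb
    apply hfaith b (Nat.card B) (by rw [hBcard]; exact hcop)
    · have := pow_card_eq_one' (G := B) (x := ⟨b, hb⟩)
      exact congrArg Subtype.val this
    · intro w hw
      exact claim w hw b (hBK hb)
  apply hKP
  rw [← Subgroup.relIndex_eq_one, ← hBcard]
  have : B = ⊥ := (Subgroup.eq_bot_iff_forall B).mpr hB1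
  rw [this, Subgroup.card_bot]

end Cfsg.Agent.Lib.Helper91.GYEa
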