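import Mathlib
import Cfsg.Agent.S0001

/-!
Piece Eb of S3798 (Gaschütz–Yen): if the complement `B` of the normal `p`-subgroup `P` in the
normal subgroup `K` has trivial centralizer in `V ⊇ Ω₁`, then every `p`-element lies in `P`.
-/

set_option autoImplicit false

namespace Cfsg.Agent.Lib.Helper91.GYEb

open Pointwise

theorem all_p_in {G : Type*} [Group G] [Finite G] {p : ℕ} [Fact p.Prime]
    (P V K B : Subgroup G) (hPn : P.Normal) (hPp : IsPGroup p P) (hKn : K.Normal)
    (hPK : P ≤ K) (hcop : (P.relIndex K).Coprime p)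
    (hVP : V ≤ P) (hordp : ∀ x : G, x ^ p = 1 → x ∈ V)
    (hBK : B ≤ K) (hPB : P ⊓ B = ⊥) (hBcard : Nat.card B = P.relIndex K)
    (hCV : ∀ v ∈ V, (∀ b ∈ B, b * v = v * b) → v = 1) :
    ∀ (t : G) (k : ℕ), t ^ p ^ k = 1 → t ∈ P := by
  classical
  haveI := hPn
  haveI := hKn
  -- (A)
  have hA : ∀ w : G, (∀ b ∈ B, w * b * w⁻¹ ∈ B) → w ^ p = 1 → w = 1 := by
    intro w hw hwp
    have hwV : w ∈ V := hordp w hwp
    have hwP : w ∈ P := hVP hwV
    apply hCV w hwV
    intro b hb
    have hc : w * b * w⁻¹ * b⁻¹ ∈ P ⊓ B := by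
      refine Subgroup.mem_inf.mpr ⟨?_, B.mul_mem (hw b hb) (B.inv_mem hb)⟩
      have : w * b * w⁻¹ * b⁻¹ = w * (b * w⁻¹ * b⁻¹) := by group
      rw [this]
      exact P.mul_mem hwP (hPn.conj_mem w⁻¹ (P.inv_mem hwP) b)
    rw [hPB, Subgroup.mem_bot] at hc
    have h1 : w * b * w⁻¹ * b⁻¹ * (b * w) = b * w := by rw [hc, one_mul]
    rw [← h1]; group
  -- (B)
  have hB : ∀ (j : ℕ) (w : G), (∀ b ∈ B, w * b * w⁻¹ ∈ B) → w ^ p ^ j = 1 → w = 1 := by
    intro j
    induction j with
    | zero => intro w _ hw; simpa using hw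
    | succ j ih =>
      intro w hw hwp
      have hpow : ∀ (i : ℕ), ∀ b ∈ B, w ^ i * b * (w ^ i)⁻¹ ∈ B := by
        intro i
        induction i with
        | zero => intro b hb; simpa using hb
        | succ i ihi =>
          intro b hb
          have := hw _ (ihi b hb)
          have e : w ^ (i + 1) * b * (w ^ (i + 1))⁻¹ = w * (w ^ i * b * (w ^ i)⁻¹) * w⁻¹ := by
            rw [pow_succ']; group
          rw [e]; exact this
      have h1 : w ^ p = 1 := ih (w ^ p) (hpow p) (by rw [← pow_mul, ← pow_succ']; exact hwp)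
      exact hA w hw h1
  -- (C)
  obtain ⟨n, hn⟩ := hPp.exists_card_eq
  have hcop' : (p ^ n).Coprime (P.relIndex K) := Nat.Coprime.pow_left n hcop.symm
  have hNcard : Nat.card (P.subgroupOf K) = Nat.card P :=
    Nat.card_congr (Subgroup.subgroupOfEquivOfLe hPK).toEquiv
  have hB'card : Nat.card (B.subgroupOf K) = Nat.card B :=
    Nat.card_congr (Subgroup.subgroupOfEquivOfLe hBK).toEquiv
  have hNidx : (P.subgroupOf K).index = P.relIndex K := rfl
  have hKcard : Nat.card (P.subgroupOf K) * P.relIndex K = Nat.card K :=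
    Subgroup.card_mul_index (P.subgroupOf K)
  have hcopN : (Nat.card (P.subgroupOf K)).Coprime (P.subgroupOf K).index := by
    rw [hNcard, hn, hNidx]; exact hcop'
  have hcompl : Subgroup.IsComplement' (P.subgroupOf K) (B.subgroupOf K) :=
    Subgroup.isComplement'_of_coprime (by rw [hB'card, hBcard]; exact hKcard)
      (by rw [hNcard, hn, hB'card, hBcard]; exact hcop')
  have hsolv : Group.IsSolvable (P.subgroupOf K) := by
    have hp' : IsPGroup p (P.subgroupOf K) :=
      hPp.of_equiv (Subgroup.subgroupOfEquivOfLe hPK).symm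
    haveI := hp'.isNilpotent
    infer_instance
  have key : ∀ t : G, ∃ u ∈ P, ∀ b ∈ B, (u⁻¹ * t) * b * (u⁻¹ * t)⁻¹ ∈ B := by
    intro t
    obtain ⟨φ, hφ⟩ : ∃ φ : MulAut K, ∀ x : K, ((φ x : K) : G) = t * x * t⁻¹ :=
      ⟨MulAut.conjNormal t, fun x => MulAut.conjNormal_apply t x⟩
    have hcompl'' : Subgroup.IsComplement' (P.subgroupOf K)
        ((B.subgroupOf K).map φ.toMonoidHom) :=
      Subgroup.isComplement'_of_coprime
        (by rw [Subgroup.card_map_of_injective φ.injective, hB'card, hBcard]; exact hKcard)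
        (by rw [Subgroup.card_map_of_injective φ.injective, hNcard, hn, hB'card, hBcard]
            exact hcop')
    obtain ⟨g, hg⟩ := Cfsg.Agent.S0001.result (P.subgroupOf K) hcopN (Or.inl hsolv) _ _
      hcompl hcompl''
    obtain ⟨⟨⟨u', hu'⟩, ⟨b', hb'⟩⟩, hub, -⟩ :=
      (Subgroup.isComplement_iff_existsUnique.mp hcompl g)
    have hu'P : (u' : G) ∈ P := Subgroup.mem_subgroupOf.mp hu'
    have hb'B : (b' : G) ∈ B := Subgroup.mem_subgroupOf.mp hb'
    refine ⟨(u' : G), hu'P, ?_⟩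
    intro x hx
    have hxK : x ∈ K := hBK hx
    have h1 : φ ⟨x, hxK⟩ ∈ (B.subgroupOf K).map φ.toMonoidHom :=
      Subgroup.mem_map_of_mem _ (Subgroup.mem_subgroupOf.mpr hx)
    rw [← hg, Subgroup.mem_smul_pointwise_iff_exists] at h1
    obtain ⟨y, hy, hy2⟩ := h1
    have hyB : (y : G) ∈ B := Subgroup.mem_subgroupOf.mp hy
    have h2 : ((g : K) : G) * y * ((g : K) : G)⁻¹ = t * x * t⁻¹ := by
      have := congrArg (fun z : K => (z : G)) hy2
      simp only [MulAut.smul_def, MulAut.conj_apply, Subgroup.coe_mul, Subgroup.coe_inv] at this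
      rw [this, hφ]
    have hgu : ((g : K) : G) = (u' : G) * (b' : G) := by
      have := congrArg (fun z : K => (z : G)) hub
      simpa using this.symm
    have e : ((u' : G)⁻¹ * t) * x * ((u' : G)⁻¹ * t)⁻¹ = (b' : G) * y * (b' : G)⁻¹ := by
      have : ((u' : G)⁻¹ * t) * x * ((u' : G)⁻¹ * t)⁻¹ =
          (u' : G)⁻¹ * (t * x * t⁻¹) * (u' : G) := by group
      rw [this, ← h2, hgu]; group
    rw [e]
    exact B.mul_mem (B.mul_mem hb'B hyB) (B.inv_mem hb'B)
  -- (D)
  intro t k htk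
  obtain ⟨u, hu, hnrm⟩ := key t
  have hnP : (u⁻¹ * t) ^ p ^ k ∈ P := by
    rw [← QuotientGroup.eq_one_iff, QuotientGroup.mk_pow, QuotientGroup.mk_mul,
      QuotientGroup.mk_inv, (QuotientGroup.eq_one_iff u).mpr hu, inv_one, one_mul,
      ← QuotientGroup.mk_pow, htk, QuotientGroup.mk_one]
  obtain ⟨l, hl⟩ := hPp ⟨_, hnP⟩
  have hl' : (u⁻¹ * t) ^ p ^ (k + l) = 1 := by
    have := congrArg Subtype.val hl
    simp only [Subgroup.coe_pow, Subgroup.coe_one] at this
    rw [pow_add, pow_mul]; exact this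
  have hn1 := hB (k + l) (u⁻¹ * t) hnrm hl'
  have : t = u := by
    have := congrArg (fun z => u * z) hn1
    simpa using this
  rw [this]; exact hu

end Cfsg.Agent.Lib.Helper91.GYEb
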