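import Mathlib
import Cfsg.Agent.Lib.Helper96.HallAltStmt
import Cfsg.Agent.Lib.Helper11.HSFACT

set_option autoImplicit false

namespace Cfsg.Agent.Lib.Helper91.HAARB

open Equiv Cfsg.Agent.Lib.Helper96.HallSymStmt Cfsg.Agent.Lib.Helper96.HallAltStmt

theorem main : Cfsg.Agent.Lib.Helper96.HallAltStmt.ARB := by
  intro a b m k o ha hb hm ho h1 h2 h3
  have hF := Cfsg.Agent.Lib.Helper11.HSFACT.main a b ha
  have h4 : 2 ^ b * m ∣ (a * b).factorial := by
    calc 2 ^ b * m ∣ 2 ^ b * (k * b.factorial) := Nat.mul_dvd_mul_left _ h2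
      _ = (2 ^ b * k) * b.factorial := by ring
      _ ∣ a.factorial ^ b * b.factorial := Nat.mul_dvd_mul_right h1 _
      _ ∣ (a * b).factorial := hF
  rw [h3] at h4
  have h5 : 2 ^ b ∣ 2 * o := by
    have : 2 ^ b * m ∣ (2 * o) * m := by
      rw [show 2 * o * m = 2 * (m * o) by ring]; exact h4
    exact Nat.dvd_of_mul_dvd_mul_right hm this
  have h6 : 4 ∣ 2 * o := by
    have h7 : (2 : ℕ) ^ 2 ∣ 2 ^ b := Nat.pow_dvd_pow 2 hb
    have h8 : (4 : ℕ) ∣ 2 ^ b := by simpa using h7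
    exact h8.trans h5
  obtain ⟨c, hc⟩ := ho
  omega

end Cfsg.Agent.Lib.Helper91.HAARB
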