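import Mathlib
import Cfsg.Agent.Lib.Helper96.HallAltStmt

set_option autoImplicit false

namespace Cfsg.Agent.Lib.Helper91.HAGC1

open Equiv Cfsg.Agent.Lib.Helper96.HallSymStmt Cfsg.Agent.Lib.Helper96.HallAltStmt

theorem main : Cfsg.Agent.Lib.Helper96.HallAltStmt.GC1 := by
  intro Ω _ _ ι f K hK
  refine ⟨{ carrier := {h | FClos K f h}
            mul_mem' := ?_
            one_mem' := ?_
            inv_mem' := ?_ }, fun h => Iff.rfl⟩
  · intro h₁ h₂ hh₁ hh₂ i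
    obtain ⟨g₁, hg₁, e₁⟩ := hh₁ i
    obtain ⟨g₂, hg₂, e₂⟩ := hh₂ i
    refine ⟨g₁ * g₂, K.mul_mem hg₁ hg₂, ?_⟩
    intro x hx
    rw [Perm.mul_apply, Perm.mul_apply, e₂ x hx]
    have hfx : f (g₂ x) = i := by rw [(mem_FP f g₂).mp (hK hg₂) x, hx]
    exact e₁ _ hfx
  · intro i
    exact ⟨1, K.one_mem, fun x _ => rfl⟩
  · intro h hh i
    obtain ⟨g, hg, e⟩ := hh i
    refine ⟨g⁻¹, K.inv_mem hg, ?_⟩
    intro x hx
    have hfy : f (g⁻¹ x) = i := by rw [(mem_FP f g⁻¹).mp (hK (K.inv_mem hg)) x, hx]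
    have h1 := e _ hfy
    have h2 : g (g⁻¹ x) = x := by rw [← Perm.mul_apply, mul_inv_cancel, Perm.one_apply]
    rw [h2] at h1
    rw [Perm.inv_eq_iff_eq]
    exact h1.symm

end Cfsg.Agent.Lib.Helper91.HAGC1
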