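import Mathlib
import Cfsg.Agent.Lib.Helper96.HallAltStmt

set_option autoImplicit false

namespace Cfsg.Agent.Lib.Helper91.HAHCONJ

open Equiv Cfsg.Agent.Lib.Helper96.HallSymStmt Cfsg.Agent.Lib.Helper96.HallAltStmt

theorem main : Cfsg.Agent.Lib.Helper96.HallAltStmt.HCONJ := by
  intro G _ _ π M B V p hp hpπ hM hVB hV
  obtain ⟨hMB, h1, h2⟩ := hM
  haveI : Fact p.Prime := ⟨hp⟩
  have hW : IsPGroup p ↥(V.subgroupOf B) := hV.comap_subtype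
  have hnd : ¬ p ∣ Nat.card (↥B ⧸ M.subgroupOf B) := h2 p hp hpπ
  obtain ⟨q, hq⟩ := hW.nonempty_fixed_point_of_prime_not_dvd_card (↥B ⧸ M.subgroupOf B) hnd
  obtain ⟨b, rfl⟩ := QuotientGroup.mk_surjective q
  refine ⟨(b : G)⁻¹, B.inv_mem b.2, ?_⟩
  intro v hv
  have hfix := hq ⟨⟨v⁻¹, hVB (V.inv_mem hv)⟩, by
    rw [Subgroup.mem_subgroupOf]; exact V.inv_mem hv⟩
  have h3 : (((⟨v⁻¹, hVB (V.inv_mem hv)⟩ : ↥B) * b : ↥B) : ↥B ⧸ M.subgroupOf B)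
      = (b : ↥B ⧸ M.subgroupOf B) := hfix
  rw [QuotientGroup.eq, Subgroup.mem_subgroupOf] at h3
  simpa [mul_assoc] using h3

end Cfsg.Agent.Lib.Helper91.HAHCONJ
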