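import Mathlib
import Cfsg.Agent.Lib.Helper96.HallAltStmt

set_option autoImplicit false

namespace Cfsg.Agent.Lib.Helper91.HAHNORM

open Equiv Cfsg.Agent.Lib.Helper96.HallSymStmt Cfsg.Agent.Lib.Helper96.HallAltStmt

theorem card_subgroupOf_eq {G : Type*} [Group G] (H K : Subgroup G) :
    Nat.card (H.subgroupOf K) = Nat.card ↥(H ⊓ K) := by
  rw [← Subgroup.subgroupOf_map_subtype,
    Subgroup.card_map_of_injective (Subgroup.subtype_injective K)]

theorem card_inf_mul_relIndex {G : Type*} [Group G] (H K : Subgroup G) :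
    Nat.card ↥(H ⊓ K) * H.relIndex K = Nat.card K := by
  rw [← card_subgroupOf_eq]
  exact Subgroup.card_mul_index (H.subgroupOf K)

theorem relIndex_eq_relIndex_sup_of_normal {G : Type*} [Group G] [Finite G] (M₀ B : Subgroup G)
    [hB : B.Normal] : M₀.relIndex B = M₀.relIndex (M₀ ⊔ B) := by
  have e1 := card_inf_mul_relIndex M₀ B
  have e2 := card_inf_mul_relIndex B M₀
  have e3 := card_inf_mul_relIndex B (M₀ ⊔ B)
  have e5 := card_inf_mul_relIndex M₀ (M₀ ⊔ B)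
  have e4 : B.relIndex (M₀ ⊔ B) = B.relIndex M₀ := Subgroup.relIndex_sup_right M₀ B
  rw [inf_eq_left.mpr le_sup_right, e4] at e3
  rw [inf_eq_left.mpr le_sup_left] at e5
  rw [inf_comm] at e2
  have hpos : 0 < Nat.card ↥(M₀ ⊓ B) * B.relIndex M₀ := by
    rw [e2]; exact Nat.card_pos
  apply Nat.eq_of_mul_eq_mul_left hpos
  calc Nat.card ↥(M₀ ⊓ B) * B.relIndex M₀ * M₀.relIndex B
      = (Nat.card ↥(M₀ ⊓ B) * M₀.relIndex B) * B.relIndex M₀ := by ring
    _ = Nat.card B * B.relIndex M₀ := by rw [e1]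
    _ = Nat.card ↥(M₀ ⊔ B) := e3
    _ = Nat.card M₀ * M₀.relIndex (M₀ ⊔ B) := e5.symm
    _ = Nat.card ↥(M₀ ⊓ B) * B.relIndex M₀ * M₀.relIndex (M₀ ⊔ B) := by rw [e2]

theorem main : Cfsg.Agent.Lib.Helper96.HallAltStmt.HNORM := by
  intro G _ _ B hB π M₀ hM
  obtain ⟨h1, h2⟩ := hM
  refine ⟨?_, ?_⟩
  · intro p hp hdvd
    apply h1 p hp
    rw [card_subgroupOf_eq] at hdvd
    exact hdvd.trans (Subgroup.card_dvd_of_le inf_le_left)
  · intro p hp hpπ hdvd
    apply h2 p hp hpπ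
    have hrel : (M₀.subgroupOf B).index = M₀.relIndex (M₀ ⊔ B) :=
      relIndex_eq_relIndex_sup_of_normal M₀ B
    rw [hrel] at hdvd
    exact hdvd.trans (Subgroup.relIndex_dvd_index_of_le le_sup_left)

end Cfsg.Agent.Lib.Helper91.HAHNORM
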