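import Mathlib
import Cfsg.Agent.Lib.Helper96.HallAltStmt

set_option autoImplicit false

namespace Cfsg.Agent.Lib.Helper91.HAHOF

open Equiv Cfsg.Agent.Lib.Helper96.HallSymStmt Cfsg.Agent.Lib.Helper96.HallAltStmt

theorem main : Cfsg.Agent.Lib.Helper96.HallAltStmt.HOF := by
  intro G _ B π M
  have hc : Nat.card (M.map B.subtype) = Nat.card M :=
    Subgroup.card_map_of_injective (Subgroup.subtype_injective B)
  have hi : (M.map B.subtype).relIndex B = M.index := by
    rw [Subgroup.relIndex, Subgroup.subgroupOf,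
      Subgroup.comap_map_eq_self_of_injective (Subgroup.subtype_injective B)]
  unfold Cfsg.IsPiHall Cfsg.IsPiHallOf
  rw [hc, hi]
  exact ⟨fun h => ⟨Subgroup.map_subtype_le M, h.1, h.2⟩, fun h => ⟨h.2.1, h.2.2⟩⟩

end Cfsg.Agent.Lib.Helper91.HAHOF
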