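import Mathlib
import Cfsg.Agent.Lib.Helper96.HallAltStmt

set_option autoImplicit false

namespace Cfsg.Agent.Lib.Helper91.HAINVC

open Equiv Cfsg.Agent.Lib.Helper96.HallSymStmt Cfsg.Agent.Lib.Helper96.HallAltStmt

theorem main : Cfsg.Agent.Lib.Helper96.HallAltStmt.INVC := by
  intro Ω _ _ c w hc hcard hodd hw hcomm
  haveI : Fact (Nat.Prime 2) := ⟨Nat.prime_two⟩
  have hsupp : c.support = Finset.univ := Finset.eq_univ_of_card _ hcard
  have hfix := Equiv.Perm.card_compl_support_modEq (p := 2) (n := 1) (σ := w)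
    (by rw [pow_one, sq]; exact hw)
  have hne : (w.supportᶜ).Nonempty := by
    rw [Finset.nonempty_iff_ne_empty]
    intro hemp
    rw [hemp, Finset.card_empty] at hfix
    have h2 : 2 ∣ Fintype.card Ω := (Nat.modEq_zero_iff_dvd.mp hfix.symm)
    exact (Nat.not_even_iff_odd.mpr hodd) (even_iff_two_dvd.mpr h2)
  obtain ⟨x₀, hx₀⟩ := hne
  rw [Finset.mem_compl, Equiv.Perm.mem_support, not_not] at hx₀
  apply Equiv.ext
  intro y
  have hx₀s : c x₀ ≠ x₀ := by
    rw [← Equiv.Perm.mem_support, hsupp]; exact Finset.mem_univ _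
  have hys : c y ≠ y := by
    rw [← Equiv.Perm.mem_support, hsupp]; exact Finset.mem_univ _
  obtain ⟨i, hi⟩ := hc.exists_zpow_eq hx₀s hys
  have hcomm' : Commute w (c ^ i) := (show Commute w c from hcomm).zpow_right i
  rw [← hi, ← Perm.mul_apply, hcomm'.eq, Perm.mul_apply, hx₀]
  rfl

end Cfsg.Agent.Lib.Helper91.HAINVC
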