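import Mathlib
import Cfsg.Agent.Lib.Helper96.HallConjStmt

set_option autoImplicit false

namespace Cfsg.Agent.Lib.Helper91.HCBINP

open Equiv Cfsg.Agent.Lib.Helper96.HallSymStmt Cfsg.Agent.Lib.Helper96.HallConjStmt
open scoped Pointwise

theorem main : Cfsg.Agent.Lib.Helper96.HallConjStmt.BINP := by
  intro n m hn hm hmn
  obtain ⟨N, rfl⟩ : ∃ N, n = N + 1 := ⟨n - 1, by omega⟩
  obtain ⟨k, rfl⟩ : ∃ k, m = k + 1 := ⟨m - 1, by omega⟩
  have h1 := Nat.add_one_mul_choose_eq N k
  have hcop : Nat.Coprime (k + 1) (N + 1) := by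
    apply Nat.Coprime.symm
    rw [Nat.Prime.coprime_iff_not_dvd hn]
    intro hd
    have := Nat.le_of_dvd (by omega) hd
    omega
  have hdvd : (k + 1) ∣ Nat.choose N k := by
    have : (k + 1) ∣ (N + 1) * Nat.choose N k := by rw [h1]; exact dvd_mul_left _ _
    exact hcop.dvd_of_dvd_mul_left this
  obtain ⟨c, hc⟩ := hdvd
  have hbig : k + 1 < Nat.choose N k := by
    have h2 : Nat.choose (k + 2) k ≤ Nat.choose N k := Nat.choose_le_choose k (by omega)
    have h3 : Nat.choose (k + 2) k = Nat.choose (k + 2) 2 := by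
      have := Nat.choose_symm (n := k + 2) (k := 2) (by omega)
      rw [← this]
      congr 1
    rw [h3, Nat.choose_two_right] at h2
    have h4 : k + 2 ≤ (k + 2) * (k + 2 - 1) / 2 := by
      rw [Nat.le_div_iff_mul_le (by norm_num)]
      have : k + 2 - 1 = k + 1 := by omega
      rw [this]
      nlinarith
    omega
  have hc2 : c ≠ 1 := by
    rintro rfl
    omega
  have hCeq : Nat.choose (N + 1) (k + 1) = (N + 1) * c := by
    have : Nat.choose (N + 1) (k + 1) * (k + 1) = ((N + 1) * c) * (k + 1) := by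
      rw [← h1, hc]; ring
    exact Nat.eq_of_mul_eq_mul_right (by omega) this
  refine ⟨c.minFac, Nat.minFac_prime hc2, ?_, ?_⟩
  · have hq : c.minFac ∣ N.factorial := by
      have h5 : c.minFac ∣ Nat.choose N k :=
        (Nat.minFac_dvd c).trans ⟨k + 1, by rw [hc]; ring⟩
      have h6 : Nat.choose N k ∣ N.factorial := by
        have := Nat.choose_mul_factorial_mul_factorial (n := N) (k := k) (by omega)
        exact ⟨k.factorial * (N - k).factorial, by rw [← this]; ring⟩
      exact h5.trans h6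
    have := (Nat.Prime.dvd_factorial (Nat.minFac_prime hc2)).mp hq
    omega
  · rw [hCeq]
    exact (Nat.minFac_dvd c).trans (dvd_mul_left _ _)

end Cfsg.Agent.Lib.Helper91.HCBINP
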