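import Mathlib
import Cfsg.Agent.Lib.Helper96.HallConjStmt

set_option autoImplicit false

namespace Cfsg.Agent.Lib.Helper91.HCHMAXT

open Equiv Cfsg.Agent.Lib.Helper96.HallSymStmt Cfsg.Agent.Lib.Helper96.HallConjStmt
open scoped Pointwise

theorem main : Cfsg.Agent.Lib.Helper96.HallConjStmt.HMAXT := by
  intro G _ _ π H K hH hHK hK
  apply le_antisymm _ hHK
  rw [← Subgroup.relIndex_eq_one]
  by_contra hne
  obtain ⟨p, hp, hpd⟩ := Nat.exists_prime_and_dvd hne
  exact hH.2 p hp (hK p hp (hpd.trans (Subgroup.relIndex_dvd_card H K)))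
    (hpd.trans (Subgroup.relIndex_dvd_index_of_le hHK))

end Cfsg.Agent.Lib.Helper91.HCHMAXT
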