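import Mathlib
import Cfsg.Agent.Lib.Helper96.HallConjStmt

set_option autoImplicit false

namespace Cfsg.Agent.Lib.Helper91.HCHNA

open Equiv Cfsg.Agent.Lib.Helper96.HallSymStmt Cfsg.Agent.Lib.Helper96.HallConjStmt
open scoped Pointwise

theorem main : Cfsg.Agent.Lib.Helper96.HallConjStmt.HNA := by
  intro G _ _ B hB π H h2 hH hle
  have h3 : B.index ∣ H.index := Subgroup.index_dvd_of_le hle
  rw [hB] at h3
  exact hH.2 2 Nat.prime_two h2 h3

end Cfsg.Agent.Lib.Helper91.HCHNA
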