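import Mathlib
import Cfsg.Agent.Lib.Helper96.HallConjStmt

set_option autoImplicit false

namespace Cfsg.Agent.Lib.Helper91.HCHTOP

open Equiv Cfsg.Agent.Lib.Helper96.HallSymStmt Cfsg.Agent.Lib.Helper96.HallConjStmt
open scoped Pointwise

theorem main : Cfsg.Agent.Lib.Helper96.HallConjStmt.HTOP := by
  intro G _ _ π hπ H hH
  rw [← Subgroup.index_eq_one]
  by_contra hne
  obtain ⟨p, hp, hpd⟩ := Nat.exists_prime_and_dvd hne
  exact hH.2 p hp (hπ p hp (hpd.trans (Subgroup.index_dvd_card H))) hpd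

end Cfsg.Agent.Lib.Helper91.HCHTOP
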