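import Mathlib
import Cfsg.Agent.Lib.Helper96.HallConjStmt

set_option autoImplicit false

namespace Cfsg.Agent.Lib.Helper91.HCPAR

open Equiv Cfsg.Agent.Lib.Helper96.HallSymStmt Cfsg.Agent.Lib.Helper96.HallConjStmt
open scoped Pointwise

theorem conj_sub {G : Type*} [Group G] (B H₁ H₂ : Subgroup G) (c : G) (hc : c ∈ B)
    (h : H₂ = H₁.map (MulAut.conj c).toMonoidHom) :
    H₂.subgroupOf B = (H₁.subgroupOf B).map (MulAut.conj (⟨c, hc⟩ : ↥B)).toMonoidHom := by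
  ext x
  rw [Subgroup.mem_subgroupOf, h, Subgroup.mem_map, Subgroup.mem_map]
  constructor
  · rintro ⟨y, hy, hyx⟩
    have hyx' : c * y * c⁻¹ = (x : G) := hyx
    have hyB : y ∈ B := by
      have : y = c⁻¹ * (x : G) * c := by rw [← hyx']; group
      rw [this]
      exact B.mul_mem (B.mul_mem (B.inv_mem hc) x.2) hc
    refine ⟨⟨y, hyB⟩, by rw [Subgroup.mem_subgroupOf]; exact hy, ?_⟩
    apply Subtype.ext
    exact hyx'
  · rintro ⟨y, hy, hyx⟩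
    rw [Subgroup.mem_subgroupOf] at hy
    refine ⟨(y : G), hy, ?_⟩
    rw [← hyx]
    rfl

theorem main : Cfsg.Agent.Lib.Helper96.HallConjStmt.PAR := by
  intro G _ B hB H₁ H₂ hH₁ ⟨g, hg⟩
  by_cases hgB : g ∈ B
  · exact ⟨⟨g, hgB⟩, conj_sub B H₁ H₂ g hgB hg⟩
  · obtain ⟨t, ht, htB⟩ := SetLike.not_le_iff_exists.mp hH₁
    have hgt : g * t ∈ B := (Subgroup.mul_mem_iff_of_index_two hB).mpr
      ⟨fun h => absurd h hgB, fun h => absurd h htB⟩
    refine ⟨⟨g * t, hgt⟩, conj_sub B H₁ H₂ (g * t) hgt ?_⟩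
    rw [hg]
    ext x
    simp only [Subgroup.mem_map, MulEquiv.coe_toMonoidHom, MulAut.conj_apply]
    constructor
    · rintro ⟨y, hy, rfl⟩
      exact ⟨t⁻¹ * y * t, H₁.mul_mem (H₁.mul_mem (H₁.inv_mem ht) hy) ht, by group⟩
    · rintro ⟨y, hy, rfl⟩
      exact ⟨t * y * t⁻¹, H₁.mul_mem (H₁.mul_mem ht hy) (H₁.inv_mem ht), by group⟩

end Cfsg.Agent.Lib.Helper91.HCPAR
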