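import Mathlib
import Cfsg.Agent.Lib.Helper96.HallConjStmt

set_option autoImplicit false

namespace Cfsg.Agent.Lib.Helper91.HCPINV

open Equiv Cfsg.Agent.Lib.Helper96.HallSymStmt Cfsg.Agent.Lib.Helper96.HallConjStmt
open scoped Pointwise

theorem main : Cfsg.Agent.Lib.Helper96.HallConjStmt.PINV := by
  intro Ω _ _ g p hp hgp Δ hΔ hlt x hx
  by_contra hne
  have hper : Function.IsPeriodicPt g p x := by
    show g^[p] x = x
    rw [← Equiv.Perm.coe_pow, hgp]; rfl
  have hdvd := hper.minimalPeriod_dvd
  have hmp : Function.minimalPeriod g x = p := by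
    rcases (Nat.dvd_prime hp).mp hdvd with h1 | h1
    · exfalso; exact hne (Function.minimalPeriod_eq_one_iff_isFixedPt.mp h1)
    · exact h1
  have hinj : Set.InjOn (fun i => g^[i] x) (Set.Iio p) := by
    rw [← hmp]; exact Function.iterate_injOn_Iio_minimalPeriod
  have hsub : (fun i => g^[i] x) '' (Set.Iio p) ⊆ Δ := by
    rintro _ ⟨i, -, rfl⟩
    induction i with
    | zero => exact hx
    | succ n ih =>
      show g^[n + 1] x ∈ Δ
      rw [Function.iterate_succ_apply']; exact hΔ _ ih
  have hcard : ((fun i => g^[i] x) '' (Set.Iio p)).ncard = p := by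
    rw [Set.ncard_image_of_injOn hinj, ← Finset.coe_Iio, Set.ncard_coe_finset, Nat.card_Iio]
  have := Set.ncard_le_ncard hsub (Set.toFinite Δ)
  omega

end Cfsg.Agent.Lib.Helper91.HCPINV
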