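import Mathlib
import Cfsg.Agent.Lib.Helper96.HallConjStmt

set_option autoImplicit false

namespace Cfsg.Agent.Lib.Helper91.HCSETTR

open Equiv Cfsg.Agent.Lib.Helper96.HallSymStmt Cfsg.Agent.Lib.Helper96.HallConjStmt
open scoped Pointwise

theorem main : Cfsg.Agent.Lib.Helper96.HallConjStmt.SETTR := by
  intro Ω _ _ Δ Δ' hcard
  classical
  have h1 : Nat.card ↥Δ = Nat.card ↥Δ' := by
    rw [Nat.card_coe_set_eq, Nat.card_coe_set_eq, hcard]
  obtain ⟨e⟩ := Finite.card_eq.mp h1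
  let e' : {x // x ∈ Δ} ≃ {x // x ∈ Δ'} := e
  refine ⟨e'.extendSubtype, ?_⟩
  ext y
  rw [Set.mem_smul_set]
  constructor
  · rintro ⟨x, hx, rfl⟩
    exact e'.extendSubtype_mem x hx
  · intro hy
    refine ⟨e'.extendSubtype.symm y, ?_, ?_⟩
    · by_contra hnot
      have := e'.extendSubtype_not_mem _ hnot
      rw [Equiv.apply_symm_apply] at this
      exact this hy
    · rw [Perm.smul_def, Equiv.apply_symm_apply]

end Cfsg.Agent.Lib.Helper91.HCSETTR
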