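import Mathlib
import Cfsg.Agent.Lib.Helper96.HallConjStmt

set_option autoImplicit false

namespace Cfsg.Agent.Lib.Helper91.HCSP2

open Equiv Cfsg.Agent.Lib.Helper96.HallSymStmt Cfsg.Agent.Lib.Helper96.HallConjStmt
open scoped Pointwise

theorem main : Cfsg.Agent.Lib.Helper96.HallConjStmt.SP2 := by
  intro Ω _ _ π x hπ p hp hpd
  apply hπ p hp
  have h1 := Subgroup.card_mul_index (MulAction.stabilizer (Perm Ω) x)
  rw [MulAction.index_stabilizer_of_transitive, Nat.card_eq_fintype_card (α := Ω),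
    Nat.card_eq_fintype_card (α := Perm Ω), Fintype.card_perm] at h1
  have hpos : 0 < Fintype.card Ω := Fintype.card_pos_iff.mpr ⟨x⟩
  obtain ⟨n, hn⟩ : ∃ n, Fintype.card Ω = n + 1 := ⟨Fintype.card Ω - 1, by omega⟩
  rw [hn, Nat.factorial_succ, mul_comm] at h1
  have h2 : Nat.card (MulAction.stabilizer (Perm Ω) x) = n.factorial :=
    Nat.eq_of_mul_eq_mul_left (by omega) h1
  rw [h2] at hpd
  have := (Nat.Prime.dvd_factorial hp).mp hpd
  omega

end Cfsg.Agent.Lib.Helper91.HCSP2
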