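import Mathlib
import Cfsg.Agent.Lib.Helper96.HallConjStmt

set_option autoImplicit false

namespace Cfsg.Agent.Lib.Helper91.HCSYLC

open Equiv Cfsg.Agent.Lib.Helper96.HallSymStmt Cfsg.Agent.Lib.Helper96.HallConjStmt
open scoped Pointwise

theorem main : Cfsg.Agent.Lib.Helper96.HallConjStmt.SYLC := by
  intro G _ _ π hπ H K hH hK
  by_cases hex : ∃ p : ℕ, p.Prime ∧ p ∈ π ∧ p ∣ Nat.card G
  · obtain ⟨p, hp, hpπ, hpG⟩ := hex
    haveI : Fact p.Prime := ⟨hp⟩
    have key : ∀ L : Subgroup G, Cfsg.IsPiHall π L → IsPGroup p L ∧ ¬ p ∣ L.index := by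
      intro L hL
      refine ⟨?_, hL.2 p hp hpπ⟩
      have : Nat.card L = p ^ (Nat.card L).primeFactorsList.length := by
        apply Nat.eq_prime_pow_of_unique_prime_dvd Nat.card_pos.ne'
        intro d hd hdL
        exact hπ d p hd hp (hL.1 d hd hdL) hpπ
          (hdL.trans (Subgroup.card_subgroup_dvd_card L)) hpG
      exact IsPGroup.of_card this
    obtain ⟨hH1, hH2⟩ := key H hH
    obtain ⟨hK1, hK2⟩ := key K hK
    obtain ⟨g, hg⟩ := MulAction.exists_smul_eq G (hH1.toSylow hH2) (hK1.toSylow hK2)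
    refine ⟨g, ?_⟩
    have h1 := congrArg (fun P : Sylow p G => (P : Subgroup G)) hg
    simp only [Sylow.coe_subgroup_smul, IsPGroup.toSylow_coe] at h1
    rw [← h1]
    rfl
  · have key : ∀ L : Subgroup G, Cfsg.IsPiHall π L → L = ⊥ := by
      intro L hL
      apply Subgroup.eq_bot_of_card_eq
      by_contra hne
      obtain ⟨p, hp, hpd⟩ := Nat.exists_prime_and_dvd hne
      exact hex ⟨p, hp, hL.1 p hp hpd, hpd.trans (Subgroup.card_subgroup_dvd_card L)⟩
    refine ⟨1, ?_⟩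
    rw [key H hH, key K hK, Subgroup.map_bot]

end Cfsg.Agent.Lib.Helper91.HCSYLC
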