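import Mathlib
import Cfsg.Agent.Lib.Helper92.M11Stmt
import Cfsg.Agent.Lib.Helper74.FSCount
import Cfsg.Agent.Lib.Helper68.M11Deg
import Cfsg.Agent.Lib.Helper80.Integrality

/-!
Piece [FS] of S0434 / S0435 (simple groups of order 7920): by the Frobenius–Schur count of
involutions, the centralizer of an involution has order at least 37.
-/

set_option autoImplicit false

namespace Cfsg.Agent.Lib.Helper91.M11FS

open Cfsg

universe u

theorem main : Cfsg.Agent.Lib.Helper92.M11Stmt.InvCentLB.{u} := by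
  intro G _ _ _ hG t ht
  classical
  haveI : Fintype G := Fintype.ofFinite G
  haveI : Finite (IrrCharacter G) := Cfsg.Agent.Lib.CT.Wedderburn.finite_irrCharacter G
  haveI : Fintype (IrrCharacter G) := Fintype.ofFinite _
  have h1 := Cfsg.Agent.Lib.Helper74.FSCount.card_sq_eq_one (G := G)
  have h2 : (Nat.card {u : G // u * u = 1} : ℤ) ≤
      ∑ χ : IrrCharacter G, (charDegree (χ : G → ℂ) : ℤ) := by
    rw [h1]
    refine Finset.sum_le_sum fun χ _ => ?_
    have h := Cfsg.Agent.Lib.Helper74.FSCount.fsInt_le_one (χ : G → ℂ)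
    have h0 : (0 : ℤ) ≤ (charDegree (χ : G → ℂ) : ℤ) := Int.natCast_nonneg _
    nlinarith
  obtain ⟨a₁, a₂, a₃, a₄, θ₀, θ₁, α, β, r, h45, h10a, h10b, h10c, h16a, h16b, h11, h44, h55,
    hsum⟩ := Cfsg.Agent.Lib.Helper68.M11Deg.degrees hG
  have h3 : ∑ χ : IrrCharacter G, charDegree (χ : G → ℂ) = 218 := by
    rw [hsum (fun χ => charDegree (χ : G → ℂ)), h45, h10a, h10b, h10c, h16a, h16b, h11, h44, h55,
      Cfsg.Agent.Lib.Helper68.M11Exc.charDegree_trivIrr]
  have h4 : Nat.card {u : G // u * u = 1} ≤ 218 := by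
    have : (Nat.card {u : G // u * u = 1} : ℤ) ≤ ((218 : ℕ) : ℤ) := by
      rw [← h3]; push_cast; exact h2
    exact_mod_cast this
  have htt : t * t = 1 := by rw [← pow_two, ← ht, pow_orderOf_eq_one]
  have ht1 : t ≠ 1 := by
    intro h; rw [h, orderOf_one] at ht; norm_num at ht
  obtain ⟨S, hS⟩ : ∃ S : Finset G, S = Finset.univ.filter (fun u : G => u * u = 1) := ⟨_, rfl⟩
  have hScard : S.card ≤ 218 := by
    have : Nat.card {u : G // u * u = 1} = S.card := by
      rw [hS, Nat.card_eq_fintype_card, Fintype.card_subtype]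
    rw [← this]; exact h4
  obtain ⟨T, hT⟩ : ∃ T : Finset G, T = Finset.univ.image (fun h : G => h * t * h⁻¹) :=
    ⟨_, rfl⟩
  have hTS : T ⊆ S.erase 1 := by
    intro u hu
    rw [hT, Finset.mem_image] at hu
    obtain ⟨h, -, rfl⟩ := hu
    rw [Finset.mem_erase, hS, Finset.mem_filter]
    refine ⟨?_, Finset.mem_univ _, ?_⟩
    · intro h1
      apply ht1
      have : t = h⁻¹ * (h * t * h⁻¹) * h := by group
      rw [this, h1]; group
    · have : h * t * h⁻¹ * (h * t * h⁻¹) = h * (t * t) * h⁻¹ := by group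
      rw [this, htt]; group
  have h1S : (1 : G) ∈ S := by
    rw [hS, Finset.mem_filter]; exact ⟨Finset.mem_univ _, by simp⟩
  have hTcard : T.card ≤ 217 := by
    have := Finset.card_le_card hTS
    rw [Finset.card_erase_of_mem h1S] at this
    omega
  have hcount : Fintype.card G = T.card * Nat.card (Subgroup.centralizer ({t} : Set G)) := by
    have h5 := Finset.card_eq_sum_card_fiberwise (s := (Finset.univ : Finset G)) (t := T)
      (f := fun h : G => h * t * h⁻¹)
      (fun h _ => by rw [hT]; exact Finset.mem_image_of_mem _ (Finset.mem_univ h))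
    rw [Finset.card_univ] at h5
    rw [h5]
    have h6 : ∀ u ∈ T, (Finset.univ.filter (fun a : G => a * t * a⁻¹ = u)).card =
        Nat.card (Subgroup.centralizer ({t} : Set G)) := by
      intro u hu
      rw [hT, Finset.mem_image] at hu
      obtain ⟨h, -, rfl⟩ := hu
      have h7 := Cfsg.Agent.Lib.Helper80.Integrality.card_filter_conj_eq t (h * t * h⁻¹)
      rw [if_pos (isConj_iff.2 ⟨h, rfl⟩)] at h7
      convert h7 using 2
    rw [Finset.sum_congr rfl h6, Finset.sum_const, smul_eq_mul]
  rw [← Nat.card_eq_fintype_card, hG] at hcount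
  by_contra hlt
  push Not at hlt
  have h8 : T.card * Nat.card (Subgroup.centralizer ({t} : Set G)) ≤ 217 * 36 :=
    Nat.mul_le_mul hTcard (by omega)
  omega

end Cfsg.Agent.Lib.Helper91.M11FS
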