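import Cfsg.Agent.Lib.Helper3.M24BlkStmt
import Cfsg.Agent.Lib.Helper35.M24Fix

set_option autoImplicit false

/-! Piece CLA of S5006: no two commuting elements of distinct prime orders in `{5, 7, 11, 23}`. -/

namespace Cfsg.Agent.Lib.Helper91.M24CLA

open Cfsg Cfsg.Agent.Lib.Helper7.GolayBase Cfsg.Agent.Lib.Helper3.M24Blk
  Cfsg.Agent.Lib.Helper35.M24Fix Cfsg.Agent.Lib.Helper35.PermAut

/-- if `t1` has order dividing the prime `q`, commutes with `t2`, and `t2` has fewer than `q`
fixed points, then `t1` fixes every fixed point of `t2` -/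
theorem subset_of_commute {t1 t2 : Equiv.Perm GolayPt} {q : ℕ} [Fact q.Prime] (h1 : t1 ^ q = 1)
    (hc : t1 * t2 = t2 * t1) (h4 : (fixedPts t2).card < q) : fixedPts t2 ⊆ fixedPts t1 := by
  have hinv : ∀ y ∈ fixedPts t2, t1 y ∈ fixedPts t2 := by
    intro y hy
    rw [mem_fixedPts] at hy ⊢
    have := congrArg (fun f : Equiv.Perm GolayPt => f y) hc
    simp only [Equiv.Perm.mul_apply] at this
    rw [hy] at this
    exact this.symm
  have hmod := card_fixed_modEq t1 (p := q) (n := 1) (by rw [pow_one]; exact h1) (fixedPts t2) hinv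
  have hle : ((fixedPts t2).filter (fun y => t1 y = y)).card ≤ (fixedPts t2).card :=
    Finset.card_filter_le _ _
  have heq : ((fixedPts t2).filter (fun y => t1 y = y)).card = (fixedPts t2).card := by
    unfold Nat.ModEq at hmod
    rw [Nat.mod_eq_of_lt h4, Nat.mod_eq_of_lt (lt_of_le_of_lt hle h4)] at hmod
    exact hmod.symm
  have hfe : (fixedPts t2).filter (fun y => t1 y = y) = fixedPts t2 :=
    Finset.eq_of_subset_of_card_le (Finset.filter_subset _ _) (le_of_eq heq.symm)
  intro y hy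
  rw [← hfe, Finset.mem_filter] at hy
  exact mem_fixedPts.2 hy.2

theorem main : Cfsg.Agent.Lib.Helper3.M24BlkStmt.ClaStmt := by
  intro z1 z2 q1 q2 hq1 hq2 hne ho1 ho2 hc
  have hp1 : q1.Prime := by rcases hq1 with rfl | rfl | rfl | rfl <;> norm_num
  have hp2 : q2.Prime := by rcases hq2 with rfl | rfl | rfl | rfl <;> norm_num
  have h51 : 5 ≤ q1 := by rcases hq1 with rfl | rfl | rfl | rfl <;> norm_num
  have h52 : 5 ≤ q2 := by rcases hq2 with rfl | rfl | rfl | rfl <;> norm_num
  have ho1' : orderOf (z1 : Equiv.Perm GolayPt) = q1 := by rw [Subgroup.orderOf_coe]; exact ho1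
  have ho2' : orderOf (z2 : Equiv.Perm GolayPt) = q2 := by rw [Subgroup.orderOf_coe]; exact ho2
  have hc' : (z1 : Equiv.Perm GolayPt) * z2 = z2 * z1 := by
    have := congrArg Subtype.val hc.eq
    simpa using this
  obtain ⟨a1, b1⟩ := card_fixedPts_eq z1.2 hp1 h51 ho1'
  obtain ⟨a2, b2⟩ := card_fixedPts_eq z2.2 hp2 h52 ho2'
  haveI : Fact q1.Prime := ⟨hp1⟩
  haveI : Fact q2.Prime := ⟨hp2⟩
  have e1 : (z1 : Equiv.Perm GolayPt) ^ q1 = 1 := by rw [← ho1']; exact pow_orderOf_eq_one _
  have e2 : (z2 : Equiv.Perm GolayPt) ^ q2 = 1 := by rw [← ho2']; exact pow_orderOf_eq_one _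
  have l1 := Finset.card_le_card (subset_of_commute e1 hc' (by omega))
  have l2 := Finset.card_le_card (subset_of_commute e2 hc'.symm (by omega))
  rcases hq1 with rfl | rfl | rfl | rfl <;> rcases hq2 with rfl | rfl | rfl | rfl <;>
    first | exact hne rfl | omega

end Cfsg.Agent.Lib.Helper91.M24CLA
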