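import Cfsg.Agent.Lib.Helper3.M24BlkStmt
import Cfsg.Agent.Lib.Helper35.M24Fix
import Cfsg.Agent.Lib.Helper91.M24CLA

set_option autoImplicit false

/-! Piece CLB of S5006: no element of order 3 commutes with an element of order 11 or 23. -/

namespace Cfsg.Agent.Lib.Helper91.M24CLB

open Cfsg Cfsg.Agent.Lib.Helper7.GolayBase Cfsg.Agent.Lib.Helper3.M24Blk
  Cfsg.Agent.Lib.Helper35.M24Fix Cfsg.Agent.Lib.Helper35.PermAut

theorem main : Cfsg.Agent.Lib.Helper3.M24BlkStmt.ClbStmt := by
  intro w z q hq hw hz hc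
  have hq5 : 5 ≤ q := by rcases hq with rfl | rfl <;> norm_num
  have hqp : q.Prime := by rcases hq with rfl | rfl <;> norm_num
  have how : orderOf (w : Equiv.Perm GolayPt) = 3 := by rw [Subgroup.orderOf_coe]; exact hw
  have hoz : orderOf (z : Equiv.Perm GolayPt) = q := by rw [Subgroup.orderOf_coe]; exact hz
  have hc' : (w : Equiv.Perm GolayPt) * z = z * w := by
    have := congrArg Subtype.val hc.eq
    simpa using this
  obtain ⟨a, b⟩ := card_fixedPts_eq z.2 hqp hq5 hoz
  haveI : Fact (Nat.Prime 3) := ⟨Nat.prime_three⟩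
  haveI : Fact q.Prime := ⟨hqp⟩
  have hw3 : (w : Equiv.Perm GolayPt) ^ 3 = 1 := by rw [← how]; exact pow_orderOf_eq_one _
  have hzq : (z : Equiv.Perm GolayPt) ^ q = 1 := by rw [← hoz]; exact pow_orderOf_eq_one _
  have hsub : fixedPts (z : Equiv.Perm GolayPt) ⊆ fixedPts (w : Equiv.Perm GolayPt) :=
    Cfsg.Agent.Lib.Helper91.M24CLA.subset_of_commute hw3 hc'
      (by rcases hq with rfl | rfl <;> omega)
  have h3 := card_fixed_modEq (w : Equiv.Perm GolayPt) (p := 3) (n := 1)
    (by rw [pow_one]; exact hw3) Finset.univ (fun y _ => Finset.mem_univ _)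
  have hfw : (Finset.univ.filter (fun y => (w : Equiv.Perm GolayPt) y = y)) =
      fixedPts (w : Equiv.Perm GolayPt) := rfl
  rw [hfw, Finset.card_univ, card_golayPt] at h3
  have hinv : ∀ y ∈ fixedPts (w : Equiv.Perm GolayPt),
      (z : Equiv.Perm GolayPt) y ∈ fixedPts (w : Equiv.Perm GolayPt) := by
    intro y hy
    rw [mem_fixedPts] at hy ⊢
    have := congrArg (fun f : Equiv.Perm GolayPt => f y) hc'
    simp only [Equiv.Perm.mul_apply] at this
    rw [hy] at this
    exact this
  have hq' := card_fixed_modEq (z : Equiv.Perm GolayPt) (p := q) (n := 1)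
    (by rw [pow_one]; exact hzq) (fixedPts (w : Equiv.Perm GolayPt)) hinv
  have hfilt : (fixedPts (w : Equiv.Perm GolayPt)).filter
      (fun y => (z : Equiv.Perm GolayPt) y = y) = fixedPts (z : Equiv.Perm GolayPt) := by
    ext y
    rw [Finset.mem_filter, mem_fixedPts, mem_fixedPts]
    constructor
    · exact fun h => h.2
    · exact fun h => ⟨mem_fixedPts.1 (hsub (mem_fixedPts.2 h)), h⟩
  rw [hfilt] at hq'
  have hle : (fixedPts (w : Equiv.Perm GolayPt)).card ≤ 24 := by
    have := Finset.card_le_univ (fixedPts (w : Equiv.Perm GolayPt))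
    rwa [card_golayPt] at this
  have h24 : (fixedPts (w : Equiv.Perm GolayPt)).card = 24 := by
    unfold Nat.ModEq at h3 hq'
    rcases hq with rfl | rfl <;> omega
  have hw1 : (w : Equiv.Perm GolayPt) = 1 := by
    have huniv : fixedPts (w : Equiv.Perm GolayPt) = Finset.univ := by
      apply Finset.eq_univ_of_card
      rw [h24, card_golayPt]
    apply Equiv.ext
    intro y
    have : y ∈ fixedPts (w : Equiv.Perm GolayPt) := by rw [huniv]; exact Finset.mem_univ y
    rw [Equiv.Perm.one_apply]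
    exact mem_fixedPts.1 this
  rw [hw1, orderOf_one] at how
  omega

end Cfsg.Agent.Lib.Helper91.M24CLB
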