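import Cfsg.Agent.Lib.Helper3.M24BlkStmt
import Cfsg.Agent.Lib.Helper7.M24Mem

set_option autoImplicit false

/-! Piece QAINV of S5006: the octad test is invariant under conjugation by `M24`. -/

namespace Cfsg.Agent.Lib.Helper91.M24QAINV

open Cfsg Cfsg.Agent.Lib.Helper7.GolayBase Cfsg.Agent.Lib.Helper3.M24Blk
open scoped Pointwise

theorem qa_conj {S : Finset ℕ} {c g : Equiv.Perm GolayPt} (hc : c ∈ Cfsg.M24) (h : QA S g) :
    QA S (c * g * c⁻¹) := by
  obtain ⟨p, hp⟩ := h
  refine ⟨c p, ?_⟩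
  have e : S.image (fun k => ((c * g * c⁻¹) ^ k) (c p)) = c • S.image (fun k => (g ^ k) p) := by
    rw [Finset.smul_finset_def, Finset.image_image]
    apply Finset.image_congr
    intro k _
    simp [conj_pow, Equiv.Perm.mul_apply]
  rw [e]
  exact Cfsg.Agent.Lib.Helper7.M24Mem.smul_mem_supports hc hp

theorem main : Cfsg.Agent.Lib.Helper3.M24BlkStmt.QAInvStmt := by
  intro S c g hc
  constructor
  · intro h
    have h1 := qa_conj (S := S) (Cfsg.M24.inv_mem hc) h
    have e : c⁻¹ * (c * g * c⁻¹) * c⁻¹⁻¹ = g := by group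
    rwa [e] at h1
  · exact qa_conj hc

end Cfsg.Agent.Lib.Helper91.M24QAINV
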