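import Mathlib
import Cfsg.Agent.Lib.Helper94.OMiPStmt
import Cfsg.Agent.Lib.Helper77.OPPFIXA
import Cfsg.Agent.Lib.Helper44.NegPairs

/-!
# S5991 / MPFIXA: an isometry `x` of the minus form with `(x - 1) V ≤ Fix x` stabilising a
nondegenerate subspace of odd dimension `m` has `dim (x - 1) V ≤ d - 1`, with `m ≡ 1 (mod 4)` in
case of equality (port of `Helper77.OPPFIXA`, reusing its generic `coreA`).
-/

set_option autoImplicit false
set_option maxHeartbeats 400000

namespace Cfsg.Agent.Lib.Helper91.MPFIXA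

open Module QuadraticMap
open Cfsg.Agent.Lib.Helper44.QSpace Cfsg.Agent.Lib.Helper44.NegPairs
open Cfsg.Agent.Lib.Helper44.WittND Cfsg.Agent.Lib.Helper44.WittND2
open Cfsg.Agent.Lib.Helper94.OMiPStmt

universe u

theorem main : MPFixA.{u} := by
  intro F _ _ hodd d m hd hm a b hab x hx hT W hW hND hStab
  have h2 : (2 : F) ≠ 0 := by
    apply Ring.two_ne_zero
    intro hc
    have := FiniteField.even_card_iff_char_two.mp hc
    rw [Nat.odd_iff] at hodd
    omega
  have hS : Sep (minusQ (d - 1) F a b) := sep_minusQ h2 (d - 1) a b hab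
  have hA : ∀ v, minusQ (d - 1) F a b (Matrix.toLin' (x : Matrix (Mi d) (Mi d) F) v)
      = minusQ (d - 1) F a b v := by
    intro v
    rw [Matrix.toLin'_apply]
    exact hx v v
  have hWnd : NDsub (minusQ (d - 1) F a b) W := by
    intro y hy hyz
    by_contra hy0
    obtain ⟨-, z, hz, hz0⟩ := hND y hy hy0
    exact hz0 (hyz z hz)
  have hAW : ∀ w ∈ W, Matrix.toLin' (x : Matrix (Mi d) (Mi d) F) w ∈ W := by
    intro w hw
    exact hStab (Submodule.mem_map_of_mem hw)
  have hV : finrank F (Mi d → F) = 2 * d := by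
    rw [Module.finrank_fintype_fun_eq_card, Fintype.card_sum, Fintype.card_sum, Fintype.card_fin,
      Fintype.card_fin]
    omega
  have hNN : ∀ v, (Matrix.toLin' (x : Matrix (Mi d) (Mi d) F) - LinearMap.id :
      (Mi d → F) →ₗ[F] (Mi d → F))
      ((Matrix.toLin' (x : Matrix (Mi d) (Mi d) F) - LinearMap.id :
      (Mi d → F) →ₗ[F] (Mi d → F)) v) = 0 := by
    intro v
    have h1 : NM (x : Matrix (Mi d) (Mi d) F) v ∈ FxM (x : Matrix (Mi d) (Mi d) F) :=
      hT (LinearMap.mem_range_self _ v)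
    exact LinearMap.mem_ker.mp h1
  exact Cfsg.Agent.Lib.Helper77.OPPFIXA.coreA h2 (minusQ (d - 1) F a b) hS
    (Matrix.toLin' (x : Matrix (Mi d) (Mi d) F)) hA hNN W hWnd hAW
    m hm hW d (by omega) hV

end Cfsg.Agent.Lib.Helper91.MPFIXA
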