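import Mathlib
import Cfsg.Agent.Lib.Helper94.OMiPStmt
import Cfsg.Agent.Lib.Helper44.NegPairs
import Cfsg.Agent.Lib.Helper44.WittND2
import Cfsg.Agent.Lib.Helper44.Inv7
import Cfsg.Agent.Lib.Helper40.AltRank

/-!
# S5991 / MTYPE: a stable nondegenerate odd-dimensional `W'` with `(x - 1) ^ 2 = 0` on it and
`dim W' ≤ 2 dim (x - 1) W' + 1` has type `β` when `Q (Fix x) ⊆ β F²`, and `dim W' ≡ 1 (mod 4)`.
-/

set_option autoImplicit false
set_option maxHeartbeats 400000

namespace Cfsg.Agent.Lib.Helper91.MTYPE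

open Module QuadraticMap
open Cfsg.Agent.Lib.Helper44.QSpace Cfsg.Agent.Lib.Helper44.NegPairs
open Cfsg.Agent.Lib.Helper44.WittND Cfsg.Agent.Lib.Helper44.WittND2
open Cfsg.Agent.Lib.Helper94.OMiPStmt

universe u

/-- abstract form, on the whole space -/
theorem type_abs {F : Type*} [Field F] {V : Type u} [AddCommGroup V] [Module F V]
    [FiniteDimensional F V] (h2 : (2 : F) ≠ 0) (Q : QuadraticForm F V) (hS : Sep Q)
    (A : V →ₗ[F] V) (hA : ∀ v, Q (A v) = Q v)
    (hNN : ∀ v, (A - LinearMap.id : V →ₗ[F] V) ((A - LinearMap.id : V →ₗ[F] V) v) = 0)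
    (hodd : Odd (finrank F V))
    (hrank : finrank F V ≤ 2 * finrank F ↥(LinearMap.range (A - LinearMap.id)) + 1) :
    2 * finrank F ↥(LinearMap.range (A - LinearMap.id)) + 1 = finrank F V ∧
      Even (finrank F ↥(LinearMap.range (A - LinearMap.id))) ∧
      (∀ v, Q ((A - LinearMap.id : V →ₗ[F] V) v) = 0) ∧
      ∃ w, Q w ≠ 0 ∧ A w = w ∧ ∀ v, polar Q ((A - LinearMap.id : V →ₗ[F] V) v) w = 0 := by
  obtain ⟨N, hNdef⟩ : ∃ N : V →ₗ[F] V, N = A - LinearMap.id := ⟨_, rfl⟩
  rw [← hNdef] at hNN hrank ⊢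
  have hN : ∀ v, N v = A v - v := by
    intro v
    rw [hNdef, LinearMap.sub_apply, LinearMap.id_apply]
  have hAN : ∀ v, A v = v + N v := by
    intro v
    rw [hN]
    abel
  have hpol : ∀ u v, polar Q (A u) (A v) = polar Q u v := by
    intro u v
    unfold polar
    rw [← map_add, hA, hA, hA]
  have hsing : ∀ v, Q (N v) = 0 := by
    intro w
    have hfix : A (N w) = N w := by
      rw [hAN, hNN, add_zero]
    obtain ⟨t, ht⟩ : ∃ t, t = N w := ⟨_, rfl⟩
    rw [← ht] at hfix ⊢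
    have e1 : polar Q (A w) t = polar Q w t := by
      calc polar Q (A w) t = polar Q (A w) (A t) := by rw [hfix]
        _ = polar Q w t := hpol w t
    have h6 : polar Q t t = 0 := by
      conv_lhs => arg 2; rw [ht, hN w]
      rw [polar_sub_left, e1, sub_self]
    rw [polar_self'] at h6
    exact (mul_eq_zero.mp h6).resolve_left h2
  have hNNpol : ∀ u v, polar Q (N u) (N v) = 0 := by
    intro u v
    unfold polar
    rw [← map_add, hsing, hsing, hsing]
    simp
  have hskew : ∀ u v, polar Q (N u) v = - polar Q u (N v) := by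
    intro u v
    have h := hpol u v
    rw [hAN u, hAN v, polar_add_left, polar_add_right, polar_add_right, hNNpol] at h
    linear_combination h
  have halt : ∀ u, polar Q u (N u) = 0 := by
    intro u
    have h := hskew u u
    rw [polar_comm] at h
    have h' : (2 : F) * polar Q u (N u) = 0 := by linear_combination h
    exact (mul_eq_zero.mp h').resolve_left h2
  have hsingR : ∀ t ∈ LinearMap.range N, Q t = 0 := by
    rintro _ ⟨v, rfl⟩
    exact hsing v
  have hd3 := Cfsg.Agent.Lib.Helper44.Inv7.two_finrank_le_of_sing hS hsingR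
  have hrn := LinearMap.finrank_range_add_finrank_ker N
  have hRK : LinearMap.range N ≤ LinearMap.ker N := by
    rintro _ ⟨v, rfl⟩
    exact LinearMap.mem_ker.mpr (hNN v)
  obtain ⟨k, hk⟩ := hodd
  have hdimeq : 2 * finrank F ↥(LinearMap.range N) + 1 = finrank F V := by omega
  -- evenness
  obtain ⟨C, hC⟩ := Submodule.exists_isCompl (LinearMap.ker N)
  have hCdim := Submodule.finrank_add_eq_of_isCompl hC
  obtain ⟨β, hβ⟩ : ∃ β : LinearMap.BilinForm F ↥C,
      ∀ a b : ↥C, β a b = polar Q (a : V) (N (b : V)) :=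
    ⟨LinearMap.BilinForm.restrict ((polarBilin Q).compl₂ N) C, fun a b => rfl⟩
  have hev : Even (finrank F ↥C) := by
    apply Cfsg.Agent.Lib.Helper40.AltRank.even_finrank_of_alt β
    · intro a
      rw [hβ]
      exact halt _
    · intro c hc
      have h1 : ∀ w : V, polar Q (c : V) (N w) = 0 := by
        intro w
        have hw : w ∈ LinearMap.ker N ⊔ C := by
          rw [hC.sup_eq_top]
          exact Submodule.mem_top
        obtain ⟨k, hk, c', hc', rfl⟩ := Submodule.mem_sup.mp hw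
        have hk0 : N k = 0 := hk
        rw [map_add, hk0, zero_add]
        have h := hc ⟨c', hc'⟩
        rwa [hβ] at h
      have h2' : N (c : V) = 0 := by
        apply hS
        intro y
        rw [hskew, h1 y, neg_zero]
      have h3 : (c : V) ∈ LinearMap.ker N ⊓ C := ⟨h2', c.2⟩
      rw [hC.inf_eq_bot, Submodule.mem_bot] at h3
      exact Subtype.ext h3
  have hCR : finrank F ↥C = finrank F ↥(LinearMap.range N) := by omega
  rw [hCR] at hev
  refine ⟨hdimeq, hev, hsing, ?_⟩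
  -- the fixed nonsingular vector
  have hlt : LinearMap.range N < LinearMap.ker N := by
    apply lt_of_le_of_ne hRK
    intro h
    rw [h] at hrn hdimeq
    omega
  obtain ⟨w₁, hw₁K, hw₁R⟩ := SetLike.exists_of_lt hlt
  have hNw₁ : N w₁ = 0 := hw₁K
  have horth : ∀ v, polar Q (N v) w₁ = 0 := by
    intro v
    rw [hskew, hNw₁]
    simp
  refine ⟨w₁, ?_, ?_, horth⟩
  · intro hQ0
    have hT : ∀ t ∈ LinearMap.range N ⊔ Submodule.span F {w₁}, Q t = 0 := by
      intro t ht
      obtain ⟨r, hr, z, hz, rfl⟩ := Submodule.mem_sup.mp ht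
      obtain ⟨c, rfl⟩ := Submodule.mem_span_singleton.mp hz
      obtain ⟨v, rfl⟩ := hr
      rw [q_add, q_smul, polar_smul_r, hsing, hQ0, horth]
      ring
    have hlt2 : LinearMap.range N < LinearMap.range N ⊔ Submodule.span F {w₁} := by
      apply lt_of_le_of_ne le_sup_left
      intro h
      apply hw₁R
      rw [h]
      exact Submodule.mem_sup_right (Submodule.mem_span_singleton_self w₁)
    have h5 := Submodule.finrank_lt_finrank_of_lt hlt2
    have h6 := Cfsg.Agent.Lib.Helper44.Inv7.two_finrank_le_of_sing hS hT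
    omega
  · rw [hAN, hNw₁, add_zero]

theorem main : MType.{u} := by
  intro F _ _ hodd d hd a b hab x hx W' hND hoddW hStab hNNW hrk β hβ
  have h2 : (2 : F) ≠ 0 := by
    apply Ring.two_ne_zero
    intro hc
    have := FiniteField.even_card_iff_char_two.mp hc
    rw [Nat.odd_iff] at hodd
    omega
  have hA₀ : ∀ v, minusQ (d - 1) F a b (Matrix.toLin' (x : Matrix (Mi d) (Mi d) F) v)
      = minusQ (d - 1) F a b v := by
    intro v
    rw [Matrix.toLin'_apply]
    exact hx v v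
  have hWnd : NDsub (minusQ (d - 1) F a b) W' := by
    intro y hy hyz
    by_contra hy0
    obtain ⟨-, z, hz, hz0⟩ := hND y hy hy0
    exact hz0 (hyz z hz)
  have hAW : ∀ w ∈ W', Matrix.toLin' (x : Matrix (Mi d) (Mi d) F) w ∈ W' := by
    intro w hw
    exact hStab (Submodule.mem_map_of_mem hw)
  obtain ⟨A, hAdef⟩ : ∃ A : ↥W' →ₗ[F] ↥W',
      A = (Matrix.toLin' (x : Matrix (Mi d) (Mi d) F)).restrict hAW := ⟨_, rfl⟩
  have hAcoe : ∀ v : W', ((A v : W') : Mi d → F)
      = Matrix.toLin' (x : Matrix (Mi d) (Mi d) F) (v : Mi d → F) := by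
    intro v
    rw [hAdef]
    rfl
  have hNcoe : ∀ v : W', (((A - LinearMap.id : ↥W' →ₗ[F] ↥W') v : W') : Mi d → F)
      = NM (x : Matrix (Mi d) (Mi d) F) (v : Mi d → F) := by
    intro v
    rw [LinearMap.sub_apply, LinearMap.id_apply, Submodule.coe_sub, hAcoe]
    rfl
  have hA : ∀ v : W', res (minusQ (d - 1) F a b) W' (A v) = res (minusQ (d - 1) F a b) W' v := by
    intro v
    rw [res_apply, res_apply, hAcoe]
    exact hA₀ _
  have hNN : ∀ v : W', (A - LinearMap.id : ↥W' →ₗ[F] ↥W')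
      ((A - LinearMap.id : ↥W' →ₗ[F] ↥W') v) = 0 := by
    intro v
    apply Subtype.ext
    rw [hNcoe, hNcoe]
    exact hNNW _ v.2
  have hmapeq : (LinearMap.range (A - LinearMap.id : ↥W' →ₗ[F] ↥W')).map W'.subtype
      = W'.map (NM (x : Matrix (Mi d) (Mi d) F)) := by
    ext y
    constructor
    · rintro ⟨_, ⟨v, rfl⟩, rfl⟩
      exact ⟨(v : Mi d → F), v.2, (hNcoe v).symm⟩
    · rintro ⟨v, hv, rfl⟩
      exact ⟨_, ⟨⟨v, hv⟩, rfl⟩, hNcoe ⟨v, hv⟩⟩
  have hfr : finrank F ↥(LinearMap.range (A - LinearMap.id : ↥W' →ₗ[F] ↥W'))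
      = finrank F ↥(W'.map (NM (x : Matrix (Mi d) (Mi d) F))) := by
    rw [← hmapeq, Submodule.finrank_map_subtype_eq]
  obtain ⟨hdimeq, hev, hsing, w₁, hQw₁, hAw₁, horth⟩ :=
    type_abs h2 (res (minusQ (d - 1) F a b) W') (sep_res_of_ndsub hWnd) A hA hNN hoddW
      (by rw [hfr]; exact hrk)
  rw [hfr] at hdimeq hev
  have hfix : (w₁ : Mi d → F) ∈ FxM (x : Matrix (Mi d) (Mi d) F) := by
    apply LinearMap.mem_ker.mpr
    rw [LinearMap.sub_apply, LinearMap.id_apply, ← hAcoe, hAw₁, sub_self]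
  obtain ⟨c, hc⟩ := hβ _ hfix
  have hQw₁' : Cfsg.quadFormMinus (d - 1) F a b (w₁ : Mi d → F) ≠ 0 := hQw₁
  have hc0 : c ≠ 0 := by
    rintro rfl
    apply hQw₁'
    rw [hc]
    ring
  constructor
  · refine ⟨W'.map (NM (x : Matrix (Mi d) (Mi d) F)), ?_, ?_, hdimeq,
      c⁻¹ • (w₁ : Mi d → F), W'.smul_mem _ w₁.2, ?_, ?_⟩
    · rintro _ ⟨v, hv, rfl⟩
      rw [← hNcoe ⟨v, hv⟩]
      exact Subtype.coe_prop _
    · rintro _ ⟨v, hv, rfl⟩
      rw [← hNcoe ⟨v, hv⟩]
      exact hsing ⟨v, hv⟩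
    · rintro _ ⟨v, hv, rfl⟩
      have h1 : polar (minusQ (d - 1) F a b) (NM (x : Matrix (Mi d) (Mi d) F) v)
          (c⁻¹ • (w₁ : Mi d → F)) = 0 := by
        rw [polar_smul_r, ← hNcoe ⟨v, hv⟩]
        have h3 := horth ⟨v, hv⟩
        rw [polar_res] at h3
        rw [h3, mul_zero]
      exact h1
    · have h1 : minusQ (d - 1) F a b (c⁻¹ • (w₁ : Mi d → F)) = β := by
        rw [q_smul]
        have h3 : minusQ (d - 1) F a b (w₁ : Mi d → F) = c * c * β := hc
        rw [h3]
        field_simp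
      exact h1
  · obtain ⟨s, hs⟩ := hev
    rw [← hdimeq, hs]
    omega

end Cfsg.Agent.Lib.Helper91.MTYPE
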