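import Mathlib
import Cfsg.Agent.Lib.Helper41.OMStmt
import Cfsg.Agent.Lib.Helper97.OrtCONG
import Cfsg.Agent.Lib.Helper93.OrtOCONG
import Cfsg.Agent.Lib.Helper45.OrthCard

/-!
# S5978, piece CARDOM (helper91): order of the isometry group of a symmetric matrix of minus type

`main : MBr → CardOM` (the bridge `MBr` for `quadFormMinus` is taken as a hypothesis).
-/

set_option autoImplicit false

namespace Cfsg.Agent.Lib.Helper91.OMCARDOM

open Matrix
open Cfsg.Agent.Lib.Helper41.OMStmt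
open Cfsg.Agent.Lib.Helper37.OrtStmt (OGrp)

universe u

theorem main (hMBr : MBr.{u}) : CardOM.{u} := by
  intro L _ _ h2 m' hm' heven G hG hdet hns
  obtain ⟨d, hd⟩ := heven
  have e0 : m' = 2 * d := by omega
  subst e0
  have hd1 : 1 ≤ d := by omega
  have e1 : 2 * d / 2 = d := by omega
  rw [e1] at hns ⊢
  obtain ⟨ν, hν⟩ : ∃ ν : L, ν = (-1) ^ d * G.det := ⟨_, rfl⟩
  rw [← hν] at hns
  obtain ⟨hGmT, hGmdet, hbr, -⟩ := hMBr h2 d (0 : L) (-ν)
  have hcard : Fintype.card (Im d) = 2 * d := by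
    simp [Im]
    omega
  have hdd : (Gm d (0 : L) (-ν)).det = G.det * (2 : L) ^ 2 := by
    rw [hGmdet, hν]
    obtain ⟨k, rfl⟩ : ∃ k, d = k + 1 := ⟨d - 1, by omega⟩
    simp only [Nat.add_sub_cancel]
    have h1 : ((-1 : L) ^ k) * ((-1 : L) ^ k) = 1 := by
      rw [← mul_pow]
      simp
    rw [pow_succ]
    linear_combination (4 * G.det) * h1
  have h1 := Cfsg.Agent.Lib.Helper93.OrtOCONG.main Cfsg.Agent.Lib.Helper97.OrtCONG.main L h2
    (Im d) (2 * d) hcard G (Gm d (0 : L) (-ν)) hG hdet hGmT 2 h2 hdd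
  have hgrp : Cfsg.isometryGroup L (Cfsg.quadFormMinus (d - 1) L 0 (-ν)) =
      OGrp (Gm d (0 : L) (-ν)) := by
    ext g
    rw [hbr g]
    exact Iff.rfl
  rw [← h1, ← hgrp]
  have hab : ∀ z₁ z₂ : L, z₁ ^ 2 + 0 * z₁ * z₂ + (-ν) * z₂ ^ 2 = 0 → z₁ = 0 ∧ z₂ = 0 := by
    intro z₁ z₂ h
    by_cases hz : z₂ = 0
    · subst hz
      have h' : z₁ ^ 2 = 0 := by linear_combination h
      exact ⟨pow_eq_zero_iff (two_ne_zero) |>.mp h', rfl⟩
    · exfalso
      apply hns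
      refine ⟨z₁ / z₂, ?_⟩
      field_simp
      linear_combination -h
  have h3 := Cfsg.Agent.Lib.Helper45.OrthCard.card_minus rfl (0 : L) (-ν) hab (d - 1)
  have e2 : d - 1 + 1 = d := by omega
  rw [e2] at h3
  exact h3

end Cfsg.Agent.Lib.Helper91.OMCARDOM
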