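import Mathlib
import Cfsg.Agent.Lib.Helper41.OMStmt

/-!
# S5978 piece LSTRG: an `L`-frame exists (helper91; generalization of `Helper52.OFLSTR`)
-/

set_option autoImplicit false

namespace Cfsg.Agent.Lib.Helper91.OMLSTRG

open Matrix
open Cfsg.Agent.Lib.Helper41.OMStmt

universe u

section Frame

variable {F : Type u} [Field F] {ι : Type} [Fintype ι] [DecidableEq ι] {L : Type u} [Field L]
  [Algebra F L]

/-- `F^ι` as an `L`-space through `φ` -/
def VL (_φ : L →ₐ[F] Matrix ι ι F) : Type u := ι → F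

instance instACG (φ : L →ₐ[F] Matrix ι ι F) : AddCommGroup (VL φ) :=
  inferInstanceAs (AddCommGroup (ι → F))

instance instFin [Finite F] (φ : L →ₐ[F] Matrix ι ι F) : Finite (VL φ) :=
  inferInstanceAs (Finite (ι → F))

theorem one_law (φ : L →ₐ[F] Matrix ι ι F) (v : ι → F) : φ 1 *ᵥ v = v := by
  rw [map_one, Matrix.one_mulVec]

theorem mul_law (φ : L →ₐ[F] Matrix ι ι F) (a b : L) (v : ι → F) :
    φ (a * b) *ᵥ v = φ a *ᵥ (φ b *ᵥ v) := by
  rw [map_mul, Matrix.mulVec_mulVec]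

theorem add_law (φ : L →ₐ[F] Matrix ι ι F) (a b : L) (v : ι → F) :
    φ (a + b) *ᵥ v = φ a *ᵥ v + φ b *ᵥ v := by
  rw [map_add, Matrix.add_mulVec]

theorem zero_law (φ : L →ₐ[F] Matrix ι ι F) (v : ι → F) : φ 0 *ᵥ v = 0 := by
  rw [map_zero, Matrix.zero_mulVec]

instance instMod (φ : L →ₐ[F] Matrix ι ι F) : Module L (VL φ) where
  smul a v := (φ a *ᵥ (v : ι → F) : ι → F)
  one_smul v := one_law φ v
  mul_smul a b v := mul_law φ a b v
  smul_zero a := Matrix.mulVec_zero (φ a)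
  smul_add a v w := Matrix.mulVec_add (φ a) (v : ι → F) (w : ι → F)
  add_smul a b v := add_law φ a b v
  zero_smul v := zero_law φ v

theorem exists_frame [Finite F] (φ : L →ₐ[F] Matrix ι ι F) :
    ∃ (m' : ℕ) (b : Fin m' → (ι → F)), Function.Bijective (CoordG φ b) := by
  let bb := Module.finBasis L (VL φ)
  refine ⟨Module.finrank L (VL φ), fun j => bb j, ?_⟩
  have h : CoordG φ (fun j => bb j) = fun c => bb.equivFun.symm c := by
    funext c
    rw [Module.Basis.equivFun_symm_apply]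
    rfl
  rw [h]
  exact bb.equivFun.symm.bijective

end Frame

section Form

variable {F : Type u} [Field F] {ι : Type} [Fintype ι] [DecidableEq ι] {L : Type u} [Field L]
  [Algebra F L]

theorem dot_S_comm (S : Matrix ι ι F) (hS : Sᵀ = S) (x w : ι → F) :
    x ⬝ᵥ (S *ᵥ w) = w ⬝ᵥ (S *ᵥ x) := by
  have h1 : w ᵥ* S = S *ᵥ w := by
    conv_lhs => rw [← hS]
    exact Matrix.vecMul_transpose _ _
  rw [Matrix.dotProduct_mulVec w, h1, dotProduct_comm]

theorem key_id (S : Matrix ι ι F) (φ : L →ₐ[F] Matrix ι ι F)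
    (hsa : ∀ c : L, S * φ c = (φ c)ᵀ * S) (a a' : L) (u v : ι → F) :
    (φ a *ᵥ u) ⬝ᵥ (S *ᵥ (φ a' *ᵥ v)) = (φ (a * a') *ᵥ u) ⬝ᵥ (S *ᵥ v) := by
  have h1 : S *ᵥ (φ a' *ᵥ v) = (φ a')ᵀ *ᵥ (S *ᵥ v) := by
    rw [Matrix.mulVec_mulVec, hsa a', ← Matrix.mulVec_mulVec]
  have h2 : (φ a *ᵥ u) ᵥ* (φ a')ᵀ = φ (a * a') *ᵥ u := by
    rw [Matrix.vecMul_transpose, Matrix.mulVec_mulVec, ← map_mul, mul_comm a' a]
  rw [h1, Matrix.dotProduct_mulVec, h2]

/-- the functional `c ↦ (φ c u) ⬝ S v` -/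
def psi (S : Matrix ι ι F) (φ : L →ₐ[F] Matrix ι ι F) (u v : ι → F) : L →ₗ[F] F where
  toFun c := (φ c *ᵥ u) ⬝ᵥ (S *ᵥ v)
  map_add' c c' := by rw [map_add, Matrix.add_mulVec, add_dotProduct]
  map_smul' x c := by
    rw [map_smul, Matrix.smul_mulVec, smul_dotProduct]
    rfl

/-- `y ↦ (c ↦ τ (c * y))` -/
def tauMap (τ : L →ₗ[F] F) : L →ₗ[F] Module.Dual F L where
  toFun y := τ ∘ₗ LinearMap.mulRight F y
  map_add' y y' := by
    ext c
    simp [mul_add]
  map_smul' x y := by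
    ext c
    simp

theorem tauMap_apply (τ : L →ₗ[F] F) (y c : L) : tauMap τ y c = τ (c * y) := rfl

theorem tauMap_injective (τ : L →ₗ[F] F) (hτ : τ ≠ 0) : Function.Injective (tauMap τ) := by
  rw [← LinearMap.ker_eq_bot, LinearMap.ker_eq_bot']
  intro y hy
  by_contra hy0
  apply hτ
  ext z
  have h : tauMap τ y (z * y⁻¹) = (0 : Module.Dual F L) (z * y⁻¹) := by rw [hy]
  rw [tauMap_apply, inv_mul_cancel_right₀ hy0] at h
  simpa using h

end Form

theorem main : LStrG.{u} := by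
  intro F _ _ h2 ι _ _ S hS hSdet L _ _ _ φ hφinj hsa τ hτ
  classical
  obtain ⟨m', b, hbij⟩ := exists_frame φ
  have hinj := tauMap_injective τ hτ
  have hsurj : Function.Surjective (tauMap τ) :=
    (LinearMap.injective_iff_surjective_of_finrank_eq_finrank
      (Subspace.dual_finrank_eq (K := F) (V := L)).symm).mp hinj
  have huniq : ∀ y y' : L, (∀ c, τ (c * y) = τ (c * y')) → y = y' := by
    intro y y' h
    apply hinj
    ext c
    rw [tauMap_apply, tauMap_apply]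
    exact h c
  have hex : ∀ j k : Fin m', ∃ y : L, ∀ c : L,
      τ (c * y) = (φ c *ᵥ b j) ⬝ᵥ (S *ᵥ b k) := by
    intro j k
    obtain ⟨y, hy⟩ := hsurj (psi S φ (b j) (b k))
    refine ⟨y, fun c => ?_⟩
    rw [← tauMap_apply, hy]
    rfl
  choose G hG using hex
  have hsymm : ∀ j k, G k j = G j k := by
    intro j k
    apply huniq
    intro c
    rw [hG, hG, dot_S_comm S hS]
    have h1 := key_id S φ hsa 1 c (b j) (b k)
    rw [map_one, Matrix.one_mulVec, one_mul] at h1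
    exact h1
  have hform : ∀ c c' : Fin m' → L, CoordG φ b c ⬝ᵥ (S *ᵥ CoordG φ b c') =
      τ (c ⬝ᵥ ((Matrix.of G) *ᵥ c')) := by
    intro c c'
    have hL : CoordG φ b c ⬝ᵥ (S *ᵥ CoordG φ b c') =
        ∑ j, ∑ k, τ (c j * c' k * G j k) := by
      unfold CoordG
      rw [Matrix.mulVec_sum, sum_dotProduct]
      refine Finset.sum_congr rfl fun j _ => ?_
      rw [dotProduct_sum]
      refine Finset.sum_congr rfl fun k _ => ?_
      rw [key_id S φ hsa, ← hG]
    have hR : τ (c ⬝ᵥ ((Matrix.of G) *ᵥ c')) = ∑ j, ∑ k, τ (c j * c' k * G j k) := by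
      simp only [dotProduct, Matrix.mulVec, Matrix.of_apply, Finset.mul_sum, map_sum]
      refine Finset.sum_congr rfl fun j _ => Finset.sum_congr rfl fun k _ => ?_
      congr 1
      ring
    rw [hL, hR]
  refine ⟨m', b, Matrix.of G, ?_, ?_, hbij, hform⟩
  · ext j k
    exact hsymm j k
  · intro hdet
    obtain ⟨c', hc', hGc⟩ := Matrix.exists_mulVec_eq_zero_iff.mpr hdet
    apply hc'
    have h0 : CoordG φ b (0 : Fin m' → L) = 0 := by
      unfold CoordG
      simp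
    have hw : ∀ u : ι → F, u ⬝ᵥ (S *ᵥ CoordG φ b c') = 0 := by
      intro u
      obtain ⟨c, rfl⟩ := hbij.2 u
      rw [hform, hGc, dotProduct_zero, map_zero]
    have hSv : S *ᵥ CoordG φ b c' = 0 := by
      funext i
      have h1 := hw (Pi.single i 1)
      simpa using h1
    have hz : CoordG φ b c' = 0 := Matrix.eq_zero_of_mulVec_eq_zero hSdet hSv
    exact hbij.1 (hz.trans h0.symm)

end Cfsg.Agent.Lib.Helper91.OMLSTRG
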