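import Mathlib
import Cfsg.Agent.Lib.Helper41.OMStmt
import Cfsg.Agent.Lib.Helper97.OrtCONG
import Cfsg.Agent.Lib.Helper13.OFPL1
import Cfsg.Agent.Lib.Helper13.OFPLM

/-!
# S5978, piece PLMG (`EigMG → PLMG`) (helper91; generalization of `Helper13.OFPLM`)
-/

set_option autoImplicit false

namespace Cfsg.Agent.Lib.Helper91.OMPLMG

open Matrix
open Cfsg.Agent.Lib.Helper41.SpFStmt (Mat)
open Cfsg.Agent.Lib.Helper41.OMStmt
open Cfsg.Agent.Lib.Helper13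
open Cfsg.Agent.Lib.Helper13.OFPLM

universe u

theorem main (hEigM : EigMG.{u}) : PLMG.{u} := by
  intro F _ _ h2 ι _ _ _ S hS hSdet l hl x hx hxx
  obtain ⟨d, P, P', D, hPP', hP'P, hD, hPS, hxP⟩ := hEigM h2 S x hS hSdet hx hxx
  have hd : 0 < d := by
    rcases Nat.eq_zero_or_pos d with h | h
    · subst h
      exfalso
      obtain ⟨i⟩ := ‹Nonempty ι›
      have h1 := congrFun (congrFun hPP' i) i
      simp [Matrix.mul_apply] at h1
    · exact h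
  have hl0 : l ≠ 0 := fun h => hl (h ▸ IsSquare.zero)
  obtain ⟨s, t, hst⟩ := Helper97.OrtCONG.exists_binary h2 l⁻¹ l⁻¹ (inv_ne_zero hl0)
    (inv_ne_zero hl0)
  have hst' : s ^ 2 + t ^ 2 = l := by
    field_simp at hst
    linear_combination hst
  rw [dB_D] at hPS
  rw [dB_X] at hxP
  obtain ⟨X, hX⟩ : ∃ X : Matrix (Fin d ⊕ Fin d) (Fin d ⊕ Fin d) F, X = dB (fun _ => 0) (fun _ => -1) (fun _ => 1) (fun _ => 0) :=
    ⟨_, rfl⟩
  obtain ⟨Dg, hDg⟩ : ∃ Dg : Matrix (Fin d ⊕ Fin d) (Fin d ⊕ Fin d) F, Dg = dB D (fun _ => 0) (fun _ => 0) D := ⟨_, rfl⟩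
  rw [← hX] at hxP
  rw [← hDg] at hPS
  have hS0 : S = P'ᵀ * Dg * P' := by
    rw [← hPS]
    calc S = (P * P')ᵀ * S * (P * P') := by rw [hPP']; simp
      _ = P'ᵀ * (Pᵀ * S * P) * P' := by
        rw [Matrix.transpose_mul]; simp only [Matrix.mul_assoc]
  have hxe : x = P * X * P' := by
    have h : x * P * P' = P * X * P' := by
      rw [hxP]
      rfl
    rw [Matrix.mul_assoc, hPP', Matrix.mul_one] at h
    exact h
  -- the sign vector δ
  obtain ⟨δ, hδ⟩ : ∃ δ : Fin d → F, δ = fun j => if j = ⟨0, hd⟩ then -1 else 1 := ⟨_, rfl⟩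
  have hδ2 : ∀ j, δ j ^ 2 = 1 := by
    intro j
    rw [hδ]
    by_cases h : j = ⟨0, hd⟩ <;> simp [h]
  have hδprod : ∏ j, δ j = -1 := by
    rw [hδ, Finset.prod_ite_eq' Finset.univ (⟨0, hd⟩ : Fin d) (fun _ => (-1 : F))]
    simp
  obtain ⟨Tm, hTm⟩ : ∃ Tm : Matrix (Fin d ⊕ Fin d) (Fin d ⊕ Fin d) F, Tm = dB δ (fun _ => 0) (fun _ => 0) (fun _ => 1) :=
    ⟨_, rfl⟩
  have hT1 : Tmᵀ * Dg * Tm = Dg := by
    rw [hTm, hDg, dB_transpose, dB_mul, dB_mul]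
    apply dB_congr
    · intro j
      linear_combination D j * hδ2 j
    · intro j
      ring
    · intro j
      ring
    · intro j
      ring
  have hT2 : Tm * Tm = 1 := by
    rw [hTm, dB_mul, dB_one]
    apply dB_congr
    · intro j
      linear_combination hδ2 j
    · intro j
      ring
    · intro j
      ring
    · intro j
      ring
  have hT3 : Tm.det = -1 := by
    rw [hTm, dB_det, hδprod]
    simp
  obtain ⟨J1, hJ1def⟩ : ∃ J1 : Matrix (Fin d ⊕ Fin d) (Fin d ⊕ Fin d) F,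
      J1 = Je s t (fun _ => 1) := ⟨_, rfl⟩
  obtain ⟨Jδ, hJδdef⟩ : ∃ Jδ : Matrix (Fin d ⊕ Fin d) (Fin d ⊕ Fin d) F, Jδ = Je s t δ :=
    ⟨_, rfl⟩
  have hT4 : Tm * J1 * Tm = Jδ := by
    rw [hTm, hJ1def, hJδdef, Je, Je, dB_mul, dB_mul]
    apply dB_congr
    · intro j
      linear_combination s * hδ2 j
    · intro j
      ring
    · intro j
      ring
    · intro j
      ring
  have hJ1 : J1 * J1 = l • 1 := by
    rw [hJ1def]
    exact Je_sq s t l hst' (fun _ : Fin d => (1 : F)) (fun _ => by simp)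
  have hJ2 : Dg * J1 = J1ᵀ * Dg := by
    rw [hJ1def, hDg]
    exact Je_sa s t (fun _ : Fin d => (1 : F)) D
  have hJ3 : X * J1 = -(J1 * X) := by
    rw [hJ1def, hX]
    exact Je_anti s t (fun _ : Fin d => (1 : F))
  have hJ3' : X * Jδ = -(Jδ * X) := by
    rw [hJδdef, hX]
    exact Je_anti s t δ
  refine ⟨P * J1 * P', P * Tm * P', ?_, ?_, ?_, ?_, ?_, ?_, ?_⟩
  · rw [OFPL1.conj_mul hP'P, hJ1, OFPL1.conj_smul hPP' l]
  · rw [hS0, OFPL1.left_mul hP'P, OFPL1.right_mul hP'P, hJ2]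
  · rw [hxe, OFPL1.conj_mul hP'P, OFPL1.conj_mul hP'P, hJ3, Matrix.mul_neg, Matrix.neg_mul]
  · rw [hS0, OFPL1.congr_mul hP'P, hT1]
  · rw [OFPL1.conj_mul hP'P, hT2, OFPL1.conj_one hPP']
  · rw [Matrix.det_conj_of_mul_eq_one hPP' hP'P, hT3]
  · rw [hxe, OFPL1.conj_mul hP'P, OFPL1.conj_mul hP'P, hT4, OFPL1.conj_mul hP'P,
      OFPL1.conj_mul hP'P, hJ3', Matrix.mul_neg, Matrix.neg_mul]

end Cfsg.Agent.Lib.Helper91.OMPLMG
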