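import Mathlib
import Cfsg.Prelude.Def_Blocks
import Cfsg.Prelude.Def_Solvable
import Cfsg.Agent.S0955
import Cfsg.Agent.S4487
import Cfsg.Agent.S0920
import Cfsg.Agent.S0936
import Cfsg.Agent.Lib.Helper16.MinMax
import Cfsg.Agent.Lib.CT.ThirdMain
import Cfsg.Agent.Lib.Helper47.Basic

/-!
# A local criterion for a group to have a single `p`-block

If no block of `G` has defect zero and every nontrivial radical `p`-subgroup `D`
(`O_p(N_G(D)) = D`) is self-centralizing, then `G` has exactly one `p`-block.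
-/

set_option autoImplicit false

namespace Cfsg.Agent.Lib.Helper91.OneBlockLocal

open Cfsg Cfsg.Agent.Lib.Helper77.LocalRing Cfsg.Agent.Lib.Helper16.ZR

universe u

/-- In a group `N` whose `p`-core is self-centralizing, `O_{p'}(N) = 1`. -/
theorem pPrimeCore_eq_bot_of_constr {N : Type u} [Group N] (p : ℕ) [Fact p.Prime]
    (hconstr : Subgroup.centralizer ((Cfsg.pCore p N) : Set N) ≤ Cfsg.pCore p N) :
    Cfsg.pPrimeCore p N = ⊥ := by
  have hnorm := Cfsg.Agent.Lib.Helper47.Basic.pCore_normal p N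
  have hP := Cfsg.Agent.Lib.Helper47.Basic.pCore_isPGroup p N
  have key : ∀ K : Subgroup N, (Nat.card K).Coprime p → ∀ x : N, x ∈ K →
      x ∈ Cfsg.pCore p N → x = 1 := by
    intro K hK x hxK hxP
    obtain ⟨k, hk⟩ := hP ⟨x, hxP⟩
    have h1 : orderOf x ∣ p ^ k := orderOf_dvd_of_pow_eq_one (congrArg Subtype.val hk)
    have h2 : orderOf x ∣ Nat.card K := by
      have := orderOf_dvd_natCard (⟨x, hxK⟩ : K)
      rwa [Subgroup.orderOf_mk] at this
    have h3 : Nat.Coprime (Nat.card K) (p ^ k) := Nat.Coprime.pow_right k hK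
    have h4 : orderOf x ∣ 1 := by
      have := Nat.dvd_gcd h2 h1
      rwa [Nat.Coprime.gcd_eq_one h3] at this
    exact orderOf_eq_one_iff.1 (Nat.dvd_one.1 h4)
  unfold Cfsg.pPrimeCore
  rw [eq_bot_iff]
  apply sSup_le
  rintro K ⟨hKn, hKc⟩
  intro x hxK
  have hxC : x ∈ Subgroup.centralizer ((Cfsg.pCore p N) : Set N) := by
    rw [Subgroup.mem_centralizer_iff]
    intro y hy
    have hy' : y ∈ Cfsg.pCore p N := hy
    have hc1 : y * x * y⁻¹ * x⁻¹ ∈ K := K.mul_mem (hKn.conj_mem x hxK y) (K.inv_mem hxK)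
    have hc2 : y * x * y⁻¹ * x⁻¹ ∈ Cfsg.pCore p N := by
      have : y * (x * y⁻¹ * x⁻¹) ∈ Cfsg.pCore p N :=
        (Cfsg.pCore p N).mul_mem hy' (hnorm.conj_mem y⁻¹ ((Cfsg.pCore p N).inv_mem hy') x)
      simpa [mul_assoc] using this
    have hc := key K hKc _ hc1 hc2
    have h5 : y * x * y⁻¹ * x⁻¹ * (x * y) = y * x := by group
    rw [← h5, hc, one_mul]
  have hxP := hconstr hxC
  rw [Subgroup.mem_bot]
  exact key K hKc x hxK hxP

/-- Under the local hypotheses every irreducible character lies in the principal block. -/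
theorem sameBlock_triv {G : Type u} [Group G] [Finite G] (p : ℕ) [Fact p.Prime]
    (M : Ideal Cfsg.AlgInt) (hM : Cfsg.IsPModular p M)
    (h0 : ∀ B : Set (Cfsg.IrrCharacter G), Cfsg.IsPBlock M B → ¬ Cfsg.IsDefectGroup p M B ⊥)
    (hloc : ∀ D : Subgroup G, IsPGroup p D → D ≠ ⊥ →
      (Cfsg.pCore p (Subgroup.normalizer (D : Set G))).map
        (Subgroup.normalizer (D : Set G)).subtype = D →
      Subgroup.centralizer (D : Set G) ≤ D)
    (χ : Cfsg.IrrCharacter G) :
    Cfsg.SameBlock M (χ : G → ℂ)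
      ((Cfsg.Agent.Lib.CT.ThirdMain.triv G : Cfsg.IrrCharacter G) : G → ℂ) := by
  classical
  have hMp : M.IsPrime := isPrime_of_isPModular hM
  have hB : IsPBlock M (blockOf M (χ : G → ℂ)) := ⟨χ, rfl⟩
  obtain ⟨D, hD⟩ := Cfsg.Agent.Lib.Helper16.MinMax.exists_defectGroup hM _ hB
  obtain ⟨g, hg, hsyl⟩ := Cfsg.Agent.Lib.Helper16.MinMax.isDefectGroup_iff.mp hD
  have hDp : IsPGroup p D := hsyl.2.1
  have hDne : D ≠ ⊥ := by
    intro hbot
    rw [hbot] at hD
    exact h0 _ hB hD
  have hcore := Cfsg.Agent.S0955.result p M hM _ hB D hD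
  have hCD := hloc D hDp hDne hcore
  have hconstr : Subgroup.centralizer
      ((Cfsg.pCore p (Subgroup.normalizer (D : Set G))) :
        Set (Subgroup.normalizer (D : Set G))) ≤
      Cfsg.pCore p (Subgroup.normalizer (D : Set G)) := by
    intro x hx
    have hxC : (x : G) ∈ Subgroup.centralizer (D : Set G) := by
      rw [Subgroup.mem_centralizer_iff]
      intro d hd
      have hd' : d ∈ (Cfsg.pCore p (Subgroup.normalizer (D : Set G))).map
          (Subgroup.normalizer (D : Set G)).subtype := by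
        rw [hcore]; exact hd
      obtain ⟨y, hy, rfl⟩ := Subgroup.mem_map.1 hd'
      have h1 := (Subgroup.mem_centralizer_iff.1 hx) y hy
      have h2 := congrArg Subtype.val h1
      simpa using h2
    have hxD : (x : G) ∈ (Cfsg.pCore p (Subgroup.normalizer (D : Set G))).map
        (Subgroup.normalizer (D : Set G)).subtype := by
      rw [hcore]; exact hCD hxC
    obtain ⟨y, hy, hyx⟩ := Subgroup.mem_map.1 hxD
    have hyx' : y = x := Subtype.ext hyx
    rw [← hyx']; exact hy
  have hpc := pPrimeCore_eq_bot_of_constr p hconstr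
  have hone := Cfsg.Agent.S4487.result (G := Subgroup.normalizer (D : Set G)) p M hM hpc hconstr
  obtain ⟨b, ⟨hb, -, hind⟩, -⟩ := (Cfsg.Agent.S0920.result p M hM D hDp).2 _ hB hD
  have hbp : b = Cfsg.principalBlock M (Subgroup.normalizer (D : Set G)) := by
    obtain ⟨ξ₀, hξ₀⟩ := hb
    rw [hξ₀, Cfsg.Agent.Lib.CT.ThirdMain.principalBlock_eq_blockOf_triv]
    ext φ
    exact ⟨fun _ => hone _ φ, fun _ => hone _ φ⟩
  have hind' : IsInducedBlock M (Subgroup.normalizer (D : Set G)) b (principalBlock M G) :=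
    (Cfsg.Agent.S0936.result p M hM _ b ⟨_, hind⟩).2 hbp
  obtain ⟨ξ, hξ⟩ := isPBlock_nonempty hMp hb
  intro x
  have h1 := hind.2.2 ξ hξ χ (mem_blockOf_self hMp χ) x
  have h2 := hind'.2.2 ξ hξ _ (Cfsg.Agent.Lib.CT.ThirdMain.triv_mem_principalBlock hMp) x
  have h3 := memLocalIdeal_sub hMp h2 h1
  rw [sub_sub_sub_cancel_left] at h3
  exact h3

/-- **One block from local data.**  If no block of `G` has trivial defect group and every
nontrivial `p`-subgroup `D` with `O_p(N_G(D)) = D` satisfies `C_G(D) ≤ D`, then any two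
irreducible characters of `G` lie in the same `p`-block. -/
theorem one_block_of_local {G : Type u} [Group G] [Finite G] (p : ℕ) [Fact p.Prime]
    (M : Ideal Cfsg.AlgInt) (hM : Cfsg.IsPModular p M)
    (h0 : ∀ B : Set (Cfsg.IrrCharacter G), Cfsg.IsPBlock M B → ¬ Cfsg.IsDefectGroup p M B ⊥)
    (hloc : ∀ D : Subgroup G, IsPGroup p D → D ≠ ⊥ →
      (Cfsg.pCore p (Subgroup.normalizer (D : Set G))).map
        (Subgroup.normalizer (D : Set G)).subtype = D →
      Subgroup.centralizer (D : Set G) ≤ D)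
    (χ ψ : Cfsg.IrrCharacter G) : Cfsg.SameBlock M (χ : G → ℂ) (ψ : G → ℂ) := by
  have hMp : M.IsPrime := isPrime_of_isPModular hM
  exact sameBlock_trans hMp (sameBlock_triv p M hM h0 hloc χ)
    (sameBlock_symm (sameBlock_triv p M hM h0 hloc ψ))

end Cfsg.Agent.Lib.Helper91.OneBlockLocal
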