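import Mathlib
import Cfsg.Agent.Lib.Helper30.PSgStmt

set_option autoImplicit false

/-! Piece DFL of S4321: the direct factor lemma inside a subgroup containing a Sylow subgroup. -/

namespace Cfsg.Agent.Lib.Helper91.PSgDFL

open Subgroup
open Cfsg.Agent.Lib.Helper55.ClassSize
open Cfsg.Agent.Lib.Helper30

universe u

/-- the elements `x * c` of `C` with `x ∈ P` and `c` centralizing `P`, as a subgroup of `C` -/
def Msub {G : Type*} [Group G] (C P : Subgroup G) : Subgroup ↥C where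
  carrier := {y | ∃ x ∈ P, ∃ c ∈ centralizer (P : Set G), (y : G) = x * c}
  one_mem' := ⟨1, P.one_mem, 1, one_mem _, by simp⟩
  mul_mem' := by
    rintro a b ⟨x, hx, c, hc, e⟩ ⟨x', hx', c', hc', e'⟩
    refine ⟨x * x', P.mul_mem hx hx', c * c', mul_mem hc hc', ?_⟩
    have h1 : c * x' = x' * c := ((mem_centralizer_iff.1 hc) x' hx').symm
    rw [Subgroup.coe_mul, e, e']
    calc x * c * (x' * c') = x * (c * x') * c' := by group
      _ = x * (x' * c) * c' := by rw [h1]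
      _ = x * x' * (c * c') := by group
  inv_mem' := by
    rintro a ⟨x, hx, c, hc, e⟩
    refine ⟨x⁻¹, P.inv_mem hx, c⁻¹, inv_mem hc, ?_⟩
    have h1 : x * c = c * x := (mem_centralizer_iff.1 hc) x hx
    rw [Subgroup.coe_inv, e, h1]
    group

theorem mem_Msub {G : Type*} [Group G] (C P : Subgroup G) (y : ↥C) :
    y ∈ Msub C P ↔ ∃ x ∈ P, ∃ c ∈ centralizer (P : Set G), (y : G) = x * c := Iff.rfl

theorem exists_conj_mem_inf {G : Type*} [Group G] [Finite G] {p : ℕ} [Fact p.Prime]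
    {C : Subgroup G} {P : Sylow p G} (hPC : (P : Subgroup G) ≤ C) (h : G)
    (hK : ¬ p ∣ (C ⊓ centralizer ({h} : Set G)).index) :
    ∃ c ∈ C, ∀ x ∈ (P : Subgroup G), c⁻¹ * x * c ∈ C ⊓ centralizer ({h} : Set G) := by
  have hrel : ¬ p ∣ ((C ⊓ centralizer ({h} : Set G)).subgroupOf C).index := fun hd =>
    hK (hd.trans (Subgroup.relIndex_dvd_index_of_le inf_le_left))
  have hpg : IsPGroup p ((P : Subgroup G).subgroupOf C) := P.2.comap_subtype
  obtain ⟨q, hq⟩ := hpg.nonempty_fixed_point_of_prime_not_dvd_card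
    (↥C ⧸ (C ⊓ centralizer ({h} : Set G)).subgroupOf C) hrel
  induction q using QuotientGroup.induction_on with
  | H c =>
    refine ⟨c.1, c.2, fun x hx => ?_⟩
    have hx' : (⟨x, hPC hx⟩ : ↥C) ∈ (P : Subgroup G).subgroupOf C := by
      rw [Subgroup.mem_subgroupOf]; exact hx
    have h1 := hq ⟨⟨x, hPC hx⟩, hx'⟩
    have h2 : (((⟨x, hPC hx⟩ : ↥C) * c : ↥C) : ↥C ⧸ (C ⊓ centralizer ({h} : Set G)).subgroupOf C)
        = (c : ↥C ⧸ (C ⊓ centralizer ({h} : Set G)).subgroupOf C) := h1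
    rw [QuotientGroup.eq, Subgroup.mem_subgroupOf] at h2
    have h3 := (C ⊓ centralizer ({h} : Set G)).inv_mem h2
    have h4 : ((((⟨x, hPC hx⟩ : ↥C) * c)⁻¹ * c : ↥C) : G)⁻¹ = (c : G)⁻¹ * x * c := by
      simp [mul_assoc]
    rw [h4] at h3
    exact h3

theorem main : PSgStmt.DFLDef.{u} := by
  intro G _ _ p hp C P hPC hK g hg
  have hM : Msub C (P : Subgroup G) = ⊤ := by
    apply Cfsg.Agent.Lib.Helper69.PNil.eq_top_of_forall_conj_mem
    rintro ⟨y, hy⟩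
    obtain ⟨m, n, hpm, hcop, hdec⟩ := Cfsg.Agent.Lib.Helper69.PNil.exists_pow_decomp p y
    have hyn : y ^ n ∈ C := C.pow_mem hy n
    have hym : y ^ m ∈ C := C.pow_mem hy m
    obtain ⟨c, hc, hcK⟩ := exists_conj_mem_inf hPC (y ^ n) (hK _ hyn hcop)
    have hPh : ∀ x ∈ (P : Subgroup G), x * (c * y ^ n * c⁻¹) = (c * y ^ n * c⁻¹) * x := by
      intro x hx
      have h1 := mem_cent.1 (mem_inf.1 (hcK x hx)).2
      calc x * (c * y ^ n * c⁻¹) = c * ((c⁻¹ * x * c) * y ^ n) * c⁻¹ := by group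
        _ = c * (y ^ n * (c⁻¹ * x * c)) * c⁻¹ := by rw [h1]
        _ = (c * y ^ n * c⁻¹) * x := by group
    have hcomm : (c * y ^ m * c⁻¹) * (c * y ^ n * c⁻¹) = (c * y ^ n * c⁻¹) * (c * y ^ m * c⁻¹) := by
      have : y ^ m * y ^ n = y ^ n * y ^ m := by rw [← pow_add, ← pow_add, add_comm]
      calc (c * y ^ m * c⁻¹) * (c * y ^ n * c⁻¹) = c * (y ^ m * y ^ n) * c⁻¹ := by group
        _ = c * (y ^ n * y ^ m) * c⁻¹ := by rw [this]
        _ = (c * y ^ n * c⁻¹) * (c * y ^ m * c⁻¹) := by group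
    have hPH : (P : Subgroup G) ≤ C ⊓ centralizer ({c * y ^ n * c⁻¹} : Set G) := by
      intro x hx
      exact mem_inf.2 ⟨hPC hx, mem_cent.2 (hPh x hx)⟩
    have huH : Subgroup.zpowers (c * y ^ m * c⁻¹) ≤ C ⊓ centralizer ({c * y ^ n * c⁻¹} : Set G) := by
      rw [Subgroup.zpowers_le]
      exact mem_inf.2 ⟨C.mul_mem (C.mul_mem hc hym) (C.inv_mem hc), mem_cent.2 hcomm⟩
    have hpz : IsPGroup p (Subgroup.zpowers (c * y ^ m * c⁻¹)) := by
      apply Cfsg.Agent.Lib.Helper69.PNil.isPGroup_zpowers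
      have : orderOf (c * y ^ m * c⁻¹) = orderOf (y ^ m) := by
        have := MulEquiv.orderOf_eq (MulAut.conj c) (y ^ m)
        rwa [MulAut.conj_apply] at this
      rw [this]; exact hpm
    obtain ⟨e, he, her⟩ := Cfsg.Agent.Lib.Helper53.SylowConj.exists_conj_le_sylow _ _ huH hpz P hPH
    have h1 : e * (c * y ^ m * c⁻¹) * e⁻¹ ∈ (P : Subgroup G) := her _ (Subgroup.mem_zpowers _)
    have he2 := mem_cent.1 (mem_inf.1 he).2
    have heC : e ∈ C := (mem_inf.1 he).1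
    refine ⟨⟨e * c, C.mul_mem heC hc⟩, ?_⟩
    rw [mem_Msub]
    refine ⟨e * (c * y ^ m * c⁻¹) * e⁻¹, h1, c * y ^ n * c⁻¹, ?_, ?_⟩
    · rw [mem_centralizer_iff]
      intro x hx
      exact hPh x hx
    · show (e * c) * y * (e * c)⁻¹ = _
      conv_lhs => rw [← hdec]
      calc e * c * (y ^ m * y ^ n) * (e * c)⁻¹
          = e * (c * y ^ m * c⁻¹) * e⁻¹ * ((e * (c * y ^ n * c⁻¹)) * e⁻¹) := by group
        _ = e * (c * y ^ m * c⁻¹) * e⁻¹ * (((c * y ^ n * c⁻¹) * e) * e⁻¹) := by rw [he2]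
        _ = e * (c * y ^ m * c⁻¹) * e⁻¹ * (c * y ^ n * c⁻¹) := by group
  have hgM : (⟨g, hg⟩ : ↥C) ∈ Msub C (P : Subgroup G) := by rw [hM]; exact mem_top _
  exact (mem_Msub C (P : Subgroup G) ⟨g, hg⟩).1 hgM

end Cfsg.Agent.Lib.Helper91.PSgDFL
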