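import Mathlib
import Cfsg.Agent.Lib.Helper30.PSgStmt

set_option autoImplicit false

/-! Piece KLEM of S4321: the `K`-trick for an element of order `p`. -/

namespace Cfsg.Agent.Lib.Helper91.PSgKLEM

open Subgroup
open Cfsg.Agent.Lib.Helper55.ClassSize
open Cfsg.Agent.Lib.Helper30

universe u

theorem closure_normal_of_conj {G : Type*} [Group G] {S : Set G}
    (h : ∀ s ∈ S, ∀ g : G, g * s * g⁻¹ ∈ S) : (Subgroup.closure S).Normal := by
  constructor
  intro n hn g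
  induction hn using Subgroup.closure_induction with
  | mem x hx => exact Subgroup.subset_closure (h x hx g)
  | one => simp
  | mul x y _ _ hx hy =>
    have : g * (x * y) * g⁻¹ = (g * x * g⁻¹) * (g * y * g⁻¹) := by group
    rw [this]; exact Subgroup.mul_mem _ hx hy
  | inv x _ hx =>
    have : g * x⁻¹ * g⁻¹ = (g * x * g⁻¹)⁻¹ := by group
    rw [this]; exact Subgroup.inv_mem _ hx

theorem main : PSgStmt.KLemDef.{u} := by
  intro G _ _ p hp a b hb hbc hcop heq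
  let S : Set G := {x | ∃ g₁ g₂ : G, x = (g₁ * b * g₁⁻¹) * (g₂ * b * g₂⁻¹)⁻¹}
  have hSconj : ∀ s ∈ S, ∀ g : G, g * s * g⁻¹ ∈ S := by
    rintro s ⟨g₁, g₂, rfl⟩ g
    exact ⟨g * g₁, g * g₂, by group⟩
  have hKn : (Subgroup.closure S).Normal := closure_normal_of_conj hSconj
  have hKr : Subgroup.closure S ≤ rstab (Cls a) := by
    rw [Subgroup.closure_le]
    rintro s ⟨g₁, g₂, rfl⟩
    exact conj_div_conj_mem_rstab hcop heq g₁ g₂
  have hKdvd : Nat.card (Subgroup.closure S) ∣ cs a := by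
    have := card_dvd_of_le_rstab hKr
    rwa [ncard_cls] at this
  have hKb : Subgroup.closure S ≤ centralizer ({b} : Set G) :=
    le_centralizer_of_coprime _ b (Nat.Coprime.coprime_dvd_left hKdvd hcop)
  -- K centralizes every conjugate of b
  have hKconj : ∀ k ∈ Subgroup.closure S, ∀ g : G, k * (g * b * g⁻¹) = (g * b * g⁻¹) * k := by
    intro k hk g
    have h1 : g⁻¹ * k * g⁻¹⁻¹ ∈ Subgroup.closure S := hKn.conj_mem k hk g⁻¹
    have h2 := mem_cent.1 (hKb h1)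
    calc k * (g * b * g⁻¹) = g * ((g⁻¹ * k * g⁻¹⁻¹) * b) * g⁻¹ := by group
      _ = g * (b * (g⁻¹ * k * g⁻¹⁻¹)) * g⁻¹ := by rw [h2]
      _ = (g * b * g⁻¹) * k := by group
  have hKS : ∀ k ∈ Subgroup.closure S, ∀ s ∈ S, k * s = s * k := by
    rintro k hk s ⟨g₁, g₂, rfl⟩
    have h1 := hKconj k hk g₁
    have h2 := hKconj k hk g₂
    obtain ⟨c₁, hc₁⟩ : ∃ c₁ : G, c₁ = g₁ * b * g₁⁻¹ := ⟨_, rfl⟩
    obtain ⟨c₂, hc₂⟩ : ∃ c₂ : G, c₂ = g₂ * b * g₂⁻¹ := ⟨_, rfl⟩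
    rw [← hc₁] at h1 ⊢
    rw [← hc₂] at h2 ⊢
    have h3 : k * c₂⁻¹ = c₂⁻¹ * k := by
      calc k * c₂⁻¹ = c₂⁻¹ * (c₂ * k) * c₂⁻¹ := by group
        _ = c₂⁻¹ * (k * c₂) * c₂⁻¹ := by rw [h2]
        _ = c₂⁻¹ * k := by group
    calc k * (c₁ * c₂⁻¹) = (k * c₁) * c₂⁻¹ := by group
      _ = (c₁ * k) * c₂⁻¹ := by rw [h1]
      _ = c₁ * (k * c₂⁻¹) := by group
      _ = c₁ * (c₂⁻¹ * k) := by rw [h3]
      _ = c₁ * c₂⁻¹ * k := by group
  have hKab : ∀ x ∈ Subgroup.closure S, ∀ y ∈ Subgroup.closure S, x * y = y * x := by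
    intro x hx y hy
    have : Subgroup.closure S ≤ centralizer ({x} : Set G) := by
      rw [Subgroup.closure_le]
      intro s hs
      exact mem_cent.2 (hKS x hx s hs).symm
    exact (mem_cent.1 (this hy)).symm
  have hbp : b ^ p = 1 := by rw [← hb]; exact pow_orderOf_eq_one b
  have hconjp : ∀ g : G, (g * b * g⁻¹) ^ p = 1 := by
    intro g
    rw [conj_pow, hbp]; group
  have hSp : ∀ s ∈ S, s ^ p = 1 := by
    rintro s ⟨g₁, g₂, rfl⟩
    have hs : (g₁ * b * g₁⁻¹) * (g₂ * b * g₂⁻¹)⁻¹ ∈ Subgroup.closure S :=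
      Subgroup.subset_closure ⟨g₁, g₂, rfl⟩
    have h1 := hKconj _ hs g₂
    have hp1 := hconjp g₁
    have hp2 := hconjp g₂
    obtain ⟨c₁, hc₁⟩ : ∃ c₁ : G, c₁ = g₁ * b * g₁⁻¹ := ⟨_, rfl⟩
    obtain ⟨c₂, hc₂⟩ : ∃ c₂ : G, c₂ = g₂ * b * g₂⁻¹ := ⟨_, rfl⟩
    rw [← hc₁] at h1 hp1 ⊢
    rw [← hc₂] at h1 hp2 ⊢
    have hcomm : Commute c₁ c₂ := by
      have e : c₁ * c₂⁻¹ * c₂ = c₁ := by group
      rw [e] at h1
      show c₁ * c₂ = c₂ * c₁
      calc c₁ * c₂ = c₂ * (c₁ * c₂⁻¹) * c₂ := by rw [← h1]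
        _ = c₂ * c₁ := by group
    rw [(hcomm.inv_right).mul_pow, hp1, inv_pow, hp2, inv_one, one_mul]
  have hKp : ∀ x ∈ Subgroup.closure S, x ^ p = 1 := by
    intro x hx
    induction hx using Subgroup.closure_induction with
    | mem x hx => exact hSp x hx
    | one => simp
    | mul x y hx hy ihx ihy =>
      have hc : Commute x y := hKab x hx y hy
      rw [hc.mul_pow, ihx, ihy, one_mul]
    | inv x _ ihx => rw [inv_pow, ihx, inv_one]
  have hKpg : IsPGroup p (Subgroup.closure S) := by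
    rintro ⟨k, hk⟩
    refine ⟨1, ?_⟩
    apply Subtype.ext
    simp [hKp k hk]
  obtain ⟨n, hn⟩ := hKpg.exists_card_eq
  have hne : ∃ g : G, g * b * g⁻¹ ≠ b := by
    by_contra hcon
    push Not at hcon
    apply hbc
    rw [mem_center_iff]
    intro g
    have := hcon g
    calc g * b = (g * b * g⁻¹) * g := by group
      _ = b * g := by rw [this]
  obtain ⟨g, hg⟩ := hne
  have hmem : (g * b * g⁻¹) * (1 * b * 1⁻¹)⁻¹ ∈ Subgroup.closure S :=
    Subgroup.subset_closure ⟨g, 1, rfl⟩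
  have hne1 : (g * b * g⁻¹) * (1 * b * 1⁻¹)⁻¹ ≠ 1 := by
    intro h
    apply hg
    have : g * b * g⁻¹ = (g * b * g⁻¹) * (1 * b * 1⁻¹)⁻¹ * b := by group
    rw [this, h, one_mul]
  have hn0 : n ≠ 0 := by
    rintro rfl
    rw [pow_zero] at hn
    have : Subgroup.closure S = ⊥ := Subgroup.card_eq_one.1 hn
    rw [this, Subgroup.mem_bot] at hmem
    exact hne1 hmem
  have : p ∣ Nat.card (Subgroup.closure S) := by
    rw [hn]; exact dvd_pow_self p hn0
  exact this.trans hKdvd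

end Cfsg.Agent.Lib.Helper91.PSgKLEM
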