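import Mathlib
import Cfsg.Agent.Lib.Helper91.PsuTH

set_option autoImplicit false
set_option linter.unusedSectionVars false

/-!
# S5172 piece TG (`TorGen`) : a diagonal element of `GJ` is a product of `IsTorH` elements and
one `IsTorC` element.
-/

namespace Cfsg.Agent.Lib.Helper91.PsuTG

open Matrix Cfsg.Agent.Lib.Helper43.SUBase Cfsg.Agent.H84.PslDefs
  Cfsg.Agent.Lib.Helper46.PsuDefs Cfsg.Agent.Lib.Helper46.PsuStmt
open Cfsg.Agent.Lib.Helper91.PsuTH (tor dtor tor_coe tor_mem rev_val)

universe u

section
variable {n : ℕ} {K : Type u} [Field K] {q : ℕ} (D : QD K q)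

theorem unit_rel (t : SpecialLinearGroup (Fin n) K) (ht : t ∈ GJ D n) (hd : Diag n t)
    (x : Fin n) : D.φ (t (Fin.rev x) (Fin.rev x)) * t x x = 1 := by
  have e := (mem_GJ_iff_entries D n t).1 ht x x
  rw [if_pos rfl, Finset.sum_eq_single x] at e
  · exact e
  · intro k _ hk
    rw [hd k x hk, mul_zero]
  · intro hx; exact absurd (Finset.mem_univ x) hx

theorem mul_diag_coe (t g : SpecialLinearGroup (Fin n) K) (ht : Diag n t) (d : Fin n → K)
    (hg : (g : Matrix (Fin n) (Fin n) K) = Matrix.diagonal d) :
    ((t * g : SpecialLinearGroup (Fin n) K) : Matrix (Fin n) (Fin n) K)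
      = Matrix.diagonal (fun l => t l l * d l) := by
  ext r s
  rw [Matrix.SpecialLinearGroup.coe_mul, hg, Matrix.mul_diagonal]
  by_cases hrs : r = s
  · subst hrs; rw [Matrix.diagonal_apply_eq]
  · rw [Matrix.diagonal_apply_ne _ hrs, ht r s hrs, zero_mul]

end

/-- **S5172 piece TG** -/
theorem main : TorGen.{u} := by
  intro n K _ _ q D hn
  have key : ∀ N : ℕ, ∀ t ∈ GJ D n, Diag n t →
      (∀ i : Fin n, i.val + 1 < n / 2 → N ≤ i.val → t i i = 1) →
      t ∈ Subgroup.closure
        ({h : SpecialLinearGroup (Fin n) K | h ∈ GJ D n ∧ Diag n h ∧ IsTorH n h} ∪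
          {a : SpecialLinearGroup (Fin n) K | a ∈ GJ D n ∧ Diag n a ∧ IsTorC n a}) := by
    intro N
    induction N with
    | zero =>
      intro t ht hd hyp
      refine Subgroup.subset_closure (Or.inr ⟨ht, hd, ?_⟩)
      intro i hi
      rcases hi with hi | hi
      · exact hyp i hi (Nat.zero_le _)
      · have hr := rev_val i
        have hil := i.isLt
        have h1 : t (Fin.rev i) (Fin.rev i) = 1 := hyp (Fin.rev i) (by omega) (Nat.zero_le _)
        have e := unit_rel D t ht hd i
        rw [h1, map_one, one_mul] at e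
        exact e
    | succ N ih =>
      intro t ht hd hyp
      by_cases hN : N + 1 < n / 2
      · -- the correcting torus element
        obtain ⟨k, hkv⟩ : ∃ k : Fin n, k.val = N := ⟨⟨N, by omega⟩, rfl⟩
        obtain ⟨k0, hk0v⟩ : ∃ k0 : Fin n, k0.val = n / 2 - 1 := ⟨⟨n / 2 - 1, by omega⟩, rfl⟩
        have hk : k < k0 := by
          rw [Fin.lt_def]
          omega
        have hk0 : k0.val < n / 2 := by omega
        have hrk := rev_val k
        have hrk0 := rev_val k0
        have hβ : t k k ≠ 0 := right_ne_zero_of_mul_eq_one (unit_rel D t ht hd k)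
        have hβi : (t k k)⁻¹ ≠ 0 := inv_ne_zero hβ
        obtain ⟨g, hgdef⟩ : ∃ g : SpecialLinearGroup (Fin n) K,
            g = tor D k k0 (ne_of_lt hk) (t k k)⁻¹ := ⟨_, rfl⟩
        have hgm : g ∈ GJ D n := by
          rw [hgdef]; exact tor_mem D k k0 hk hk0 (t k k)⁻¹
        have hgc : (g : Matrix (Fin n) (Fin n) K) = Matrix.diagonal (dtor D k k0 (t k k)⁻¹) := by
          rw [hgdef]; exact tor_coe D k k0 hk hk0 (t k k)⁻¹ hβi
        have hgd : Diag n g := by
          intro r s hrs
          show (g : Matrix (Fin n) (Fin n) K) r s = 0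
          rw [hgc, Matrix.diagonal_apply_ne _ hrs]
        have hgrr : ∀ r : Fin n, g r r = dtor D k k0 (t k k)⁻¹ r := by
          intro r
          show (g : Matrix (Fin n) (Fin n) K) r r = _
          rw [hgc, Matrix.diagonal_apply_eq]
        have hne1 : k ≠ k0 := ne_of_lt hk
        have hne2 : k ≠ Fin.rev k0 := fun h => by have := congrArg Fin.val h; omega
        have hne3 : k ≠ Fin.rev k := fun h => by have := congrArg Fin.val h; omega
        have hne4 : k0 ≠ Fin.rev k0 := fun h => by have := congrArg Fin.val h; omega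
        have hne5 : k0 ≠ Fin.rev k := fun h => by have := congrArg Fin.val h; omega
        have hgk : g k k = (t k k)⁻¹ := by
          rw [hgrr]; unfold dtor
          rw [if_pos rfl, if_neg hne2, if_neg hne3, mul_one]
        have hgk0 : g k0 k0 = t k k := by
          rw [hgrr]; unfold dtor
          rw [if_neg hne1.symm, if_pos rfl, if_neg hne4, if_neg hne5, mul_one, inv_inv]
        have hgother : ∀ l : Fin n, l ≠ k → l ≠ k0 → l ≠ Fin.rev k → l ≠ Fin.rev k0 →
            g l l = 1 := by
          intro l h1 h2 h3 h4
          rw [hgrr]; unfold dtor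
          rw [if_neg h1, if_neg h2, if_neg h4, if_neg h3, mul_one]
        have hgS : g ∈ Subgroup.closure
            ({h : SpecialLinearGroup (Fin n) K | h ∈ GJ D n ∧ Diag n h ∧ IsTorH n h} ∪
              {a : SpecialLinearGroup (Fin n) K | a ∈ GJ D n ∧ Diag n a ∧ IsTorC n a}) :=
          Subgroup.subset_closure (Or.inl ⟨hgm, hgd, k, k0, hk, hk0,
            by rw [hgk, hgk0, inv_mul_cancel₀ hβ], hgother⟩)
        have htg : ((t * g : SpecialLinearGroup (Fin n) K) : Matrix (Fin n) (Fin n) K)
            = Matrix.diagonal (fun l => t l l * dtor D k k0 (t k k)⁻¹ l) :=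
          mul_diag_coe t g hd _ hgc
        have h1 : t * g ∈ Subgroup.closure
            ({h : SpecialLinearGroup (Fin n) K | h ∈ GJ D n ∧ Diag n h ∧ IsTorH n h} ∪
              {a : SpecialLinearGroup (Fin n) K | a ∈ GJ D n ∧ Diag n a ∧ IsTorC n a}) := by
          apply ih (t * g) (mul_mem ht hgm)
          · intro r s hrs
            show ((t * g : SpecialLinearGroup (Fin n) K) : Matrix (Fin n) (Fin n) K) r s = 0
            rw [htg, Matrix.diagonal_apply_ne _ hrs]
          · intro i hi hNi
            show ((t * g : SpecialLinearGroup (Fin n) K) : Matrix (Fin n) (Fin n) K) i i = 1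
            rw [htg, Matrix.diagonal_apply_eq, ← hgrr]
            by_cases hiN : i.val = N
            · have hik : i = k := Fin.ext (by rw [hiN, hkv])
              rw [hik, hgk]
              exact mul_inv_cancel₀ hβ
            · have hil := i.isLt
              rw [hyp i hi (by omega), one_mul]
              apply hgother
              · intro h; have := congrArg Fin.val h; omega
              · intro h; have := congrArg Fin.val h; omega
              · intro h; have := congrArg Fin.val h; omega
              · intro h; have := congrArg Fin.val h; omega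
        have e : t = (t * g) * g⁻¹ := by group
        rw [e]
        exact mul_mem h1 (inv_mem hgS)
      · apply ih t ht hd
        intro i hi hNi
        omega
  intro t ht hd
  apply key n t ht hd
  intro i hi hni
  have := i.isLt
  omega

end Cfsg.Agent.Lib.Helper91.PsuTG
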