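import Mathlib
import Cfsg.Agent.Lib.Helper91.PsuTG

set_option autoImplicit false
set_option linter.unusedSectionVars false

/-!
# S5172 piece TCE (`TorCEven`) : for even `n`, a diagonal element of `GJ` of shape `IsTorC` is a
product of six long root elements `1 + c E_{k, rev k}`, `1 + c E_{rev k, k}` (`c` skew),
`k = n/2 - 1`.
-/

namespace Cfsg.Agent.Lib.Helper91.PsuTCE

open Matrix Cfsg.Agent.Lib.Helper43.SUBase Cfsg.Agent.H84.PslDefs
  Cfsg.Agent.Lib.Helper46.PsuDefs Cfsg.Agent.Lib.Helper46.PsuStmt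
open Cfsg.Agent.Lib.Helper52.PslP7c (G G_diag G_one x_mul y_mul)
open Cfsg.Agent.Lib.Helper91.PsuTH (rev_val adjJ_tv tv_pow G_congr)
open Cfsg.Agent.Lib.Helper91.PsuTG (unit_rel)

universe u

section Mat
variable {n : ℕ} {K : Type u} [Field K]

/-- the `SL_2` identity in one block (with a trailing identity block) -/
theorem six1 (i j : Fin n) (hij : i ≠ j) (β s : K) (hβ : β ≠ 0) (hs : s ≠ 0) :
    Matrix.transvection i j β * (Matrix.transvection j i (-β⁻¹) * (Matrix.transvection i j β *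
      (Matrix.transvection i j (-s) * (Matrix.transvection j i s⁻¹ *
        (Matrix.transvection i j (-s) * G i j (1 : K) 0 0 1)))))
      = G i j (β * s⁻¹) 0 0 (β⁻¹ * s) := by
  rw [x_mul i j hij, y_mul i j hij, x_mul i j hij, x_mul i j hij, y_mul i j hij, x_mul i j hij]
  refine G_congr i j ?_ ?_ ?_ ?_ <;> field_simp <;> ring

theorem six1' (i j : Fin n) (hij : i ≠ j) (β s : K) (hβ : β ≠ 0) (hs : s ≠ 0) :
    Matrix.transvection i j β * (Matrix.transvection j i (-β⁻¹) * (Matrix.transvection i j β *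
      (Matrix.transvection i j (-s) * (Matrix.transvection j i s⁻¹ *
        Matrix.transvection i j (-s)))))
      = Matrix.diagonal (fun r => if r = i then β * s⁻¹ else if r = j then β⁻¹ * s else 1) := by
  have e := six1 i j hij β s hβ hs
  rw [G_one i j hij, Matrix.mul_one, G_diag i j hij] at e
  exact e

end Mat

section Unitary
variable {n : ℕ} {K : Type u} [Field K] {q : ℕ} (D : QD K q)

/-- the long root element `1 + c E_{a, rev a}` -/
def lr (a : Fin n) (ha : a ≠ Fin.rev a) (c : K) : SpecialLinearGroup (Fin n) K :=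
  Matrix.SpecialLinearGroup.transvection ha c

theorem lr_coe (a : Fin n) (ha : a ≠ Fin.rev a) (c : K) :
    (lr a ha c : Matrix (Fin n) (Fin n) K) = Matrix.transvection a (Fin.rev a) c := rfl

theorem lr_mem (a : Fin n) (ha : a ≠ Fin.rev a) (c : K) (hc : D.φ c = -c) :
    lr a ha c ∈ GJ D n := by
  rw [mem_GJ, lr_coe, adjJ_tv, Fin.rev_rev, hc, Matrix.transvection_mul_transvection_same a _ ha,
    neg_add_cancel, Matrix.transvection_zero]

theorem lr_apply_ne_zero (a : Fin n) (ha : a ≠ Fin.rev a) (c : K) (r s : Fin n)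
    (h : lr a ha c r s ≠ 0) : r = s ∨ (r = a ∧ s = Fin.rev a) := by
  by_contra hcon
  push Not at hcon
  obtain ⟨h0, h1⟩ := hcon
  apply h
  show (lr a ha c : Matrix (Fin n) (Fin n) K) r s = 0
  rw [lr_coe, Matrix.transvection, Matrix.add_apply, Matrix.one_apply_ne h0, Matrix.single_apply,
    if_neg, add_zero]
  rintro ⟨rfl, rfl⟩; exact h1 rfl rfl

theorem lr_pow (p : ℕ) [CharP K p] (a : Fin n) (ha : a ≠ Fin.rev a) (c : K) :
    lr a ha c ^ p = 1 := by
  apply Subtype.ext
  show ((lr a ha c ^ p : SpecialLinearGroup (Fin n) K) : Matrix (Fin n) (Fin n) K) = 1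
  rw [Matrix.SpecialLinearGroup.coe_pow, lr_coe, tv_pow a _ ha, CharP.cast_eq_zero, zero_mul,
    Matrix.transvection_zero]

end Unitary

theorem lamC_mid (n : ℕ) (hn : 4 ≤ n) (he : n % 2 = 0) (k : Fin n) (hk : k.val = n / 2 - 1) :
    lamC n k = lamC n (Fin.rev k) := by
  have hr := rev_val k
  simp only [lamC]
  rw [if_neg (by omega), if_pos (by omega), if_neg (by omega), if_pos (by omega)]

/-- **S5172 piece TCE** -/
theorem main : TorCEven.{u} := by
  intro n K _ _ p _ _ q D hn he a ha hdiag htc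
  obtain ⟨k, hkv⟩ : ∃ k : Fin n, k.val = n / 2 - 1 := ⟨⟨n / 2 - 1, by omega⟩, rfl⟩
  have hr := rev_val k
  have hkk : k ≠ Fin.rev k := fun h => by have := congrArg Fin.val h; omega
  have hkk' : Fin.rev k ≠ Fin.rev (Fin.rev k) := by rw [Fin.rev_rev]; exact hkk.symm
  -- a nonzero skew element
  obtain ⟨x, hx⟩ := D.ne
  obtain ⟨s, hsdef⟩ : ∃ s : K, s = x - D.φ x := ⟨_, rfl⟩
  have hs0 : s ≠ 0 := by
    rw [hsdef]; intro h; exact hx (sub_eq_zero.1 h).symm
  have hss : D.φ s = -s := by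
    rw [hsdef, map_sub, D.inv]; ring
  -- the diagonal entries
  have hrel := unit_rel D a ha hdiag k
  have hother : ∀ l : Fin n, l ≠ k → l ≠ Fin.rev k → a l l = 1 := by
    intro l h1 h2
    apply htc
    have hl := l.isLt
    have h1' : l.val ≠ k.val := fun h => h1 (Fin.ext h)
    have h2' : l.val ≠ (Fin.rev k).val := fun h => h2 (Fin.ext h)
    omega
  have hdet : a k k * a (Fin.rev k) (Fin.rev k) = 1 := by
    have e1 : (a : Matrix (Fin n) (Fin n) K) = Matrix.diagonal (fun l => a l l) := by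
      ext r s
      by_cases hrs : r = s
      · subst hrs; rw [Matrix.diagonal_apply_eq]
      · rw [Matrix.diagonal_apply_ne _ hrs]; exact hdiag r s hrs
    have e2 : Matrix.det (a : Matrix (Fin n) (Fin n) K) = 1 := Matrix.SpecialLinearGroup.det_coe a
    rw [e1, Matrix.det_diagonal] at e2
    have e3 : ∏ i, a i i = a k k * a (Fin.rev k) (Fin.rev k) :=
      Finset.prod_eq_mul k (Fin.rev k) hkk (fun c _ hc => hother c hc.1 hc.2)
        (fun h => absurd (Finset.mem_univ _) h) (fun h => absurd (Finset.mem_univ _) h)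
    rw [← e3]; exact e2
  have hμ : a (Fin.rev k) (Fin.rev k) = (a k k)⁻¹ := eq_inv_of_mul_eq_one_right hdet
  have hl0 : a k k ≠ 0 := left_ne_zero_of_mul_eq_one hdet
  have hlf : D.φ (a k k) = a k k := by
    rw [hμ, map_inv₀] at hrel
    have := eq_inv_of_mul_eq_one_right hrel
    rw [inv_inv] at this
    exact this.symm
  obtain ⟨β, hβdef⟩ : ∃ β : K, β = a k k * s := ⟨_, rfl⟩
  have hβ : β ≠ 0 := by rw [hβdef]; exact mul_ne_zero hl0 hs0
  have h1 : D.φ β = -β := by rw [hβdef, map_mul, hlf, hss]; ring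
  have h2 : D.φ (-β⁻¹) = -(-β⁻¹) := by rw [map_neg, map_inv₀, h1, inv_neg]
  have h3 : D.φ (-s) = -(-s) := by rw [map_neg, hss]
  have h4 : D.φ (s⁻¹) = -s⁻¹ := by rw [map_inv₀, hss, inv_neg]
  have hEq : a = lr k hkk β * lr (Fin.rev k) hkk' (-β⁻¹) * lr k hkk β * lr k hkk (-s) *
      lr (Fin.rev k) hkk' s⁻¹ * lr k hkk (-s) := by
    apply Subtype.ext
    show (a : Matrix (Fin n) (Fin n) K) = ((lr k hkk β * lr (Fin.rev k) hkk' (-β⁻¹) * lr k hkk β *
      lr k hkk (-s) * lr (Fin.rev k) hkk' s⁻¹ * lr k hkk (-s) : SpecialLinearGroup (Fin n) K) :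
        Matrix (Fin n) (Fin n) K)
    simp only [Matrix.SpecialLinearGroup.coe_mul, lr_coe, Fin.rev_rev, Matrix.mul_assoc]
    rw [six1' k (Fin.rev k) hkk β s hβ hs0]
    ext r c
    by_cases hrc : r = c
    · subst hrc
      rw [Matrix.diagonal_apply_eq]
      by_cases c1 : r = k
      · rw [c1, if_pos rfl, hβdef, mul_assoc, mul_inv_cancel₀ hs0, mul_one]
      · by_cases c2 : r = Fin.rev k
        · rw [c2, if_neg hkk.symm, if_pos rfl, hμ, hβdef, mul_inv, mul_assoc,
            inv_mul_cancel₀ hs0, mul_one]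
        · rw [if_neg c1, if_neg c2]; exact hother r c1 c2
    · rw [Matrix.diagonal_apply_ne _ hrc]; exact hdiag r c hrc
  rw [hEq]
  have hgen : ∀ (b : Fin n) (hb : b ≠ Fin.rev b), (b = k ∨ b = Fin.rev k) → ∀ c : K,
      D.φ c = -c →
      lr b hb c ∈ Subgroup.closure {g : SpecialLinearGroup (Fin n) K | g ∈ GJ D n ∧
        (∀ i j : Fin n, lamC n i < lamC n j → g i j = 0) ∧ ∃ e : ℕ, g ^ (p ^ e) = 1} := by
    intro b hb hbk c hc
    refine Subgroup.subset_closure ⟨lr_mem D b hb c hc, ?_, 1, ?_⟩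
    · intro i j hij
      by_contra hne
      rcases lr_apply_ne_zero b hb c i j hne with h | ⟨h1, h2⟩
      · subst h; exact lt_irrefl _ hij
      · rw [h1, h2] at hij
        rcases hbk with hbk | hbk
        · rw [hbk, lamC_mid n hn he k hkv] at hij; exact lt_irrefl _ hij
        · rw [hbk, Fin.rev_rev, lamC_mid n hn he k hkv] at hij; exact lt_irrefl _ hij
    · rw [pow_one]; exact lr_pow p b hb c
  exact mul_mem (mul_mem (mul_mem (mul_mem (mul_mem (hgen k hkk (Or.inl rfl) _ h1)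
    (hgen (Fin.rev k) hkk' (Or.inr rfl) _ h2)) (hgen k hkk (Or.inl rfl) _ h1))
    (hgen k hkk (Or.inl rfl) _ h3)) (hgen (Fin.rev k) hkk' (Or.inr rfl) _ h4))
    (hgen k hkk (Or.inl rfl) _ h3)

end Cfsg.Agent.Lib.Helper91.PsuTCE
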