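import Mathlib
import Cfsg.Agent.Lib.Helper91.PsuTCE
import Cfsg.Agent.Lib.Helper46.PsuROOTS
import Cfsg.Agent.Lib.Helper76.PsuCLP

set_option autoImplicit false
set_option linter.unusedSectionVars false

/-!
# S5172 piece TCO (`TorCOdd`) : for odd `n`, a diagonal element of `GJ` of shape `IsTorC` is a
product of root elements of the central `SU_3` block (`k = n/2 - 1`, `n/2`, `rev k`).

With `λ = a k k`, `s ≠ 0` skew, `b = λ s`, `g = φ b`, `a₁ φ a₁ = -(b + g)`:
`a = X(a₁, b) * (w(s) * X(a₁ s / b, -s² / g) * w(-s)) * X(a₁ g / b, b) * w(-s)`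
where `X(a, b)` is the mid root element and `w(β) = x(β) y(-β⁻¹) x(β)` (long root elements).
-/

namespace Cfsg.Agent.Lib.Helper91.PsuTCO

open Matrix Cfsg.Agent.Lib.Helper43.SUBase Cfsg.Agent.H84.PslDefs
  Cfsg.Agent.Lib.Helper46.PsuDefs Cfsg.Agent.Lib.Helper46.PsuStmt
open Cfsg.Agent.Lib.Helper91.PsuTH (rev_val)
open Cfsg.Agent.Lib.Helper91.PsuTG (unit_rel)
open Cfsg.Agent.Lib.Helper91.PsuTCE (lr lr_coe lr_mem lr_apply_ne_zero lr_pow)

universe u

/-! ## `3 × 3` matrices -/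

section M3
variable {K : Type u} [Field K]

def Xm (a f b : K) : Matrix (Fin 3) (Fin 3) K := !![1, a, b; 0, 1, -f; 0, 0, 1]
def Wm (β : K) : Matrix (Fin 3) (Fin 3) K := !![0, 0, β; 0, 1, 0; -β⁻¹, 0, 0]
def Ym (a f b g : K) : Matrix (Fin 3) (Fin 3) K := !![1, 0, 0; f / g, 1, 0; 1 / g, -(a / b), 1]
def Nm (b g : K) : Matrix (Fin 3) (Fin 3) K := !![0, 0, b; 0, -(g / b), 0; 1 / g, 0, 0]
def Dm (d0 d1 d2 : K) : Matrix (Fin 3) (Fin 3) K := !![d0, 0, 0; 0, d1, 0; 0, 0, d2]

theorem X3_eq (a f b : K) :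
    (1 + Matrix.single 0 1 a - Matrix.single 1 2 f + Matrix.single 0 2 b :
      Matrix (Fin 3) (Fin 3) K) = Xm a f b := by
  ext i j
  fin_cases i <;> fin_cases j <;> simp [Xm, Matrix.single_apply, Matrix.one_apply]

theorem tv02_eq (c : K) :
    (Matrix.transvection 0 2 c : Matrix (Fin 3) (Fin 3) K) = !![1, 0, c; 0, 1, 0; 0, 0, 1] := by
  ext i j
  fin_cases i <;> fin_cases j <;>
    simp [Matrix.transvection, Matrix.single_apply, Matrix.one_apply]

theorem tv20_eq (c : K) :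
    (Matrix.transvection 2 0 c : Matrix (Fin 3) (Fin 3) K) = !![1, 0, 0; 0, 1, 0; c, 0, 1] := by
  ext i j
  fin_cases i <;> fin_cases j <;>
    simp [Matrix.transvection, Matrix.single_apply, Matrix.one_apply]

theorem W_eq (β : K) (hβ : β ≠ 0) :
    (Matrix.transvection 0 2 β * Matrix.transvection 2 0 (-β⁻¹) * Matrix.transvection 0 2 β :
      Matrix (Fin 3) (Fin 3) K) = Wm β := by
  rw [tv02_eq, tv20_eq]
  ext i j
  fin_cases i <;> fin_cases j <;>
    simp [Wm, Matrix.mul_apply, Fin.sum_univ_three, mul_inv_cancel₀ hβ, hβ]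

theorem conj_eq (a f b g b0 : K) (hb : b ≠ 0) (hg : g ≠ 0) (hb0 : b0 ≠ 0) :
    Wm b0 * Xm (a * b0 / b) (-(f * b0 / g)) (-(b0 ^ 2 / g)) * Wm (-b0) = Ym a f b g := by
  ext i j
  fin_cases i <;> fin_cases j <;> simp [Wm, Xm, Ym, Matrix.mul_apply, Fin.sum_univ_three] <;>
    field_simp <;> ring

theorem N_eq (a f b g : K) (hb : b ≠ 0) (hg : g ≠ 0) (hrel : b = -g - a * f) :
    Xm a f b * Ym a f b g * Xm (a * g / b) (f * b / g) b = Nm b g := by
  ext i j
  fin_cases i <;> fin_cases j <;> simp [Xm, Ym, Nm, Matrix.mul_apply, Fin.sum_univ_three] <;>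
    field_simp <;> (subst hrel; ring)

theorem D_eq (b g b0 : K) (hb : b ≠ 0) (hg : g ≠ 0) (hb0 : b0 ≠ 0) :
    Nm b g * Wm (-b0) = Dm (b / b0) (-(g / b)) (-(b0 / g)) := by
  ext i j
  fin_cases i <;> fin_cases j <;> simp [Wm, Nm, Dm, Matrix.mul_apply, Fin.sum_univ_three] <;>
    field_simp <;> ring

theorem Dm_sub_one (d0 d1 d2 : K) :
    Dm d0 d1 d2 - 1 = Matrix.single 0 0 (d0 - 1) + Matrix.single 1 1 (d1 - 1) +
      Matrix.single 2 2 (d2 - 1) := by
  ext i j
  fin_cases i <;> fin_cases j <;> simp [Dm, Matrix.single_apply, Matrix.one_apply]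

end M3

/-! ## the block embedding -/

section Emb
variable {n : ℕ} {K : Type u} [Field K] (ι : Fin 3 → Fin n)

/-- the `0/1` matrix of `ι` -/
def Pm (K : Type u) [Field K] (ι : Fin 3 → Fin n) : Matrix (Fin n) (Fin 3) K :=
  Matrix.of fun r u => if r = ι u then (1 : K) else 0

theorem Pm_mul (hι : Function.Injective ι) :
    Matrix.transpose (Pm K ι) * Pm K ι = 1 := by
  ext u v
  rw [Matrix.mul_apply, Finset.sum_eq_single (ι u)]
  · simp only [Pm, Matrix.transpose_apply, Matrix.of_apply, Matrix.one_apply]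
    rw [if_pos trivial, one_mul]
    by_cases huv : u = v
    · rw [if_pos huv, if_pos (by rw [huv])]
    · rw [if_neg huv, if_neg (fun h => huv (hι h))]
  · intro r _ hr
    simp only [Pm, Matrix.transpose_apply, Matrix.of_apply]
    rw [if_neg hr, zero_mul]
  · intro h; exact absurd (Finset.mem_univ _) h

/-- push a `3 × 3` matrix into the block `ι` (no identity added) -/
def Phi (N : Matrix (Fin 3) (Fin 3) K) : Matrix (Fin n) (Fin n) K := Pm K ι * N * Matrix.transpose (Pm K ι)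

/-- the block embedding -/
def emb (M : Matrix (Fin 3) (Fin 3) K) : Matrix (Fin n) (Fin n) K := 1 + Phi ι (M - 1)

theorem Phi_mul (hι : Function.Injective ι) (A B : Matrix (Fin 3) (Fin 3) K) :
    Phi ι A * Phi ι B = Phi ι (A * B) := by
  unfold Phi
  calc Pm K ι * A * Matrix.transpose (Pm K ι) * (Pm K ι * B * Matrix.transpose (Pm K ι))
      = Pm K ι * A * (Matrix.transpose (Pm K ι) * Pm K ι) * B * Matrix.transpose (Pm K ι) := by simp only [Matrix.mul_assoc]
    _ = Pm K ι * (A * B) * Matrix.transpose (Pm K ι) := by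
        rw [Pm_mul ι hι, Matrix.mul_one]; simp only [Matrix.mul_assoc]

theorem Phi_add (A B : Matrix (Fin 3) (Fin 3) K) : Phi ι (A + B) = Phi ι A + Phi ι B := by
  unfold Phi; rw [Matrix.mul_add, Matrix.add_mul]

theorem Phi_sub (A B : Matrix (Fin 3) (Fin 3) K) : Phi ι (A - B) = Phi ι A - Phi ι B := by
  unfold Phi; rw [Matrix.mul_sub, Matrix.sub_mul]

theorem emb_mul (hι : Function.Injective ι) (A B : Matrix (Fin 3) (Fin 3) K) :
    emb ι A * emb ι B = emb ι (A * B) := by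
  unfold emb
  have e : A * B - 1 = (B - 1) + ((A - 1) + (A - 1) * (B - 1)) := by noncomm_ring
  rw [Matrix.add_mul, Matrix.mul_add, Matrix.mul_add, Matrix.one_mul, Matrix.mul_one,
    Matrix.one_mul, Phi_mul ι hι, e, Phi_add, Phi_add]
  abel

theorem Phi_single (u v : Fin 3) (c : K) :
    Phi ι (Matrix.single u v c) = Matrix.single (ι u) (ι v) c := by
  ext r s
  unfold Phi
  rw [Matrix.mul_apply, Finset.sum_eq_single v]
  · rw [Matrix.mul_apply, Finset.sum_eq_single u]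
    · simp only [Pm, Matrix.of_apply, Matrix.transpose_apply, Matrix.single_apply_same]
      rw [Matrix.single_apply]
      by_cases h1 : r = ι u
      · by_cases h2 : s = ι v
        · rw [if_pos h1, if_pos h2, if_pos ⟨h1.symm, h2.symm⟩, one_mul, mul_one]
        · rw [if_neg h2, mul_zero, if_neg (fun h => h2 h.2.symm)]
      · rw [if_neg h1, zero_mul, zero_mul, if_neg (fun h => h1 h.1.symm)]
    · intro u' _ hu'
      rw [Matrix.single_apply, if_neg (fun h => hu' h.1.symm), mul_zero]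
    · intro h; exact absurd (Finset.mem_univ _) h
  · intro v' _ hv'
    rw [Matrix.mul_apply, Finset.sum_eq_zero, zero_mul]
    intro u' _
    rw [Matrix.single_apply, if_neg (fun h => hv' h.2.symm), mul_zero]
  · intro h; exact absurd (Finset.mem_univ _) h

theorem emb_tv (u v : Fin 3) (c : K) :
    emb ι (Matrix.transvection u v c) = Matrix.transvection (ι u) (ι v) c := by
  unfold emb Matrix.transvection
  rw [add_sub_cancel_left, Phi_single]

theorem emb_Xm (a f b : K) :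
    emb ι (Xm a f b) = 1 + Matrix.single (ι 0) (ι 1) a - Matrix.single (ι 1) (ι 2) f +
      Matrix.single (ι 0) (ι 2) b := by
  rw [← X3_eq]
  unfold emb
  have e : (1 + Matrix.single 0 1 a - Matrix.single 1 2 f + Matrix.single 0 2 b - 1 :
      Matrix (Fin 3) (Fin 3) K) = Matrix.single 0 1 a - Matrix.single 1 2 f +
        Matrix.single 0 2 b := by abel
  rw [e, Phi_add, Phi_sub, Phi_single, Phi_single, Phi_single]
  abel

theorem emb_Dm (hι : Function.Injective ι) (A : Matrix (Fin n) (Fin n) K)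
    (hA : ∀ r s, r ≠ s → A r s = 0)
    (hother : ∀ l, l ≠ ι 0 → l ≠ ι 1 → l ≠ ι 2 → A l l = 1) :
    A = emb ι (Dm (A (ι 0) (ι 0)) (A (ι 1) (ι 1)) (A (ι 2) (ι 2))) := by
  unfold emb
  rw [Dm_sub_one, Phi_add, Phi_add, Phi_single, Phi_single, Phi_single]
  have h01 : ι 0 ≠ ι 1 := fun h => by have := hι h; simp at this
  have h02 : ι 0 ≠ ι 2 := fun h => by have := hι h; simp at this
  have h12 : ι 1 ≠ ι 2 := fun h => by have := hι h; simp at this
  ext r s
  simp only [Matrix.add_apply, Matrix.one_apply, Matrix.single_apply]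
  by_cases hrs : r = s
  · subst hrs
    by_cases c0 : r = ι 0
    · rw [c0]; simp [h01, h02, h01.symm, h02.symm]
    · by_cases c1 : r = ι 1
      · rw [c1]; simp [h01, h12, h01.symm, h12.symm]
      · by_cases c2 : r = ι 2
        · rw [c2]; simp [h02, h12, h02.symm, h12.symm]
        · rw [hother r c0 c1 c2]
          simp [Ne.symm c0, Ne.symm c1, Ne.symm c2]
  · rw [hA r s hrs]
    have h : ∀ u, ¬ (ι u = r ∧ ι u = s) := fun u h => hrs (h.1.symm.trans h.2)
    simp [h, hrs]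

end Emb

theorem lamC_mid_odd (n : ℕ) (hn : 4 ≤ n) (ho : n % 2 = 1) (k : Fin n) (hk : k.val = n / 2 - 1) :
    lamC n k = lamC n (Fin.rev k) := by
  have hr := rev_val k
  simp only [lamC]
  rw [if_neg (by omega), if_pos (by omega), if_neg (by omega), if_pos (by omega)]

/-- **S5172 piece TCO** -/
theorem main : TorCOdd.{u} := by
  intro n K _ _ p _ _ q D hn ho a ha hdiag htc
  obtain ⟨k, hkv⟩ : ∃ k : Fin n, k.val = n / 2 - 1 := ⟨⟨n / 2 - 1, by omega⟩, rfl⟩
  obtain ⟨mid, hmv⟩ : ∃ mid : Fin n, mid.val = n / 2 := ⟨⟨n / 2, by omega⟩, rfl⟩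
  have hr := rev_val k
  have hrm := rev_val mid
  have hkk : k ≠ Fin.rev k := fun h => by have := congrArg Fin.val h; omega
  have hkk' : Fin.rev k ≠ Fin.rev (Fin.rev k) := by rw [Fin.rev_rev]; exact hkk.symm
  have hkm : k ≠ mid := fun h => by have := congrArg Fin.val h; omega
  have hmk : mid ≠ Fin.rev k := fun h => by have := congrArg Fin.val h; omega
  have hmm : mid = Fin.rev mid := Fin.ext (by omega)
  have hklt : k < mid := by rw [Fin.lt_def]; omega
  -- the block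
  obtain ⟨ι, hι0, hι1, hι2⟩ : ∃ ι : Fin 3 → Fin n, ι 0 = k ∧ ι 1 = mid ∧ ι 2 = Fin.rev k :=
    ⟨![k, mid, Fin.rev k], rfl, rfl, rfl⟩
  have hval : ∀ u : Fin 3, (ι u).val = n / 2 - 1 + u.val := by
    intro u
    match u with
    | 0 => rw [hι0, hkv]; rfl
    | 1 => rw [hι1, hmv]; show n / 2 = n / 2 - 1 + 1; omega
    | 2 => rw [hι2, hr, hkv]; show n - (n / 2 - 1 + 1) = n / 2 - 1 + 2; omega
  have hι : Function.Injective ι := fun u v huv => Fin.ext (by
    have h1 := hval u; have h2 := hval v; rw [huv] at h1; omega)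
  -- a nonzero skew element
  obtain ⟨x, hx⟩ := D.ne
  obtain ⟨s, hsdef⟩ : ∃ s : K, s = x - D.φ x := ⟨_, rfl⟩
  have hs0 : s ≠ 0 := by
    rw [hsdef]; intro h; exact hx (sub_eq_zero.1 h).symm
  have hss : D.φ s = -s := by
    rw [hsdef, map_sub, D.inv]; ring
  -- the diagonal entries
  have hother : ∀ l : Fin n, l ≠ k → l ≠ mid → l ≠ Fin.rev k → a l l = 1 := by
    intro l h1 h2 h3
    apply htc
    have hl := l.isLt
    have h1' : l.val ≠ k.val := fun h => h1 (Fin.ext h)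
    have h2' : l.val ≠ mid.val := fun h => h2 (Fin.ext h)
    have h3' : l.val ≠ (Fin.rev k).val := fun h => h3 (Fin.ext h)
    omega
  have hdet : a k k * a mid mid * a (Fin.rev k) (Fin.rev k) = 1 := by
    have e1 : (a : Matrix (Fin n) (Fin n) K) = Matrix.diagonal (fun l => a l l) := by
      ext r s
      by_cases hrs : r = s
      · subst hrs; rw [Matrix.diagonal_apply_eq]
      · rw [Matrix.diagonal_apply_ne _ hrs]; exact hdiag r s hrs
    have e2 : Matrix.det (a : Matrix (Fin n) (Fin n) K) = 1 := Matrix.SpecialLinearGroup.det_coe a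
    rw [e1, Matrix.det_diagonal] at e2
    have e3 : ∏ i ∈ ({k, mid, Fin.rev k} : Finset (Fin n)), a i i = ∏ i, a i i :=
      Finset.prod_subset (Finset.subset_univ _) (fun x _ hx => by
        simp only [Finset.mem_insert, Finset.mem_singleton, not_or] at hx
        exact hother x hx.1 hx.2.1 hx.2.2)
    rw [← e3, Finset.prod_insert (by simp [hkm, hkk]), Finset.prod_insert (by simp [hmk]),
      Finset.prod_singleton, ← mul_assoc] at e2
    exact e2
  have hrelk := unit_rel D a ha hdiag k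
  obtain ⟨l, hl⟩ : ∃ l : K, l = a k k := ⟨_, rfl⟩
  obtain ⟨lf, hlf⟩ : ∃ lf : K, lf = D.φ l := ⟨_, rfl⟩
  rw [← hl] at hrelk hdet
  have hl0 : l ≠ 0 := right_ne_zero_of_mul_eq_one hrelk
  have hlf0 : lf ≠ 0 := by
    rw [hlf]; intro h; apply hl0
    have := D.inv l
    rw [h, map_zero] at this
    exact this.symm
  have hμ : a (Fin.rev k) (Fin.rev k) = lf⁻¹ := by
    have h1 : D.φ (a (Fin.rev k) (Fin.rev k)) = l⁻¹ := eq_inv_of_mul_eq_one_left hrelk
    have h2 := D.inv (a (Fin.rev k) (Fin.rev k))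
    rw [h1, map_inv₀, ← hlf] at h2
    exact h2.symm
  have hν : a mid mid = lf / l := by
    rw [hμ] at hdet
    calc a mid mid = l⁻¹ * (l * a mid mid * lf⁻¹) * lf := by field_simp
      _ = lf / l := by rw [hdet]; field_simp
  -- the parameters
  obtain ⟨b, hbdef⟩ : ∃ b : K, b = l * s := ⟨_, rfl⟩
  obtain ⟨g, hgdef⟩ : ∃ g : K, g = -(lf * s) := ⟨_, rfl⟩
  have hb0 : b ≠ 0 := by rw [hbdef]; exact mul_ne_zero hl0 hs0
  have hg0 : g ≠ 0 := by rw [hgdef]; exact neg_ne_zero.2 (mul_ne_zero hlf0 hs0)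
  have hφb : D.φ b = g := by rw [hbdef, hgdef, map_mul, hss, ← hlf]; ring
  have hφg : D.φ g = b := by rw [← hφb, D.inv]
  obtain ⟨a1, ha1⟩ := D.nm (-(b + g)) (by rw [map_neg, map_add, hφb, hφg]; ring)
  obtain ⟨f1, hf1⟩ : ∃ f1 : K, f1 = D.φ a1 := ⟨_, rfl⟩
  rw [← hf1] at ha1
  have hrel0 : b + g + a1 * f1 = 0 := by rw [ha1]; ring
  have hrelb : b = -g - a1 * f1 := by linear_combination hrel0
  -- the root elements
  obtain ⟨g1, hg1U, hg1⟩ := Cfsg.Agent.Lib.Helper46.PsuROOTS.mid_exists D k mid a1 b hklt hmm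
    (by rw [hφb, ← hf1]; exact hrel0)
  have hφa2 : D.φ (a1 * s / b) = -(f1 * s / g) := by
    rw [map_div₀, map_mul, hss, hφb, ← hf1]; ring
  have hφb2 : D.φ (-(s ^ 2 / g)) = -(s ^ 2 / b) := by
    rw [map_neg, map_div₀, map_pow, hss, hφg]; ring
  obtain ⟨g2, hg2U, hg2⟩ := Cfsg.Agent.Lib.Helper46.PsuROOTS.mid_exists D k mid
    (a1 * s / b) (-(s ^ 2 / g)) hklt hmm
    (by
      rw [hφb2, hφa2]
      calc -(s ^ 2 / g) + -(s ^ 2 / b) + a1 * s / b * -(f1 * s / g)
          = -(s ^ 2 * (b + g + a1 * f1) / (b * g)) := by field_simp; ring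
        _ = 0 := by rw [hrel0]; simp)
  have hφa3 : D.φ (a1 * g / b) = f1 * b / g := by
    rw [map_div₀, map_mul, hφg, hφb, ← hf1]
  obtain ⟨g3, hg3U, hg3⟩ := Cfsg.Agent.Lib.Helper46.PsuROOTS.mid_exists D k mid
    (a1 * g / b) b hklt hmm
    (by
      rw [hφb, hφa3]
      calc b + g + a1 * g / b * (f1 * b / g) = b + g + a1 * f1 := by field_simp
        _ = 0 := hrel0)
  -- membership in the closure
  have hUp : IsPGroup p (UJ D n) :=
    (Cfsg.Agent.Lib.Helper76.PsuCLP.isPGroup_Uni n K p).to_le inf_le_right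
  have hUJ : ∀ h ∈ UJ D n, h ∈ Subgroup.closure {g : SpecialLinearGroup (Fin n) K | g ∈ GJ D n ∧
        (∀ i j : Fin n, lamC n i < lamC n j → g i j = 0) ∧ ∃ e : ℕ, g ^ (p ^ e) = 1} := by
    intro h hh
    have hh' := (mem_UJ D n h).1 hh
    obtain ⟨e, he⟩ := hUp ⟨h, hh⟩
    refine Subgroup.subset_closure ⟨hh'.1, ?_, e, ?_⟩
    · intro i j hij
      apply hh'.2.1
      by_contra hcon
      exact absurd (lamC_antitone n i j (not_lt.1 hcon)) (not_le.2 hij)
    · have := congrArg (fun x : UJ D n => (x : SpecialLinearGroup (Fin n) K)) he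
      simpa using this
  have hgen : ∀ (b' : Fin n) (hb : b' ≠ Fin.rev b'), (b' = k ∨ b' = Fin.rev k) → ∀ c : K,
      D.φ c = -c →
      lr b' hb c ∈ Subgroup.closure {g : SpecialLinearGroup (Fin n) K | g ∈ GJ D n ∧
        (∀ i j : Fin n, lamC n i < lamC n j → g i j = 0) ∧ ∃ e : ℕ, g ^ (p ^ e) = 1} := by
    intro b' hb hbk c hc
    refine Subgroup.subset_closure ⟨lr_mem D b' hb c hc, ?_, 1, ?_⟩
    · intro i j hij
      by_contra hne
      rcases lr_apply_ne_zero b' hb c i j hne with h | ⟨h1, h2⟩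
      · subst h; exact lt_irrefl _ hij
      · rw [h1, h2] at hij
        rcases hbk with hbk | hbk
        · rw [hbk, lamC_mid_odd n hn ho k hkv] at hij; exact lt_irrefl _ hij
        · rw [hbk, Fin.rev_rev, lamC_mid_odd n hn ho k hkv] at hij; exact lt_irrefl _ hij
    · rw [pow_one]; exact lr_pow p b' hb c
  -- the Weyl elements
  have e02 : ∀ c : K, Matrix.transvection k (Fin.rev k) c = emb ι (Matrix.transvection 0 2 c) :=
    fun c => by rw [emb_tv, hι0, hι2]
  have e20 : ∀ c : K, Matrix.transvection (Fin.rev k) k c = emb ι (Matrix.transvection 2 0 c) :=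
    fun c => by rw [emb_tv, hι0, hι2]
  have hW : ∀ β : K, β ≠ 0 → D.φ β = -β →
      ∃ w : SpecialLinearGroup (Fin n) K,
        w ∈ Subgroup.closure {g : SpecialLinearGroup (Fin n) K | g ∈ GJ D n ∧
          (∀ i j : Fin n, lamC n i < lamC n j → g i j = 0) ∧ ∃ e : ℕ, g ^ (p ^ e) = 1} ∧
        (w : Matrix (Fin n) (Fin n) K) = emb ι (Wm β) := by
    intro β hβ hβs
    have hβs' : D.φ (-β⁻¹) = -(-β⁻¹) := by rw [map_neg, map_inv₀, hβs, inv_neg]
    refine ⟨lr k hkk β * lr (Fin.rev k) hkk' (-β⁻¹) * lr k hkk β,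
      mul_mem (mul_mem (hgen k hkk (Or.inl rfl) _ hβs) (hgen (Fin.rev k) hkk' (Or.inr rfl) _ hβs'))
        (hgen k hkk (Or.inl rfl) _ hβs), ?_⟩
    simp only [Matrix.SpecialLinearGroup.coe_mul, lr_coe, Fin.rev_rev]
    rw [e02, e20, emb_mul ι hι, emb_mul ι hι, W_eq β hβ]
  obtain ⟨w1, hw1T, hw1⟩ := hW s hs0 hss
  obtain ⟨w2, hw2T, hw2⟩ := hW (-s) (neg_ne_zero.2 hs0) (by rw [map_neg, hss])
  have eX : ∀ a' b' : K, midM D n k mid a' b' = emb ι (Xm a' (D.φ a') b') := fun a' b' => by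
    rw [emb_Xm, hι0, hι1, hι2]; rfl
  -- the identity
  have hEq : a = g1 * (w1 * g2 * w2) * g3 * w2 := by
    apply Subtype.ext
    show (a : Matrix (Fin n) (Fin n) K)
      = ((g1 * (w1 * g2 * w2) * g3 * w2 : SpecialLinearGroup (Fin n) K) :
        Matrix (Fin n) (Fin n) K)
    simp only [Matrix.SpecialLinearGroup.coe_mul]
    rw [hg1, hg2, hg3, hw1, hw2, eX, eX, eX, hφa2, hφa3, ← hf1]
    simp only [emb_mul ι hι]
    rw [conj_eq a1 f1 b g s hb0 hg0 hs0, N_eq a1 f1 b g hb0 hg0 hrelb, D_eq b g s hb0 hg0 hs0]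
    have hD : Dm (b / s) (-(g / b)) (-(s / g)) = Dm l (lf / l) lf⁻¹ := by
      have e1 : b / s = l := by rw [hbdef]; field_simp
      have e2 : -(g / b) = lf / l := by rw [hgdef, hbdef]; field_simp
      have e3 : -(s / g) = lf⁻¹ := by rw [hgdef]; field_simp
      rw [e1, e2, e3]
    rw [hD, ← hν, ← hμ, hl, ← hι2, ← hι1, ← hι0]
    exact emb_Dm ι hι (a : Matrix (Fin n) (Fin n) K) hdiag (fun x h0 h1 h2 =>
      hother x (by rw [← hι0]; exact h0) (by rw [← hι1]; exact h1) (by rw [← hι2]; exact h2))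
  rw [hEq]
  exact mul_mem (mul_mem (mul_mem (hUJ g1 hg1U) (mul_mem (mul_mem hw1T (hUJ g2 hg2U)) hw2T))
    (hUJ g3 hg3U)) hw2T

end Cfsg.Agent.Lib.Helper91.PsuTCO
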