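import Mathlib
import Cfsg.Agent.Lib.Helper12.SNStmt
import Cfsg.Agent.Lib.Helper39.CTFinal

set_option autoImplicit false

namespace Cfsg.Agent.Lib.Helper91.SNPRCARD

open Cfsg.Agent.Lib.Helper39

universe u

theorem main : Cfsg.Agent.Lib.Helper12.SNStmt.PrCard.{u} := by
  intro G _ _ _ hG hCT t ht1 ht
  classical
  haveI := Fintype.ofFinite G
  have hcn := CTCount.card_normalizer hG hCT ht1 ht
  have hVs : (CTCount.Vs t).card = Nat.card (Subgroup.centralizer ({t} : Set G)) := by
    symm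
    apply Nat.subtype_card
    intro x
    rw [CTCount.mem_Vs]
    exact ⟨fun h => h.1, fun h => ⟨h, CTFinal.sq_eq_one_of_mem_cent hG hCT ht1 ht h⟩⟩
  rw [hVs] at hcn
  have htC : t ∈ Subgroup.centralizer ({t} : Set G) := by
    rw [Subgroup.mem_centralizer_singleton_iff]
  refine ⟨hcn, ?_, ?_⟩
  · rw [even_iff_two_dvd]
    have ho : orderOf t = 2 := orderOf_eq_prime ht ht1
    rw [← ho]
    exact Subgroup.orderOf_dvd_natCard _ htC
  · obtain ⟨u, huC, hu1, hut, hu2⟩ := CTGroup.exists_third hG hCT ht1 ht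
    rw [← hVs]
    have h3 : ({1, t, u} : Finset G) ⊆ CTCount.Vs t := by
      intro z hz
      simp only [Finset.mem_insert, Finset.mem_singleton] at hz
      rw [CTCount.mem_Vs]
      rcases hz with rfl | rfl | rfl
      · exact ⟨Subgroup.one_mem _, one_pow 2⟩
      · exact ⟨htC, ht⟩
      · exact ⟨huC, hu2⟩
    have hc3 : ({1, t, u} : Finset G).card = 3 :=
      Finset.card_eq_three.mpr ⟨1, t, u, ht1.symm, hu1.symm, hut.symm, rfl⟩
    rw [← hc3]
    exact Finset.card_le_card h3

end Cfsg.Agent.Lib.Helper91.SNPRCARD
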