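import Mathlib

/-!
Pure finite-field lemmas for the Schur multiplier of `PSL_n(q)` (pieces PB1o / PB1e of S2086):
a bi-additive map `f : F → F → Z` into an abelian group that is invariant under
`(t, s) ↦ (e^2 t, e^2 s)` is trivial (odd `q ≥ 17`; even `q ≥ 8` with `f` alternating).
-/

namespace Cfsg.Agent.Lib.Helper91.SymbolFF

section odd

variable {F : Type*} [Field F] {Z : Type*} [CommGroup Z]

theorem symbol_odd_key (f : F → F → Z)
    (hl : ∀ a b c, f (a + b) c = f a c * f b c) (hr : ∀ a b c, f a (b + c) = f a b * f a c)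
    (hsq : ∀ e : F, e ≠ 0 → ∀ t s, f (e ^ 2 * t) (e ^ 2 * s) = f t s)
    (a b : F) (ha : a ≠ 0) (hb : b ≠ 0) (hab : a ^ 2 + 1 = b ^ 2)
    (hN : (a ^ 2) ^ 2 + a ^ 2 + 1 ≠ 0) : ∀ t s, f t s = 1 := by
  have h1 : ∀ e : F, e ≠ 0 → ∀ t s, f (e ^ 2 * t) s = f t ((e ^ 2)⁻¹ * s) := by
    intro e he t s
    have := hsq e he t ((e ^ 2)⁻¹ * s)
    rw [mul_inv_cancel_left₀ (pow_ne_zero 2 he)] at this
    exact this
  have ha2 : a ^ 2 ≠ 0 := pow_ne_zero 2 ha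
  have hb2 : b ^ 2 ≠ 0 := pow_ne_zero 2 hb
  have E : ∀ t s, f t ((b ^ 2)⁻¹ * s) = f t ((a ^ 2)⁻¹ * s + s) := by
    intro t s
    rw [← h1 b hb, ← hab, add_mul, one_mul, hl, h1 a ha, hr]
  set δ : F := (b ^ 2)⁻¹ - (a ^ 2)⁻¹ - 1 with hδ
  have hδ0 : δ ≠ 0 := by
    intro h0
    apply hN
    have e1 : δ * (a ^ 2 * b ^ 2) = -((a ^ 2) ^ 2 + a ^ 2 + 1) := by
      rw [hδ]
      field_simp
      rw [← hab]
      ring
    rw [h0, zero_mul] at e1
    exact neg_eq_zero.mp e1.symm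
  have hz : ∀ t s, f t (δ * s) = 1 := by
    intro t s
    have e2 : (b ^ 2)⁻¹ * s = ((a ^ 2)⁻¹ * s + s) + δ * s := by rw [hδ]; ring
    have := E t s
    rw [e2, hr] at this
    exact mul_eq_left.mp this
  intro t s
  have := hz t (δ⁻¹ * s)
  rwa [mul_inv_cancel_left₀ hδ0] at this

open Polynomial in
theorem symbol_odd_exists [Fintype F] (hch : ringChar F ≠ 2) (h17 : 17 ≤ Fintype.card F) :
    ∃ a b : F, a ≠ 0 ∧ b ≠ 0 ∧ a ^ 2 + 1 = b ^ 2 ∧ (a ^ 2) ^ 2 + a ^ 2 + 1 ≠ 0 := by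
  have h2 : (2 : F) ≠ 0 := Ring.two_ne_zero hch
  set P : F[X] := X * (X ^ 2 - 1) * (X ^ 2 + 1) *
    ((1 - X ^ 2) ^ 4 + 4 * X ^ 2 * (1 - X ^ 2) ^ 2 + 16 * X ^ 4) with hP
  have hdeg : P.natDegree ≤ 13 := by rw [hP]; compute_degree
  have hP0 : P ≠ 0 := by
    rw [hP]
    refine mul_ne_zero (mul_ne_zero (mul_ne_zero X_ne_zero ?_) ?_) ?_
    · intro h; have := congrArg (Polynomial.eval 0) h; simp at this
    · intro h; have := congrArg (Polynomial.eval 0) h; simp at this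
    · intro h; have := congrArg (Polynomial.eval 0) h; simp at this
  obtain ⟨v, hv⟩ := Polynomial.exists_eval_ne_zero_of_natDegree_lt_card P hP0 (by
    rw [Cardinal.mk_fintype]
    exact_mod_cast lt_of_le_of_lt hdeg (by omega))
  rw [hP] at hv
  simp only [eval_mul, eval_X, eval_sub, eval_pow, eval_one, eval_add, eval_ofNat] at hv
  have hv0 : v ≠ 0 := fun h => hv (by rw [h]; ring)
  have hv1 : v ^ 2 - 1 ≠ 0 := fun h => hv (by rw [h]; ring)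
  have hv2 : v ^ 2 + 1 ≠ 0 := fun h => hv (by rw [h]; ring)
  have hv3 : (1 - v ^ 2) ^ 4 + 4 * v ^ 2 * (1 - v ^ 2) ^ 2 + 16 * v ^ 4 ≠ 0 :=
    fun h => hv (by rw [h]; ring)
  obtain ⟨w, hw⟩ : ∃ w : F, 2 * v * w = 1 :=
    ⟨(2 * v)⁻¹, mul_inv_cancel₀ (mul_ne_zero h2 hv0)⟩
  have hw0 : w ≠ 0 := by
    intro h; rw [h, mul_zero] at hw; exact zero_ne_one hw
  refine ⟨(1 - v ^ 2) * w, (1 + v ^ 2) * w, ?_, ?_, ?_, ?_⟩
  · refine mul_ne_zero ?_ hw0
    intro h; apply hv1; linear_combination -h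
  · refine mul_ne_zero ?_ hw0
    intro h; apply hv2; linear_combination h
  · linear_combination (-(1 + 2 * v * w)) * hw
  · intro h
    apply hv3
    linear_combination 16 * v ^ 4 * h - ((1 - v ^ 2) ^ 4 * (1 + 2 * v * w) * (1 + (2 * v * w) ^ 2)
      + 4 * v ^ 2 * (1 - v ^ 2) ^ 2 * (1 + 2 * v * w)) * hw

/-- Piece PB1o of S2086. -/
theorem symbol_odd {F : Type*} [Field F] [Fintype F] (hch : ringChar F ≠ 2)
    (h17 : 17 ≤ Fintype.card F)
    {Z : Type*} [CommGroup Z] (f : F → F → Z)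
    (hl : ∀ a b c, f (a + b) c = f a c * f b c) (hr : ∀ a b c, f a (b + c) = f a b * f a c)
    (hsq : ∀ e : F, e ≠ 0 → ∀ t s, f (e ^ 2 * t) (e ^ 2 * s) = f t s) :
    ∀ t s, f t s = 1 := by
  obtain ⟨a, b, ha, hb, hab, hN⟩ := symbol_odd_exists (F := F) hch h17
  exact symbol_odd_key f hl hr hsq a b ha hb hab hN

end odd

end Cfsg.Agent.Lib.Helper91.SymbolFF
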