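import Mathlib

/-!
Pure finite-field lemma for the Schur multiplier of `PSL_n(q)` (piece PB1e of S2086):
over a finite field of characteristic 2 with at least 8 elements, a bi-additive alternating
map `f : F → F → Z` into an abelian group that is invariant under
`(t, s) ↦ (e^2 t, e^2 s)` is trivial.
-/

namespace Cfsg.Agent.Lib.Helper91.SymbolFF2

section even

variable {F : Type*} [Field F] [Fintype F] [CharP F 2] {Z : Type*} [CommGroup Z]

/-- Hua-type lemma in characteristic 2: an additive map `g : F → Z` with values of exponent 2,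
`g 1 = 1` and `g x⁻¹ = g x` is trivial as soon as `8 ≤ |F|`. -/
theorem hua_even (h8 : 8 ≤ Fintype.card F) (g : F → Z)
    (hadd : ∀ x y, g (x + y) = g x * g y)
    (hg2 : ∀ x, g x * g x = 1)
    (hg1 : g 1 = 1)
    (hinv : ∀ x, x ≠ 0 → g x⁻¹ = g x) : ∀ x, g x = 1 := by
  classical
  have h2 : (2 : F) = 0 := CharTwo.two_eq_zero
  have hV0 : g 0 = 1 := by
    have := hadd 0 0
    rw [add_zero] at this
    exact left_eq_mul.mp this
  have hVadd : ∀ x y, g x = 1 → g y = 1 → g (x + y) = 1 := by
    intro x y hx hy; rw [hadd, hx, hy, one_mul]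
  have hVinv : ∀ x, g x = 1 → g x⁻¹ = 1 := by
    intro x hx
    by_cases h0 : x = 0
    · rw [h0, inv_zero]; exact hV0
    · rw [hinv x h0]; exact hx
  have hVs : ∀ x, x ≠ 0 → g (x + x⁻¹) = 1 := by
    intro x hx; rw [hadd, hinv x hx]; exact hg2 x
  -- Hua's identity
  have hHua : ∀ a b, g a = 1 → g b = 1 → g (a ^ 2 * b) = 1 := by
    intro a b ha hb
    by_cases ha0 : a = 0
    · rw [ha0]; simpa using hV0
    by_cases hb0 : b = 0
    · rw [hb0]; simpa using hV0
    by_cases hab : a * b = 1
    · have : a ^ 2 * b = a := by rw [pow_two, mul_assoc, hab, mul_one]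
      rw [this]; exact ha
    have hai : a * a⁻¹ = 1 := mul_inv_cancel₀ ha0
    have hbi : b * b⁻¹ = 1 := mul_inv_cancel₀ hb0
    have hc0 : b⁻¹ + a ≠ 0 := by
      intro h
      apply hab
      have : b⁻¹ = a := by linear_combination h - a * h2
      rw [← this]; exact inv_mul_cancel₀ hb0
    have hci : (b⁻¹ + a) * (b⁻¹ + a)⁻¹ = 1 := mul_inv_cancel₀ hc0
    have hc : g (b⁻¹ + a) = 1 := hVadd _ _ (hVinv b hb) ha
    have key : (a + a ^ 2 * b) * (a⁻¹ + (b⁻¹ + a)⁻¹) = 1 := by
      linear_combination (1 + a * b) * hai + a * b * hci - a * (b⁻¹ + a)⁻¹ * hbi + a * b * h2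
    have hd : g (a⁻¹ + (b⁻¹ + a)⁻¹) = 1 := hVadd _ _ (hVinv a ha) (hVinv _ hc)
    have he : g (a + (a⁻¹ + (b⁻¹ + a)⁻¹)⁻¹) = 1 := hVadd _ _ ha (hVinv _ hd)
    have e1 : (a⁻¹ + (b⁻¹ + a)⁻¹)⁻¹ = a + a ^ 2 * b := (eq_inv_of_mul_eq_one_left key).symm
    have : a ^ 2 * b = a + (a⁻¹ + (b⁻¹ + a)⁻¹)⁻¹ := by
      rw [e1]; linear_combination (-a) * h2
    rw [this]; exact he
  have hVsq : ∀ a, g a = 1 → g (a ^ 2) = 1 := fun a ha => by simpa using hHua a 1 ha hg1
  have hVpow : ∀ (k : ℕ) (a : F), g a = 1 → g (a ^ (2 ^ k)) = 1 := by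
    intro k
    induction k with
    | zero => intro a ha; simpa using ha
    | succ k ih => intro a ha; rw [pow_succ, pow_mul]; exact hVsq _ (ih a ha)
  obtain ⟨n, -, hn⟩ := FiniteField.card F 2
  have hVsqrt : ∀ a, g a = 1 → ∃ c, g c = 1 ∧ c ^ 2 = a := by
    intro a ha
    refine ⟨a ^ (2 ^ ((n : ℕ) - 1)), hVpow _ a ha, ?_⟩
    rw [← pow_mul, ← pow_succ, Nat.sub_add_cancel n.pos, ← hn, FiniteField.pow_card]
  have hVmul : ∀ a b, g a = 1 → g b = 1 → g (a * b) = 1 := by
    intro a b ha hb
    obtain ⟨c, hc, rfl⟩ := hVsqrt a ha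
    exact hHua c b hc hb
  by_contra hne
  push Not at hne
  obtain ⟨z, hz⟩ := hne
  have hz0 : z ≠ 0 := fun h => hz (h ▸ hV0)
  obtain ⟨v, hv⟩ : ∃ v : F, v = z + z⁻¹ := ⟨_, rfl⟩
  have hgv : g v = 1 := by rw [hv]; exact hVs z hz0
  have hzz : z * z = v * z + 1 := by
    have := mul_inv_cancel₀ hz0
    rw [hv]; linear_combination -this - h2
  have hk : ∀ k, g k = 1 → k = 0 ∨ k = v := by
    intro k hk
    have hzk : z + k ≠ 0 := by
      intro h
      apply hz
      have : z = k := by linear_combination h - k * h2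
      rw [this]; exact hk
    obtain ⟨vk, hvk⟩ : ∃ vk : F, vk = (z + k) + (z + k)⁻¹ := ⟨_, rfl⟩
    have hgvk : g vk = 1 := by rw [hvk]; exact hVs _ hzk
    have hzzk : (z + k) * (z + k) = vk * (z + k) + 1 := by
      have := mul_inv_cancel₀ hzk
      rw [hvk]; linear_combination -this - h2
    have e : (v + vk) * z = k * k + vk * k := by
      linear_combination -hzzk + hzz + (v * z - vk * k + z * k) * h2
    have hvv : vk = v := by
      by_contra hne'
      have hd : v + vk ≠ 0 := by
        intro h; apply hne'; linear_combination h - v * h2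
      apply hz
      have : z = (k * k + vk * k) * (v + vk)⁻¹ := by
        rw [← e, mul_comm (v + vk) z, mul_inv_cancel_right₀ hd]
      rw [this]
      exact hVmul _ _ (hVadd _ _ (hVmul _ _ hk hk) (hVmul _ _ hgvk hk))
        (hVinv _ (hVadd _ _ hgv hgvk))
    rw [hvv] at e
    have e2 : k * (k + v) = 0 := by linear_combination -e + v * z * h2
    rcases mul_eq_zero.mp e2 with h | h
    · left; exact h
    · right; linear_combination h - v * h2
  have hv1 : v = 1 := by
    rcases hk 1 hg1 with h | h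
    · exact absurd h one_ne_zero
    · exact h.symm
  rw [hv1] at hk
  have hall : ∀ x : F, x = 0 ∨ x = 1 ∨ x * x + x + 1 = 0 := by
    intro x
    by_cases hx0 : x = 0
    · left; exact hx0
    right
    have hxi := mul_inv_cancel₀ hx0
    rcases hk _ (hVs x hx0) with h | h
    · left
      have : (x + 1) * (x + 1) = 0 := by linear_combination x * h - hxi + x * h2
      have h1 : x + 1 = 0 := by simpa using this
      linear_combination h1 - h2
    · right
      linear_combination x * h - hxi + x * h2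
  obtain ⟨x, -, hx⟩ := Finset.exists_mem_notMem_of_card_lt_card
    (s := ({0, 1} : Finset F)) (t := Finset.univ) (by
      rw [Finset.card_univ]; exact lt_of_le_of_lt Finset.card_le_two (by omega))
  obtain ⟨y, -, hy⟩ := Finset.exists_mem_notMem_of_card_lt_card
    (s := ({0, 1, x, x + 1} : Finset F)) (t := Finset.univ) (by
      rw [Finset.card_univ]; exact lt_of_le_of_lt Finset.card_le_four (by omega))
  simp only [Finset.mem_insert, Finset.mem_singleton, not_or] at hx hy
  have hx' : x * x + x + 1 = 0 := by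
    rcases hall x with h | h | h
    · exact absurd h hx.1
    · exact absurd h hx.2
    · exact h
  have hy' : y * y + y + 1 = 0 := by
    rcases hall y with h | h | h
    · exact absurd h hy.1
    · exact absurd h hy.2.1
    · exact h
  have : (y + x) * (y + x + 1) = 0 := by linear_combination hy' + hx' + (x * y - 1) * h2
  rcases mul_eq_zero.mp this with h | h
  · apply hy.2.2.1; linear_combination h - x * h2
  · apply hy.2.2.2; linear_combination h - (x + 1) * h2

/-- Piece PB1e of S2086. -/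
theorem symbol_even {F : Type*} [Field F] [Fintype F] [CharP F 2] (h8 : 8 ≤ Fintype.card F)
    {Z : Type*} [CommGroup Z] (f : F → F → Z)
    (hl : ∀ a b c, f (a + b) c = f a c * f b c) (hr : ∀ a b c, f a (b + c) = f a b * f a c)
    (halt : ∀ a, f a a = 1)
    (hsq : ∀ e : F, e ≠ 0 → ∀ t s, f (e ^ 2 * t) (e ^ 2 * s) = f t s) :
    ∀ t s, f t s = 1 := by
  have hc : ∀ c : F, c ≠ 0 → ∀ t s, f (c * t) (c * s) = f t s := by
    intro c hc0 t s
    obtain ⟨e, he⟩ := FiniteField.isSquare_of_char_two (ringChar.eq F 2) c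
    have he0 : e ≠ 0 := by rintro rfl; apply hc0; rw [he, mul_zero]
    have := hsq e he0 t s
    rwa [pow_two, ← he] at this
  have hf0l : ∀ s, f 0 s = 1 := by
    intro s
    have := hl 0 0 s
    rw [add_zero] at this
    exact left_eq_mul.mp this
  have hf2 : ∀ t s, f t s * f t s = 1 := by
    intro t s
    rw [← hl, CharTwo.add_self_eq_zero, hf0l]
  have hsym : ∀ t s, f s t = f t s := by
    intro t s
    have h1 := halt (t + s)
    rw [hl, hr, hr, halt, halt, one_mul, mul_one] at h1
    have h2 := hf2 t s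
    exact mul_left_cancel (h1.trans h2.symm)
  have hg := hua_even h8 (fun x => f 1 x) (fun x y => hr 1 x y) (fun x => hf2 1 x) (halt 1) (by
    intro x hx
    show f 1 x⁻¹ = f 1 x
    have := hc x hx 1 x⁻¹
    rw [mul_one, mul_inv_cancel₀ hx] at this
    rw [← this, hsym])
  intro t s
  by_cases ht : t = 0
  · rw [ht]; exact hf0l s
  · have := hc t ht 1 (t⁻¹ * s)
    rw [mul_one, mul_inv_cancel_left₀ ht] at this
    rw [this]; exact hg _

end even

end Cfsg.Agent.Lib.Helper91.SymbolFF2
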