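import Mathlib
import Cfsg.Agent.Lib.Helper41.TMStmt
import Cfsg.Agent.Lib.Helper44.Der3
import Cfsg.Agent.Lib.Helper14.OrthIndex
import Cfsg.Agent.Lib.Helper45.OmegaCenter

/-!
# S5987 piece ODDOMEGA (helper91, second seat): isometries of odd order of the minus form lie in
`Omega` (port of `Helper91.TPODDOMEGA`)
-/

set_option autoImplicit false

namespace Cfsg.Agent.Lib.Helper91.TMODDOMEGA

open Module QuadraticMap Matrix
open Cfsg.Agent.Lib.Helper41.TMStmt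
open Cfsg.Agent.Lib.Helper45.OMiStmt (M Aniso)
open Cfsg.Agent.Lib.Helper44.QSpace Cfsg.Agent.Lib.Helper44.OGroup
open Cfsg.Agent.Lib.Helper44.NegPairs Cfsg.Agent.Lib.Helper44.Omega2 Cfsg.Agent.Lib.Helper44.OMat
open Cfsg.Agent.Lib.Helper44.CD2a

universe u

theorem main : OddOmega.{u} := by
  intro F _ _ a₀ b₀ hab d hd r hr x hx hxr
  classical
  have hS : Sep (minusQ (d - 1) F a₀ b₀) :=
    Cfsg.Agent.Lib.Helper45.OmegaCenter.sep_minusQ' (d - 1) a₀ b₀ hab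
  have hx' : x ∈ Cfsg.isometryGroup F ⇑(minusQ (d - 1) F a₀ b₀) := hx
  show x ∈ Cfsg.Geo.omegaGL ⇑(minusQ (d - 1) F a₀ b₀)
  rw [Cfsg.Agent.Lib.Helper44.Der3.mem_omegaGL_iff]
  have hcard : Fintype.card (M d) = 2 * d := by
    rw [Fintype.card_sum, Fintype.card_sum, Fintype.card_fin, Fintype.card_fin]
    omega
  by_cases h2 : (2 : F) = 0
  · -- characteristic two
    haveI : CharP F 2 := CharTwo.of_one_ne_zero_of_two_eq_zero one_ne_zero h2
    have hfr : finrank F (M d → F) = 2 * d := by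
      rw [Module.finrank_fintype_fun_eq_card, hcard]
    have hG : Good (minusQ (d - 1) F a₀ b₀) := good_of_card hS (Or.inr (by rw [hfr]; omega))
    obtain ⟨g, hg⟩ : ∃ g : ↥(Cfsg.isometryGroup F ⇑(minusQ (d - 1) F a₀ b₀)), g = ⟨x, hx'⟩ :=
      ⟨_, rfl⟩
    have hgr' : g ^ r = 1 := by
      rw [hg]
      exact Subtype.ext hxr
    have hgr : (isoEquiv (minusQ (d - 1) F a₀ b₀) g) ^ r = 1 := by
      rw [← map_pow, hgr', map_one]
    have hc := Cfsg.Agent.Lib.Helper44.Der3.mem_comm_of_odd_pow hS hG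
      (isoEquiv (minusQ (d - 1) F a₀ b₀) g) hr hgr
    exact ⟨g, (mem_omega_iff (minusQ (d - 1) F a₀ b₀) g).mpr hc, by rw [hg]⟩
  · -- odd characteristic: `x` is a square
    obtain ⟨g, hg⟩ : ∃ g : ↥(Cfsg.isometryGroup F ⇑(minusQ (d - 1) F a₀ b₀)), g = ⟨x, hx'⟩ :=
      ⟨_, rfl⟩
    have hgr' : g ^ r = 1 := by
      rw [hg]
      exact Subtype.ext hxr
    have hcard2 : 2 ≤ Fintype.card (M d) := by
      rw [hcard]
      omega
    obtain ⟨k, hk⟩ := hr
    have hyy : g ^ (k + 1) * g ^ (k + 1) = g := by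
      rw [← pow_add, show k + 1 + (k + 1) = r + 1 by omega, pow_succ, hgr', one_mul]
    refine ⟨g ^ (k + 1) * g ^ (k + 1),
      Cfsg.Agent.Lib.Helper14.OrthIndex.sq_mem_omega h2 (minusQ (d - 1) F a₀ b₀) hS hcard2
        (g ^ (k + 1)), ?_⟩
    rw [hyy, hg]

end Cfsg.Agent.Lib.Helper91.TMODDOMEGA
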